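import Cfsg.Agent.Lib.Helper17.ChevOrbitTab

set_option autoImplicit false

/-!
# Generation of the Chevalley groups by `N` and one or two fundamental root subgroups
-/

namespace Cfsg.Agent.Lib.Helper17

open Cfsg Cfsg.Lie

section gen

variable {F : Type*} [Field F] (D : ChevalleyDatum)
  (hD : D ∈ [chevG2, chevB2, chevD4, chevF4, chevE6, chevE7, chevE8])

include hD

/-- two root lengths: `N` and a short fundamental root subgroup generate, when the constant of the
commutator of two short root elements with a long root as value is invertible -/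
theorem group_le_of_short (a b r s w : ℕ) (ε : ℤ) (two : TwoOrb D a b) (ha : a < D.nroots)
    (hr : Orb D a r) (hs : Orb D a s) (hsr : s ≠ r) (hsn : s ≠ D.neg r)
    (hct : D.commTerms r s = [(w, ε, 1, 1)]) (hw : Orb D b w) (hε : ((ε : ℤ) : F) ≠ 0)
    (i : ℕ) (hia : Orb D a (D.simple i)) :
    D.group F ≤ D.monomialSubgroup F ⊔ D.rootSubgroup F (D.simple i) := by
  have hN : D.monomialSubgroup F ≤ D.monomialSubgroup F ⊔ D.rootSubgroup F (D.simple i) :=
    le_sup_left
  have hXi := xIn_of_rootSubgroup_le D hD _ (D.simple i)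
    (le_sup_right : _ ≤ D.monomialSubgroup F ⊔ D.rootSubgroup F (D.simple i))
  have hXa := xIn_of_orb D hD _ hN (hia.symm hD) hXi
  have hXr := xIn_of_orb D hD _ hN hr hXa
  have hXs := xIn_of_orb D hD _ hN hs hXa
  have hXw := xIn_of_terms D hD _ r s w ε (hr.lt hD ha) (hs.lt hD ha) hsr hsn hct hε hXr hXs
  exact group_le_of_twoOrb D hD _ hN (two.move Orb.base (hw.symm hD)) hXa hXw

/-- one root length: `N` and any fundamental root subgroup generate -/
theorem group_le_of_single (a : ℕ) (two : TwoOrb D a a) (i : ℕ) (hia : Orb D a (D.simple i)) :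
    D.group F ≤ D.monomialSubgroup F ⊔ D.rootSubgroup F (D.simple i) := by
  have hN : D.monomialSubgroup F ≤ D.monomialSubgroup F ⊔ D.rootSubgroup F (D.simple i) :=
    le_sup_left
  have hXi := xIn_of_rootSubgroup_le D hD _ (D.simple i)
    (le_sup_right : _ ≤ D.monomialSubgroup F ⊔ D.rootSubgroup F (D.simple i))
  have hXa := xIn_of_orb D hD _ hN (hia.symm hD) hXi
  exact group_le_of_twoOrb D hD _ hN two hXa hXa

/-- `N`, a short and a long fundamental root subgroup generate -/
theorem group_le_of_two_simple (a b : ℕ) (two : TwoOrb D a b) (i j : ℕ)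
    (hia : Orb D a (D.simple i)) (hjb : Orb D b (D.simple j)) :
    D.group F ≤ D.monomialSubgroup F ⊔ D.rootSubgroup F (D.simple i) ⊔
      D.rootSubgroup F (D.simple j) := by
  have hN : D.monomialSubgroup F ≤ D.monomialSubgroup F ⊔ D.rootSubgroup F (D.simple i) ⊔
      D.rootSubgroup F (D.simple j) := le_sup_left.trans le_sup_left
  have hXi := xIn_of_rootSubgroup_le D hD _ (D.simple i)
    ((le_sup_right : _ ≤ D.monomialSubgroup F ⊔ D.rootSubgroup F (D.simple i)).trans
      (le_sup_left : _ ≤ D.monomialSubgroup F ⊔ D.rootSubgroup F (D.simple i) ⊔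
        D.rootSubgroup F (D.simple j)))
  have hXj := xIn_of_rootSubgroup_le D hD _ (D.simple j)
    (le_sup_right : _ ≤ D.monomialSubgroup F ⊔ D.rootSubgroup F (D.simple i) ⊔
        D.rootSubgroup F (D.simple j))
  have hXa := xIn_of_orb D hD _ hN (hia.symm hD) hXi
  have hXb := xIn_of_orb D hD _ hN (hjb.symm hD) hXj
  exact group_le_of_twoOrb D hD _ hN two hXa hXb

end gen

section types

variable {F : Type*} [Field F]

theorem g2_gen_short (h3 : ((3 : ℤ) : F) ≠ 0) (i : ℕ) (hi : i < chevG2.rank)
    (hshort : chevG2.isLong (chevG2.simple i) = false) :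
    chevG2.group F ≤ chevG2.monomialSubgroup F ⊔ chevG2.rootSubgroup F (chevG2.simple i) :=
  group_le_of_short chevG2 (by simp) _ _ 2 3 0 3 g2_two (by decide)
    (g2_orb 2 (by decide +kernel)) (g2_orb 3 (by decide +kernel)) (by decide) (by decide)
    (by decide) (g2_orbL 0 (by decide +kernel)) h3 i (g2_short i hi hshort)

theorem b2_gen_short (h2 : ((2 : ℤ) : F) ≠ 0) (i : ℕ) (hi : i < chevB2.rank)
    (hshort : chevB2.isLong (chevB2.simple i) = false) :
    chevB2.group F ≤ chevB2.monomialSubgroup F ⊔ chevB2.rootSubgroup F (chevB2.simple i) :=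
  group_le_of_short chevB2 (by simp) _ _ 1 2 0 2 b2_two (by decide)
    (b2_orb 1 (by decide +kernel)) (b2_orb 2 (by decide +kernel)) (by decide) (by decide)
    (by decide) (b2_orbL 0 (by decide +kernel)) h2 i (b2_short i hi hshort)

theorem f4_gen_short (h2 : ((2 : ℤ) : F) ≠ 0) (i : ℕ) (hi : i < chevF4.rank)
    (hshort : chevF4.isLong (chevF4.simple i) = false) :
    chevF4.group F ≤ chevF4.monomialSubgroup F ⊔ chevF4.rootSubgroup F (chevF4.simple i) :=
  group_le_of_short chevF4 (by simp) _ _ 3 18 0 2 f4_two (by decide)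
    (f4_orb 3 (by decide +kernel)) (f4_orb 18 (by decide +kernel)) (by decide) (by decide)
    (by decide) (f4_orbL 0 (by decide +kernel)) h2 i (f4_short i hi hshort)

theorem d4_gen_single (i : ℕ) (hi : i < chevD4.rank) :
    chevD4.group F ≤ chevD4.monomialSubgroup F ⊔ chevD4.rootSubgroup F (chevD4.simple i) :=
  group_le_of_single chevD4 (by simp) _ d4_two i
    ((d4_two.all _ (Cfsg.Agent.Lib.Helper36.simple_lt chevD4 (by simp) i hi)).elim id id)

theorem e6_gen_single (i : ℕ) (hi : i < chevE6.rank) :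
    chevE6.group F ≤ chevE6.monomialSubgroup F ⊔ chevE6.rootSubgroup F (chevE6.simple i) :=
  group_le_of_single chevE6 (by simp) _ e6_two i
    ((e6_two.all _ (Cfsg.Agent.Lib.Helper36.simple_lt chevE6 (by simp) i hi)).elim id id)

theorem e7_gen_single (i : ℕ) (hi : i < chevE7.rank) :
    chevE7.group F ≤ chevE7.monomialSubgroup F ⊔ chevE7.rootSubgroup F (chevE7.simple i) :=
  group_le_of_single chevE7 (by simp) _ e7_two i
    ((e7_two.all _ (Cfsg.Agent.Lib.Helper36.simple_lt chevE7 (by simp) i hi)).elim id id)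

theorem e8_gen_single (i : ℕ) (hi : i < chevE8.rank) :
    chevE8.group F ≤ chevE8.monomialSubgroup F ⊔ chevE8.rootSubgroup F (chevE8.simple i) :=
  group_le_of_single chevE8 (by simp) _ e8_two i
    ((e8_two.all _ (Cfsg.Agent.Lib.Helper36.simple_lt chevE8 (by simp) i hi)).elim id id)

/-- a prime different from the characteristic is invertible -/
theorem intCast_ne_zero_of_ringChar (p : ℕ) (hp : p.Prime) (h : ringChar F ≠ p) :
    ((p : ℤ) : F) ≠ 0 := by
  intro h0
  rw [Int.cast_natCast] at h0
  have h1 := (ringChar.spec F p).mp h0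
  rcases (Nat.dvd_prime hp).mp h1 with h2 | h2
  · exact CharP.ringChar_ne_one h2
  · exact h h2

end types

end Cfsg.Agent.Lib.Helper17
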