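import Cfsg.Agent.Lib.Helper17.ChevBruhatEx
import Cfsg.Agent.Lib.Helper17.ChevPerf
import Cfsg.Agent.Lib.Helper36.ChevW0a

set_option autoImplicit false

/-!
# Orbits of the roots under the fundamental reflections, and generation by `N` and root subgroups

A subgroup containing the monomial subgroup `N` and the root subgroup `X_s` contains `X_r` for
every root `r` in the orbit of `s` under the reflections in the fundamental roots.
-/

namespace Cfsg.Agent.Lib.Helper17

open Cfsg Cfsg.Lie

/-- `r` is obtained from `s` by reflections in fundamental roots -/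
inductive Orb (D : ChevalleyDatum) (s : ℕ) : ℕ → Prop
  | base : Orb D s s
  | step (i : ℕ) (hi : i < D.rank) (r : ℕ) (hr : r < D.nroots) (h : Orb D s r) :
      Orb D s (D.reflectRoot i r)

theorem Orb.trans {D : ChevalleyDatum} {s r t : ℕ} (h1 : Orb D s r) (h2 : Orb D r t) :
    Orb D s t := by
  induction h2 with
  | base => exact h1
  | step i hi u hu _ ih => exact Orb.step i hi u hu ih

theorem reflectRoot_lt (D : ChevalleyDatum)
    (hD : D ∈ [chevG2, chevB2, chevD4, chevF4, chevE6, chevE7, chevE8]) (i : ℕ) (hi : i < D.rank)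
    (s : ℕ) (hs : s < D.nroots) : D.reflectRoot i s < D.nroots := by
  obtain ⟨sg, hW, hsg⟩ := exists_wsys D hD
  rw [← hsg i hi s hs]
  exact hW.hlt i s hs

theorem reflectRoot_invol (D : ChevalleyDatum)
    (hD : D ∈ [chevG2, chevB2, chevD4, chevF4, chevE6, chevE7, chevE8]) (i : ℕ) (hi : i < D.rank)
    (s : ℕ) (hs : s < D.nroots) : D.reflectRoot i (D.reflectRoot i s) = s := by
  obtain ⟨sg, hW, hsg⟩ := exists_wsys D hD
  rw [← hsg i hi s hs, ← hsg i hi _ (hW.hlt i s hs)]
  exact hW.hinv i s hs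

theorem Orb.lt {D : ChevalleyDatum}
    (hD : D ∈ [chevG2, chevB2, chevD4, chevF4, chevE6, chevE7, chevE8]) {s r : ℕ}
    (hs : s < D.nroots) (h : Orb D s r) : r < D.nroots := by
  induction h with
  | base => exact hs
  | step i hi u hu _ _ => exact reflectRoot_lt D hD i hi u hu

theorem Orb.symm {D : ChevalleyDatum}
    (hD : D ∈ [chevG2, chevB2, chevD4, chevF4, chevE6, chevE7, chevE8]) {s r : ℕ}
    (h : Orb D s r) : Orb D r s := by
  induction h with
  | base => exact Orb.base
  | step i hi u hu _ ih =>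
    have h1 : Orb D (D.reflectRoot i u) (D.reflectRoot i (D.reflectRoot i u)) :=
      Orb.step i hi _ (reflectRoot_lt D hD i hi u hu) Orb.base
    rw [reflectRoot_invol D hD i hi u hu] at h1
    exact h1.trans ih

/-! ### root subgroups inside a subgroup -/

section grp

variable {F : Type*} [Field F] (D : ChevalleyDatum)
  (hD : D ∈ [chevG2, chevB2, chevD4, chevF4, chevE6, chevE7, chevE8])

/-- the root subgroup `X_r` lies in `K` -/
def XIn (K : Subgroup (GL D.Idx F)) (r : ℕ) : Prop :=
  ∀ t : F, Cfsg.Agent.Lib.Helper18.xU D hD r t ∈ K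

theorem xIn_of_rootSubgroup_le (K : Subgroup (GL D.Idx F)) (r : ℕ)
    (h : D.rootSubgroup F r ≤ K) : XIn D hD K r := fun t =>
  h (Subgroup.subset_closure ⟨t, Cfsg.Agent.Lib.Helper18.coe_xU D hD r t⟩)

theorem xIn_reflect (K : Subgroup (GL D.Idx F)) (hN : D.monomialSubgroup F ≤ K) (i : ℕ)
    (hi : i < D.rank) (r : ℕ) (hr : r < D.nroots) (h : XIn D hD K r) :
    XIn D hD K (D.reflectRoot i r) := by
  intro t
  obtain ⟨wt, et, hnd⟩ := Cfsg.Agent.Lib.Helper36.exists_ndata D hD i hi
  obtain ⟨n, hnN, hn⟩ := Cfsg.Agent.Lib.Helper36.exists_n_monomial (F := F) D hD i hi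
  have hsm : Cfsg.Agent.Lib.Helper36.SMap D (n : Matrix D.Idx D.Idx F) (D.reflectRoot i)
      (fun s => ((Cfsg.Agent.Lib.Helper36.eta et s : ℤ) : F)) := by
    rw [hn]; exact hnd.smap hD
  have hc := conj_xU D hD n _ _ hsm r hr (((Cfsg.Agent.Lib.Helper36.eta et r : ℤ) : F) * t)
  have hsq : ((Cfsg.Agent.Lib.Helper36.eta et r : ℤ) : F) *
      (((Cfsg.Agent.Lib.Helper36.eta et r : ℤ) : F) * t) = t := by
    rcases hsm.sign r hr with h1 | h1 <;> rw [h1] <;> simp
  rw [hsq] at hc
  rw [← hc]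
  exact K.mul_mem (K.mul_mem (hN hnN) (h _)) (K.inv_mem (hN hnN))

theorem xIn_of_orb (K : Subgroup (GL D.Idx F)) (hN : D.monomialSubgroup F ≤ K) {s r : ℕ}
    (h : Orb D s r) (hs : XIn D hD K s) : XIn D hD K r := by
  induction h with
  | base => exact hs
  | step i hi u hu _ ih => exact xIn_reflect D hD K hN i hi u hu ih

/-- the group lies in a subgroup containing all root subgroups -/
theorem group_le_of_xIn (K : Subgroup (GL D.Idx F)) (h : ∀ r < D.nroots, XIn D hD K r) :
    D.group F ≤ K := by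
  unfold ChevalleyDatum.group
  rw [Subgroup.closure_le]
  rintro g ⟨r, t, hg⟩
  have : g = Cfsg.Agent.Lib.Helper18.xU D hD r.1 t := Units.ext (by
    rw [hg, Cfsg.Agent.Lib.Helper18.coe_xU]; simp [ChevalleyDatum.x, r.2])
  rw [this]
  exact h r.1 r.2 t

/-- a single-term commutator relation with an invertible constant puts `X_w` in any subgroup
containing `X_r` and `X_s` -/
theorem xIn_of_terms (K : Subgroup (GL D.Idx F)) (r s w : ℕ) (ε : ℤ) (hr : r < D.nroots)
    (hs : s < D.nroots) (hsr : s ≠ r) (hsn : s ≠ D.neg r)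
    (hct : D.commTerms r s = [(w, ε, 1, 1)]) (hε : ((ε : ℤ) : F) ≠ 0)
    (hXr : XIn D hD K r) (hXs : XIn D hD K s) : XIn D hD K w := by
  intro c
  have hcf := cf_of_mem (F := F) D hD r s hr hs hsr hsn 1 (-(c / (ε : F)))
  have hw : D.wordMat F (D.commWord F r s 1 (-(c / (ε : F)))) = D.x F w c := by
    unfold ChevalleyDatum.commWord ChevalleyDatum.wordMat
    rw [hct]
    simp only [List.map_cons, List.map_nil, List.prod_cons, List.prod_nil, mul_one, pow_one]
    congr 1
    field_simp
  rw [hw] at hcf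
  have hU : Cfsg.Agent.Lib.Helper18.xU D hD s (-(c / (ε : F))) *
      Cfsg.Agent.Lib.Helper18.xU D hD r 1 =
      Cfsg.Agent.Lib.Helper18.xU D hD r 1 * Cfsg.Agent.Lib.Helper18.xU D hD s (-(c / (ε : F))) *
        Cfsg.Agent.Lib.Helper18.xU D hD w c :=
    Units.ext (by simpa only [Units.val_mul, Cfsg.Agent.Lib.Helper18.coe_xU] using hcf)
  have h2 : Cfsg.Agent.Lib.Helper18.xU D hD w c =
      (Cfsg.Agent.Lib.Helper18.xU D hD s (-(c / (ε : F))))⁻¹ *
        (Cfsg.Agent.Lib.Helper18.xU D hD r 1)⁻¹ *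
        (Cfsg.Agent.Lib.Helper18.xU D hD s (-(c / (ε : F))) *
          Cfsg.Agent.Lib.Helper18.xU D hD r 1) := by
    rw [hU]
    group
  rw [h2]
  exact K.mul_mem (K.mul_mem (K.inv_mem (hXs _)) (K.inv_mem (hXr _)))
    (K.mul_mem (hXs _) (hXr _))

end grp

/-! ### the certificate -/

/-- the roots reached by following the reflection steps `(i, r) ↦ w_i r` from the list `acc` -/
noncomputable def reachL (sg : ℕ → ℕ → ℕ) (steps : List (ℕ × ℕ)) (acc : List ℕ) : List ℕ :=
  List.rec (motive := fun _ => List ℕ → List ℕ) (fun acc => acc)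
    (fun p _ ih acc => ih (cond (Weyl.elemB p.2 acc) (sg p.1 p.2 :: acc) acc)) steps acc

theorem reachL_nil (sg : ℕ → ℕ → ℕ) (acc : List ℕ) : reachL sg [] acc = acc := rfl

theorem reachL_cons (sg : ℕ → ℕ → ℕ) (p : ℕ × ℕ) (steps : List (ℕ × ℕ)) (acc : List ℕ) :
    reachL sg (p :: steps) acc =
      reachL sg steps (cond (Weyl.elemB p.2 acc) (sg p.1 p.2 :: acc) acc) := rfl

theorem reachL_spec (D : ChevalleyDatum)
    (hD : D ∈ [chevG2, chevB2, chevD4, chevF4, chevE6, chevE7, chevE8]) (sg : ℕ → ℕ → ℕ)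
    (hsg : ∀ i < D.rank, ∀ s < D.nroots, sg i s = D.reflectRoot i s) (s : ℕ)
    (hs : s < D.nroots) (steps : List (ℕ × ℕ)) (hst : ∀ p ∈ steps, p.1 < D.rank)
    (acc : List ℕ) (hacc : ∀ r ∈ acc, Orb D s r) :
    ∀ r ∈ reachL sg steps acc, Orb D s r := by
  induction steps generalizing acc with
  | nil => exact hacc
  | cons p steps ih =>
    rw [reachL_cons]
    apply ih (fun q hq => hst q (List.mem_cons_of_mem _ hq))
    have hp : p.1 < D.rank := hst p List.mem_cons_self
    cases hb : Weyl.elemB p.2 acc with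
    | false => exact hacc
    | true =>
      intro r hr
      have hmem : p.2 ∈ acc := (Weyl.elemB_iff _ _).mp hb
      have ho := hacc p.2 hmem
      have hlt := ho.lt hD hs
      rcases List.mem_cons.mp hr with rfl | hr'
      · rw [hsg p.1 hp p.2 hlt]
        exact Orb.step p.1 hp p.2 hlt ho
      · exact hacc r hr'

/-- the check that `r` is reached from `s` along the steps -/
noncomputable def orbOK (D : ChevalleyDatum) (gens : List ℕ) (steps : List (ℕ × ℕ)) (s r : ℕ) :
    Bool :=
  and (Nat.blt s D.nroots) (and (allL steps (fun p => Nat.blt p.1 D.rank))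
    (Weyl.elemB r (reachL (Weyl.sgF gens) steps [s])))

theorem orb_of_orbOK (D : ChevalleyDatum)
    (hD : D ∈ [chevG2, chevB2, chevD4, chevF4, chevE6, chevE7, chevE8]) (gens : List ℕ)
    (hlink : Weyl.linkOK D gens = true) (steps : List (ℕ × ℕ)) (s r : ℕ)
    (h : orbOK D gens steps s r = true) : Orb D s r := by
  unfold orbOK at h
  rw [Bool.and_eq_true, Bool.and_eq_true, allL_iff, Nat.blt_eq] at h
  obtain ⟨hs, hst, hr⟩ := h
  refine reachL_spec D hD _ (fun i hi s hs => Weyl.linkOK_spec hlink i hi s hs) s hs steps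
    (fun p hp => by simpa using hst p hp) [s] ?_ r ((Weyl.elemB_iff _ _).mp hr)
  intro r hr
  rw [List.mem_singleton] at hr
  rw [hr]
  exact Orb.base

/-- every root lies in the orbit of `a` or of `b` -/
structure TwoOrb (D : ChevalleyDatum) (a b : ℕ) : Prop where
  all : ∀ r < D.nroots, Orb D a r ∨ Orb D b r

theorem TwoOrb.move {D : ChevalleyDatum} {a b a' b' : ℕ} (h : TwoOrb D a b)
    (ha : Orb D a' a) (hb : Orb D b' b) : TwoOrb D a' b' :=
  ⟨fun r hr => (h.all r hr).imp (fun h1 => ha.trans h1) (fun h1 => hb.trans h1)⟩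

/-- the check for `TwoOrb` -/
noncomputable def twoOK (D : ChevalleyDatum) (gens : List ℕ) (sa sb : List (ℕ × ℕ)) (a b : ℕ) :
    Bool :=
  and (Nat.blt a D.nroots) (and (Nat.blt b D.nroots)
    (and (allL sa (fun p => Nat.blt p.1 D.rank)) (and (allL sb (fun p => Nat.blt p.1 D.rank))
      (allN D.nroots (fun r => or (Weyl.elemB r (reachL (Weyl.sgF gens) sa [a]))
        (Weyl.elemB r (reachL (Weyl.sgF gens) sb [b])))))))

theorem twoOrb_of_twoOK (D : ChevalleyDatum)
    (hD : D ∈ [chevG2, chevB2, chevD4, chevF4, chevE6, chevE7, chevE8]) (gens : List ℕ)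
    (hlink : Weyl.linkOK D gens = true) (sa sb : List (ℕ × ℕ)) (a b : ℕ)
    (h : twoOK D gens sa sb a b = true) : TwoOrb D a b := by
  unfold twoOK at h
  simp only [Bool.and_eq_true, allN_iff, Bool.or_eq_true] at h
  obtain ⟨ha, hb, hsa, hsb, hall⟩ := h
  refine ⟨fun r hr => ?_⟩
  rcases hall r hr with h1 | h1
  · left
    apply orb_of_orbOK D hD gens hlink sa a r
    unfold orbOK
    rw [ha, hsa, h1]; rfl
  · right
    apply orb_of_orbOK D hD gens hlink sb b r
    unfold orbOK
    rw [hb, hsb, h1]; rfl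

section main

variable {F : Type*} [Field F] (D : ChevalleyDatum)
  (hD : D ∈ [chevG2, chevB2, chevD4, chevF4, chevE6, chevE7, chevE8])

include hD in
/-- a subgroup containing `N`, `X_a` and `X_b` contains the group when the orbits of `a` and `b`
cover the roots -/
theorem group_le_of_twoOrb (K : Subgroup (GL D.Idx F)) (hN : D.monomialSubgroup F ≤ K)
    {a b : ℕ} (h : TwoOrb D a b) (hXa : XIn D hD K a) (hXb : XIn D hD K b) :
    D.group F ≤ K := by
  apply group_le_of_xIn D hD K
  intro r hr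
  rcases h.all r hr with h1 | h1
  · exact xIn_of_orb D hD K hN h1 hXa
  · exact xIn_of_orb D hD K hN h1 hXb

end main

end Cfsg.Agent.Lib.Helper17
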