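import Cfsg.Agent.Lib.Helper17.ChevOrbit
import Cfsg.Prelude.Def_ChevAutomorphisms

set_option autoImplicit false

/-!
# Orbit certificates for the seven Chevalley data
-/

namespace Cfsg.Agent.Lib.Helper17

open Cfsg Cfsg.Lie

/-- reflection steps reaching the orbit of the fundamental root 0 of G2 -/
def g2Steps0 : List (ℕ × ℕ) :=
  [(0, 7), (1, 7), (1, 4), (0, 8), (0, 3)]

/-- reflection steps reaching the orbit of the fundamental root 1 of G2 -/
def g2Steps1 : List (ℕ × ℕ) :=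
  [(0, 6), (1, 6), (1, 10), (0, 5), (1, 1)]

/-- reflection steps reaching the orbit of the fundamental root 0 of B2 -/
def b2Steps0 : List (ℕ × ℕ) :=
  [(0, 5), (1, 5), (1, 2)]

/-- reflection steps reaching the orbit of the fundamental root 1 of B2 -/
def b2Steps1 : List (ℕ × ℕ) :=
  [(0, 4), (1, 4), (0, 3)]

/-- reflection steps reaching the orbit of the fundamental root 0 of D4 -/
def d4Steps0 : List (ℕ × ℕ) :=
  [(0, 18), (1, 18), (1, 5), (0, 19), (2, 19), (3, 19), (0, 4), (2, 4), (3, 4), (2, 14), (3, 14), (3, 21), (2, 9), (3, 9), (3, 2), (1, 16), (3, 16), (1, 15), (1, 22), (1, 7), (3, 7), (1, 8), (1, 1)]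

/-- reflection steps reaching the orbit of the fundamental root 0 of F4 -/
def f4Steps0 : List (ℕ × ℕ) :=
  [(0, 33), (1, 33), (1, 14), (0, 34), (2, 34), (0, 13), (2, 13), (2, 27), (1, 35), (3, 35), (2, 20), (1, 12), (3, 12), (3, 28), (3, 37), (3, 19), (3, 10), (2, 38), (2, 9), (1, 39), (1, 8), (0, 40), (0, 7)]

/-- reflection steps reaching the orbit of the fundamental root 2 of F4 -/
def f4Steps2 : List (ℕ × ℕ) :=
  [(1, 25), (2, 25), (3, 25), (0, 30), (3, 30), (1, 22), (3, 22), (2, 26), (3, 41), (2, 31), (0, 17), (3, 17), (2, 21), (2, 42), (3, 6), (2, 16), (1, 43), (2, 5), (2, 45), (1, 4), (3, 46), (2, 2), (3, 1)]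

/-- reflection steps reaching the orbit of the fundamental root 0 of E6 -/
def e6Steps0 : List (ℕ × ℕ) :=
  [(0, 56), (2, 56), (2, 15), (0, 57), (3, 57), (0, 14), (3, 14), (3, 42), (1, 58), (4, 58), (3, 29), (1, 13), (4, 13), (1, 43), (2, 43), (4, 43), (4, 61), (5, 59), (1, 28), (2, 28), (4, 28), (4, 10), (5, 12), (2, 50), (4, 50), (4, 39), (5, 44), (3, 62), (5, 62), (2, 21), (4, 21), (4, 32), (5, 27), (3, 9), (5, 9), (3, 47), (4, 47), (3, 51), (5, 51), (3, 40), (5, 40), (2, 64), (5, 64), (3, 24), (4, 24), (3, 20), (5, 20), (3, 31), (5, 31), (2, 7), (5, 7), (5, 48), (5, 53), (5, 37), (5, 67), (4, 65), (5, 23), (5, 18), (5, 34), (5, 4), (4, 6), (4, 54), (4, 38), (4, 68), (4, 17), (4, 33), (4, 3), (3, 69), (3, 2), (1, 70), (1, 1)]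

/-- reflection steps reaching the orbit of the fundamental root 0 of E7 -/
def e7Steps0 : List (ℕ × ℕ) :=
  [(0, 93), (2, 93), (2, 32), (0, 94), (3, 94), (0, 31), (3, 31), (3, 73), (1, 95), (4, 95), (3, 52), (1, 30), (4, 30), (1, 74), (2, 74), (4, 74), (4, 99), (5, 96), (1, 51), (2, 51), (4, 51), (4, 26), (5, 29), (2, 83), (4, 83), (4, 69), (5, 75), (3, 100), (5, 100), (6, 97), (2, 42), (4, 42), (4, 56), (5, 50), (3, 25), (5, 25), (6, 28), (3, 79), (4, 79), (3, 84), (5, 84), (3, 70), (5, 70), (6, 76), (2, 103), (5, 103), (6, 101), (3, 46), (4, 46), (3, 41), (5, 41), (3, 55), (5, 55), (6, 49), (2, 22), (5, 22), (6, 24), (5, 80), (5, 87), (6, 85), (5, 66), (6, 71), (5, 109), (4, 104), (6, 104), (5, 45), (5, 38), (6, 40), (5, 59), (6, 54), (5, 16), (4, 21), (6, 21), (6, 81), (4, 88), (6, 88), (4, 67), (6, 67), (4, 110), (6, 110), (6, 106), (6, 44), (4, 37), (6, 37), (4, 58), (6, 58), (4, 15), (6, 15), (6, 19), (6, 90), (6, 64), (3, 112), (6, 112),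 (5, 107), (6, 35), (6, 61), (3, 13), (6, 13), (5, 18), (5, 91), (5, 65), (1, 115), (6, 115), (5, 113), (5, 34), (5, 60), (1, 10), (6, 10), (5, 12), (6, 119), (5, 116), (6, 6), (5, 9), (5, 120), (4, 117), (5, 5), (4, 8), (4, 121), (4, 4), (3, 122), (3, 3), (2, 123), (2, 2), (0, 124), (0, 1)]

/-- reflection steps reaching the orbit of the fundamental root 0 of E8 -/
def e8Steps0 : List (ℕ × ℕ) :=
  [(0, 162), (2, 162), (2, 77), (0, 163), (3, 163), (0, 76), (3, 76), (3, 135), (1, 164), (4, 164), (3, 104), (1, 75), (4, 75), (1, 136), (2, 136), (4, 136), (4, 169), (5, 165), (1, 103), (2, 103), (4, 103), (4, 70), (5, 74), (2, 147), (4, 147), (4, 130), (5, 137), (3, 170), (5, 170), (6, 166), (2, 92), (4, 92), (4, 109), (5, 102), (3, 69), (5, 69), (6, 73), (3, 142), (4, 142), (3, 148), (5, 148), (3, 131), (5, 131), (6, 138), (2, 174), (5, 174), (6, 171), (7, 167), (3, 97), (4, 97), (3, 91), (5, 91), (3, 108), (5, 108), (6, 101), (2, 65), (5, 65), (6,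 68), (7, 72), (5, 143), (5, 152), (6, 149), (5, 126), (6, 132), (7, 139), (5, 184), (4, 175), (6, 175), (7, 172), (5, 96), (5, 87), (6, 90), (5, 113), (6, 107), (7, 100), (5, 55), (4, 64), (6, 64), (7, 67), (6, 144), (4, 153), (6, 153), (7, 150), (4, 127), (6, 127), (7, 133), (4, 185), (6, 185), (6, 178), (7, 176), (6, 95), (4, 86), (6, 86), (7, 89), (4, 112), (6, 112), (7, 106), (4, 54), (6, 54), (6, 61), (7, 63), (7, 145), (6, 156), (7, 154), (6, 123), (7, 128), (3, 188), (6, 188), (7, 186), (5, 179), (7, 179), (7, 94), (6, 83), (7, 85), (6, 116), (7, 111), (3, 51), (6, 51), (7, 53), (5, 60), (7, 60), (5, 157), (7, 157), (5, 124), (7, 124), (1, 194), (6, 194), (5, 189), (7, 189), (7, 181), (5, 82), (7, 82), (5, 115), (7, 115), (1, 45), (6, 45), (5, 50), (7, 50), (7, 58), (7, 159), (7, 121), (6, 204), (5, 195), (7, 195), (7, 191), (6, 182), (7, 80), (7, 118), (6, 35), (5, 44), (7, 44), (7, 48), (6, 57), (6, 160), (6, 122), (5, 205), (7, 205),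 (4, 197), (7, 197), (6, 192), (6, 79), (6, 117), (5, 34), (7, 34), (4, 42), (7, 42), (6, 47), (4, 207), (7, 207), (7, 200), (6, 198), (4, 32), (7, 32), (7, 39), (6, 41), (3, 210), (7, 210), (6, 208), (6, 201), (3, 29), (7, 29), (6, 31), (6, 38), (2, 214), (7, 214), (6, 211), (5, 202), (2, 25), (7, 25), (6, 28), (5, 37), (0, 219), (7, 219), (6, 215), (5, 212), (0, 20), (7, 20), (6, 24), (5, 27), (7, 226), (6, 220), (5, 216), (7, 13), (6, 19), (5, 23), (6, 227), (5, 221), (4, 217), (6, 12), (5, 18), (4, 22), (5, 228), (4, 222), (5, 11), (4, 17), (4, 229), (3, 223), (4, 10), (3, 16), (3, 230), (1, 224), (3, 9), (1, 15), (1, 231), (2, 231), (1, 8), (2, 8), (2, 233), (2, 6), (3, 234), (3, 5), (4, 235), (4, 4), (5, 236), (5, 3), (6, 237), (6, 2), (7, 238), (7, 1)]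

theorem g2_two : TwoOrb chevG2 (chevG2.simple 0) (chevG2.simple 1) :=
  twoOrb_of_twoOK chevG2 (by simp) Weyl.g2WG Weyl.g2_link g2Steps0 g2Steps1 _ _ (by decide +kernel)

theorem b2_two : TwoOrb chevB2 (chevB2.simple 0) (chevB2.simple 1) :=
  twoOrb_of_twoOK chevB2 (by simp) Weyl.b2WG Weyl.b2_link b2Steps0 b2Steps1 _ _ (by decide +kernel)

theorem f4_two : TwoOrb chevF4 (chevF4.simple 0) (chevF4.simple 2) :=
  twoOrb_of_twoOK chevF4 (by simp) Weyl.f4WG Weyl.f4_link f4Steps0 f4Steps2 _ _ (by decide +kernel)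

theorem d4_two : TwoOrb chevD4 (chevD4.simple 0) (chevD4.simple 0) :=
  twoOrb_of_twoOK chevD4 (by simp) Weyl.d4WG Weyl.d4_link d4Steps0 d4Steps0 _ _ (by decide +kernel)

theorem e6_two : TwoOrb chevE6 (chevE6.simple 0) (chevE6.simple 0) :=
  twoOrb_of_twoOK chevE6 (by simp) Weyl.e6WG Weyl.e6_link e6Steps0 e6Steps0 _ _ (by decide +kernel)

theorem e7_two : TwoOrb chevE7 (chevE7.simple 0) (chevE7.simple 0) :=
  twoOrb_of_twoOK chevE7 (by simp) Weyl.e7WG Weyl.e7_link e7Steps0 e7Steps0 _ _ (by decide +kernel)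

theorem e8_two : TwoOrb chevE8 (chevE8.simple 0) (chevE8.simple 0) :=
  twoOrb_of_twoOK chevE8 (by simp) Weyl.e8WG Weyl.e8_link e8Steps0 e8Steps0 _ _ (by decide +kernel)

/-- the orbit facts of `G₂` -/
theorem g2_orb (r : ℕ) (h : orbOK chevG2 Weyl.g2WG g2Steps0 (chevG2.simple 0) r = true) :
    Orb chevG2 (chevG2.simple 0) r :=
  orb_of_orbOK chevG2 (by simp) Weyl.g2WG Weyl.g2_link g2Steps0 _ r h

theorem g2_orbL (r : ℕ) (h : orbOK chevG2 Weyl.g2WG g2Steps1 (chevG2.simple 1) r = true) :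
    Orb chevG2 (chevG2.simple 1) r :=
  orb_of_orbOK chevG2 (by simp) Weyl.g2WG Weyl.g2_link g2Steps1 _ r h

theorem b2_orb (r : ℕ) (h : orbOK chevB2 Weyl.b2WG b2Steps0 (chevB2.simple 0) r = true) :
    Orb chevB2 (chevB2.simple 0) r :=
  orb_of_orbOK chevB2 (by simp) Weyl.b2WG Weyl.b2_link b2Steps0 _ r h

theorem b2_orbL (r : ℕ) (h : orbOK chevB2 Weyl.b2WG b2Steps1 (chevB2.simple 1) r = true) :
    Orb chevB2 (chevB2.simple 1) r :=
  orb_of_orbOK chevB2 (by simp) Weyl.b2WG Weyl.b2_link b2Steps1 _ r h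

theorem f4_orb (r : ℕ) (h : orbOK chevF4 Weyl.f4WG f4Steps0 (chevF4.simple 0) r = true) :
    Orb chevF4 (chevF4.simple 0) r :=
  orb_of_orbOK chevF4 (by simp) Weyl.f4WG Weyl.f4_link f4Steps0 _ r h

theorem f4_orbL (r : ℕ) (h : orbOK chevF4 Weyl.f4WG f4Steps2 (chevF4.simple 2) r = true) :
    Orb chevF4 (chevF4.simple 2) r :=
  orb_of_orbOK chevF4 (by simp) Weyl.f4WG Weyl.f4_link f4Steps2 _ r h

/-! ### short and long fundamental roots -/

theorem g2_short : ∀ i < chevG2.rank, chevG2.isLong (chevG2.simple i) = false →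
    Orb chevG2 (chevG2.simple 0) (chevG2.simple i) := by
  have h : ∀ i < chevG2.rank, chevG2.isLong (chevG2.simple i) = false → i = 0 := by decide
  intro i hi hs
  rw [h i hi hs]
  exact Orb.base

theorem g2_long : ∀ i < chevG2.rank, chevG2.isLong (chevG2.simple i) = true →
    Orb chevG2 (chevG2.simple 1) (chevG2.simple i) := by
  have h : ∀ i < chevG2.rank, chevG2.isLong (chevG2.simple i) = true → i = 1 := by decide
  intro i hi hs
  rw [h i hi hs]
  exact Orb.base

theorem b2_short : ∀ i < chevB2.rank, chevB2.isLong (chevB2.simple i) = false →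
    Orb chevB2 (chevB2.simple 0) (chevB2.simple i) := by
  have h : ∀ i < chevB2.rank, chevB2.isLong (chevB2.simple i) = false → i = 0 := by decide
  intro i hi hs
  rw [h i hi hs]
  exact Orb.base

theorem b2_long : ∀ i < chevB2.rank, chevB2.isLong (chevB2.simple i) = true →
    Orb chevB2 (chevB2.simple 1) (chevB2.simple i) := by
  have h : ∀ i < chevB2.rank, chevB2.isLong (chevB2.simple i) = true → i = 1 := by decide
  intro i hi hs
  rw [h i hi hs]
  exact Orb.base

theorem f4_short : ∀ i < chevF4.rank, chevF4.isLong (chevF4.simple i) = false →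
    Orb chevF4 (chevF4.simple 0) (chevF4.simple i) := by
  have h : ∀ i < chevF4.rank, chevF4.isLong (chevF4.simple i) = false → i = 0 ∨ i = 1 := by
    decide
  intro i hi hs
  rcases h i hi hs with rfl | rfl
  · exact Orb.base
  · exact f4_orb _ (by decide +kernel)

theorem f4_long : ∀ i < chevF4.rank, chevF4.isLong (chevF4.simple i) = true →
    Orb chevF4 (chevF4.simple 2) (chevF4.simple i) := by
  have h : ∀ i < chevF4.rank, chevF4.isLong (chevF4.simple i) = true → i = 2 ∨ i = 3 := by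
    decide
  intro i hi hs
  rcases h i hi hs with rfl | rfl
  · exact Orb.base
  · exact f4_orbL _ (by decide +kernel)

end Cfsg.Agent.Lib.Helper17
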