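import Cfsg.Agent.Lib.Helper17.TwD4n

set_option autoImplicit false

/-!
# The groups `³D₄(q)` are generated by two elements

`³D₄(q)` is generated by `h x` and `n y`, where `x` is a root element of the long root `p₂`,
`h` is a generator of the part of the torus that centralises `x`, `y` is a root element of the
short root and `n` is the Coxeter element `n_a n_b`.  The powers of `h x` give `h` and `x`; the
commutator of `h` and its conjugate under `n y` is a non-trivial element of the short root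
subgroup, and `h` gives all of it, so that `y` and `n` are in the subgroup.  The conjugate of `h`
under `n` gives the long root subgroup, `n³` gives the opposite one, and then `n_a`, `n_b` and the
opposite short root subgroup are in the subgroup.
-/

namespace Cfsg.Agent.Lib.Helper17

open Cfsg Cfsg.Lie

open Cfsg.Agent.Lib.Helper18 (xU coe_xU wordU coe_wordU torusHom mono)

section abs

variable {G : Type*} [Group G] {K : Type*} [Field K]

theorem d4gen_X_zero (X : K → G) (hadd : ∀ a b, X a * X b = X (a + b)) : X 0 = 1 := by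
  have h := hadd 0 0
  rw [add_zero] at h
  exact mul_eq_left.mp h

theorem d4gen_X_inv (X : K → G) (hadd : ∀ a b, X a * X b = X (a + b)) (t : K) :
    (X t)⁻¹ = X (-t) := by
  rw [inv_eq_iff_mul_eq_one, hadd, add_neg_cancel, d4gen_X_zero X hadd]

/-- the commutator of a torus element and a conjugate of another torus element under a root
element is a root element -/
theorem d4gen_trick (X : K → G) (hadd : ∀ a b, X a * X b = X (a + b)) (h h₁ : G) (θ θ₁ : K)
    (hc : h * h₁ = h₁ * h) (e1 : ∀ t, h * X t = X (θ * t) * h)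
    (e2 : ∀ t, h₁ * X t = X (θ₁ * t) * h₁) :
    h * ((X 1)⁻¹ * h₁ * X 1) * h⁻¹ * ((X 1)⁻¹ * h₁ * X 1)⁻¹ = X ((θ - 1) * (θ₁ - 1)) := by
  have k1 : h * X 1 * h⁻¹ = X θ := by
    rw [e1, mul_one]
    group
  have k2 : h₁ * X (θ - 1) * h₁⁻¹ = X (θ₁ * (θ - 1)) := by
    rw [e2]
    group
  have k3 : h * h₁ * h⁻¹ = h₁ := by
    rw [hc]
    group
  have e : h * ((X 1)⁻¹ * h₁ * X 1) * h⁻¹ * ((X 1)⁻¹ * h₁ * X 1)⁻¹ =
      (h * X 1 * h⁻¹)⁻¹ * (h * h₁ * h⁻¹) * (h * X 1 * h⁻¹) * (X 1)⁻¹ * h₁⁻¹ * X 1 := by group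
  rw [e, k1, k3]
  have e' : (X θ)⁻¹ * h₁ * X θ * (X 1)⁻¹ * h₁⁻¹ * X 1 =
      (X θ)⁻¹ * (h₁ * (X θ * (X 1)⁻¹) * h₁⁻¹) * X 1 := by group
  rw [e', d4gen_X_inv X hadd 1, hadd, ← sub_eq_add_neg, k2, d4gen_X_inv X hadd, hadd, hadd]
  congr 1
  ring

/-- the orbit of a root element under the powers of a torus element -/
theorem d4gen_orbit (L : Subgroup G) (X : K → G) (T : G) (m : K) (hT : T ∈ L)
    (hconj : ∀ t, T * X t = X (m * t) * T) (z : K) (hz : X z ∈ L) :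
    ∀ k : ℕ, X (m ^ k * z) ∈ L := by
  intro k
  induction k with
  | zero => rwa [pow_zero, one_mul]
  | succ k ih =>
    have e : X (m ^ (k + 1) * z) = T * X (m ^ k * z) * T⁻¹ := by
      rw [hconj, pow_succ', mul_assoc]
      group
    rw [e]
    exact mul_mem (mul_mem hT ih) (inv_mem hT)

end abs

section arith

variable {K : Type*} [Field K] [Fintype K] {q : ℕ}

theorem d4gen_pow_card (hK : Fintype.card K = q ^ 3) (u : Kˣ) : u ^ (q ^ 3) = u :=
  Units.ext (by rw [Units.val_pow_eq_pow_val, ← hK, FiniteField.pow_card])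

theorem d4gen_zpow_card (hK : Fintype.card K = q ^ 3) (u : Kˣ) :
    u ^ ((q : ℤ) ^ 3 - 1) = 1 := by
  have h := d4gen_pow_card hK u
  have e : ((q : ℤ) ^ 3 - 1) = ((q ^ 3 : ℕ) : ℤ) - 1 := by
    push_cast
    ring
  rw [e, zpow_sub, zpow_natCast, h, zpow_one, mul_inv_cancel]

theorem d4gen_zpow_mod (hK : Fintype.card K = q ^ 3) (g : Kˣ) (x y k : ℤ)
    (h : x = y + k * ((q : ℤ) ^ 3 - 1)) : g ^ x = g ^ y := by
  rw [h, zpow_add, zpow_mul', d4gen_zpow_card hK, one_zpow, mul_one]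

/-- the value of the character of the short root on the torus element generates `Kˣ` -/
theorem d4gen_theta_gen (hK : Fintype.card K = q ^ 3) (g : Kˣ)
    (hg : ∀ u : Kˣ, u ∈ Subgroup.zpowers g) (u : Kˣ) :
    ∃ k : ℕ, (g ^ (3 - (q : ℤ) - (q : ℤ) ^ 2)) ^ k = u := by
  obtain ⟨θ, hθ⟩ : ∃ θ : Kˣ, θ = g ^ (3 - (q : ℤ) - (q : ℤ) ^ 2) := ⟨_, rfl⟩
  rw [← hθ]
  obtain ⟨j, hj⟩ : ∃ j, q * (q + 1) = j + j := Nat.even_mul_succ_self q
  have hS : (1 + (q : ℤ) + (q : ℤ) ^ 2) = 1 + 2 * (j : ℤ) := by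
    have := congrArg (Nat.cast : ℕ → ℤ) hj
    push_cast at this
    linear_combination this
  have h1 : θ ^ (1 + (q : ℤ) + (q : ℤ) ^ 2) = g ^ (1 + (q : ℤ) + (q : ℤ) ^ 2) := by
    rw [hθ, ← zpow_mul]
    exact d4gen_zpow_mod hK g _ _ (-((q : ℤ) + 2)) (by ring)
  have h2 : θ ^ (2 + (q : ℤ) + (q : ℤ) ^ 2) = g ^ (4 : ℤ) := by
    rw [hθ, ← zpow_mul]
    exact d4gen_zpow_mod hK g _ _ (-((q : ℤ) + 2)) (by ring)
  have hgm : g ∈ Subgroup.zpowers θ := by
    have e : g = (θ ^ (1 + (q : ℤ) + (q : ℤ) ^ 2)) ^ (1 + 2 * (j : ℤ)) *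
        (θ ^ (2 + (q : ℤ) + (q : ℤ) ^ 2)) ^ (-((j : ℤ) ^ 2 + j)) := by
      rw [h1, h2, ← zpow_mul, ← zpow_mul, ← zpow_add, hS]
      have e1 : (1 + 2 * (j : ℤ)) * (1 + 2 * (j : ℤ)) + 4 * (-((j : ℤ) ^ 2 + j)) = 1 := by ring
      rw [e1, zpow_one]
    rw [e]
    exact mul_mem (zpow_mem (zpow_mem (Subgroup.mem_zpowers θ) _) _)
      (zpow_mem (zpow_mem (Subgroup.mem_zpowers θ) _) _)
  have hu : u ∈ Subgroup.zpowers θ := (Subgroup.zpowers_le.mpr hgm) (hg u)
  exact (Submonoid.mem_powers_iff _ _).mp (mem_powers_iff_mem_zpowers.mpr hu)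

/-- the norm of a generator of `Kˣ` generates the multiplicative group of the fixed field -/
theorem d4gen_eta_gen (hK : Fintype.card K = q ^ 3) (hq1 : 1 < q) (g : Kˣ)
    (hg : ∀ u : Kˣ, u ∈ Subgroup.zpowers g) (t : K) (ht : t ^ q = t) (h0 : t ≠ 0) :
    ∃ k : ℕ, ((g ^ (1 + q + q ^ 2) : Kˣ) : K) ^ k = t := by
  obtain ⟨j, hj⟩ : ∃ j : ℕ, g ^ j = Units.mk0 t h0 :=
    (Submonoid.mem_powers_iff _ _).mp (mem_powers_iff_mem_zpowers.mpr (hg (Units.mk0 t h0)))
  have hord : orderOf g = q ^ 3 - 1 := by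
    rw [orderOf_eq_card_of_forall_mem_zpowers hg, Nat.card_units, Nat.card_eq_fintype_card, hK]
  have hu : (Units.mk0 t h0) ^ q = Units.mk0 t h0 :=
    Units.ext (by rw [Units.val_pow_eq_pow_val, Units.val_mk0, ht])
  obtain ⟨q', rfl⟩ : ∃ q', q = q' + 1 := ⟨q - 1, by omega⟩
  have h1 : g ^ (j * q') = 1 := by
    have h2 : g ^ (j * (q' + 1)) = g ^ j := by rw [pow_mul, hj, hu]
    have e : j * (q' + 1) = j * q' + j := by ring
    rw [e, pow_add] at h2
    exact mul_eq_right.mp h2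
  have hdvd : (q' + 1) ^ 3 - 1 ∣ j * q' := by
    rw [← hord]
    exact orderOf_dvd_of_pow_eq_one h1
  have hfac : (q' + 1) ^ 3 - 1 = (1 + (q' + 1) + (q' + 1) ^ 2) * q' :=
    Nat.sub_eq_of_eq_add (by ring)
  rw [hfac] at hdvd
  have hS : (1 + (q' + 1) + (q' + 1) ^ 2) ∣ j :=
    Nat.dvd_of_mul_dvd_mul_right (by omega : 0 < q') hdvd
  obtain ⟨k, rfl⟩ := hS
  refine ⟨k, ?_⟩
  have := congrArg Units.val hj
  rw [pow_mul, Units.val_pow_eq_pow_val, Units.val_mk0] at this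
  exact this

end arith

section torus

variable {K : Type*} [Field K]

theorem d4gen_xU_pow (r : ℕ) (hr : r < chevD4.nroots) (t : K) (k : ℕ) :
    xU chevD4 d4_mem r t ^ k = xU chevD4 d4_mem r (k * t) := by
  induction k with
  | zero => rw [pow_zero, Nat.cast_zero, zero_mul, xU_zero]
  | succ k ih =>
    rw [pow_succ, ih, xU_mul_xU chevD4 d4_mem r hr, Nat.cast_succ]
    congr 1
    ring

/-- `n_a` as a product of root elements -/
theorem d4gen_na : nW (F := K) chevD4 d4_mem [1] =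
    xU chevD4 d4_mem 14 (1 : K) * (xU chevD4 d4_mem 9 (-1) * xU chevD4 d4_mem 14 1) := by
  obtain ⟨-, s1, -, -, -, n14, -, -⟩ := d4_simple_vals
  rw [nW_cons chevD4 d4_mem 1 (by rw [d4_rank]; norm_num), nW_nil, mul_one, n36_eq_n18, s1,
    Cfsg.Agent.Lib.Helper18.nU_eq, n14]

/-- `n_b` as a product of twisted root elements -/
theorem d4gen_nb (τ : K →+* K) : nW (F := K) chevD4 d4_mem [0, 2, 3] =
    d4X τ (true, 1) * (d4X τ (false, -1) * d4X τ (true, 1)) := by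
  obtain ⟨s0, -, s2, s3, n18, -, n13, n12⟩ := d4_simple_vals
  have e : nW (F := K) chevD4 d4_mem [0, 2, 3] = Cfsg.Agent.Lib.Helper18.nU chevD4 d4_mem 18 *
      Cfsg.Agent.Lib.Helper18.nU chevD4 d4_mem 13 * Cfsg.Agent.Lib.Helper18.nU chevD4 d4_mem 12 := by
    rw [nW_cons chevD4 d4_mem 0 (by rw [d4_rank]; norm_num),
      nW_cons chevD4 d4_mem 2 (by rw [d4_rank]; norm_num),
      nW_cons chevD4 d4_mem 3 (by rw [d4_rank]; norm_num), nW_nil, mul_one, n36_eq_n18,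
      n36_eq_n18, n36_eq_n18, s0, s2, s3, mul_assoc]
  have e2 := d4_tri_prod τ [(true, (1 : K)), (false, -1), (true, 1)]
  simp only [List.map_cons, List.map_nil, List.prod_cons, List.prod_nil, mul_one, map_one,
    map_neg] at e2
  rw [e, Cfsg.Agent.Lib.Helper18.nU_eq, Cfsg.Agent.Lib.Helper18.nU_eq,
    Cfsg.Agent.Lib.Helper18.nU_eq, n18, n13, n12]
  exact e2

/-- the conjugate of a torus element under an element of `N` acts on a root element by the
character of the image of the root -/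
theorem d4gen_nconj (l : List ℕ) (hl : ∀ i ∈ l, i < chevD4.rank) (c : Fin chevD4.rank → Kˣ)
    (r : ℕ) (hr : r < 24) (t : K) :
    ((nW (F := K) chevD4 d4_mem l)⁻¹ * torusHom (F := K) chevD4 c * nW (F := K) chevD4 d4_mem l) *
        xU chevD4 d4_mem r t =
      xU chevD4 d4_mem r (((mono c (fun i => chevD4.cartan i (Weyl.wp chevD4.reflectRoot l r)) :
        Kˣ) : K) * t) *
        ((nW (F := K) chevD4 d4_mem l)⁻¹ * torusHom (F := K) chevD4 c *
          nW (F := K) chevD4 d4_mem l) := by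
  obtain ⟨ε, hε⟩ := nW_smap (F := K) chevD4 d4_mem l hl
  have hr' : r < chevD4.nroots := by rw [d4_nroots]; exact hr
  have h1 := hε.conjU d4_mem r hr' t
  have h2 := hε.conjU d4_mem r hr'
    (((mono c (fun i => chevD4.cartan i (Weyl.wp chevD4.reflectRoot l r)) : Kˣ) : K) * t)
  have h3 := torus_conj_xU chevD4 d4_mem c (Weyl.wp chevD4.reflectRoot l r) (hε.lt r hr')
    (ε r * t)
  have e : ε r * (((mono c (fun i => chevD4.cartan i (Weyl.wp chevD4.reflectRoot l r)) : Kˣ) : K)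
      * t) = ((mono c (fun i => chevD4.cartan i (Weyl.wp chevD4.reflectRoot l r)) : Kˣ) : K) *
        (ε r * t) := by ring
  rw [e] at h2
  calc ((nW (F := K) chevD4 d4_mem l)⁻¹ * torusHom (F := K) chevD4 c *
        nW (F := K) chevD4 d4_mem l) * xU chevD4 d4_mem r t
      = (nW (F := K) chevD4 d4_mem l)⁻¹ * torusHom (F := K) chevD4 c *
        (nW (F := K) chevD4 d4_mem l * xU chevD4 d4_mem r t) := by group
    _ = (nW (F := K) chevD4 d4_mem l)⁻¹ * (torusHom (F := K) chevD4 c *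
        xU chevD4 d4_mem (Weyl.wp chevD4.reflectRoot l r) (ε r * t)) *
          nW (F := K) chevD4 d4_mem l := by
      rw [h1]
      group
    _ = (nW (F := K) chevD4 d4_mem l)⁻¹ * (nW (F := K) chevD4 d4_mem l * xU chevD4 d4_mem r
          (((mono c (fun i => chevD4.cartan i (Weyl.wp chevD4.reflectRoot l r)) : Kˣ) : K) * t)) *
        ((nW (F := K) chevD4 d4_mem l)⁻¹ * torusHom (F := K) chevD4 c *
          nW (F := K) chevD4 d4_mem l) := by
      rw [h3, h2]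
      group
    _ = _ := by group

variable (τ : K →+* K) {q : ℕ} (hτq : ∀ x, τ x = x ^ q)

include hτq in
/-- an element that acts on the three root subgroups of a twisted root by conjugate scalars acts
on the twisted root subgroup -/
theorem d4gen_conj_X (T : GL chevD4.Idx K) (s : Bool) (u : Kˣ)
    (h1 : ∀ t, T * xU chevD4 d4_mem (d4r1 s) t = xU chevD4 d4_mem (d4r1 s) ((u : K) * t) * T)
    (h2 : ∀ t, T * xU chevD4 d4_mem (d4r2 s) t =
      xU chevD4 d4_mem (d4r2 s) (((u ^ q : Kˣ) : K) * t) * T)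
    (h3 : ∀ t, T * xU chevD4 d4_mem (d4r3 s) t =
      xU chevD4 d4_mem (d4r3 s) ((((u ^ q) ^ q : Kˣ) : K) * t) * T) (t : K) :
    T * d4X τ (s, t) = d4X τ (s, (u : K) * t) * T := by
  have e1 : τ ((u : K) * t) = ((u ^ q : Kˣ) : K) * τ t := by
    rw [map_mul, hτq (u : K), Units.val_pow_eq_pow_val]
  have e2 : τ (τ ((u : K) * t)) = (((u ^ q) ^ q : Kˣ) : K) * τ (τ t) := by
    rw [e1, map_mul, hτq ((u ^ q : Kˣ) : K), Units.val_pow_eq_pow_val (u ^ q)]
  show T * (xU chevD4 d4_mem (d4r1 s) t * xU chevD4 d4_mem (d4r2 s) (τ t) *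
      xU chevD4 d4_mem (d4r3 s) (τ (τ t))) =
    (xU chevD4 d4_mem (d4r1 s) ((u : K) * t) * xU chevD4 d4_mem (d4r2 s) (τ ((u : K) * t)) *
      xU chevD4 d4_mem (d4r3 s) (τ (τ ((u : K) * t)))) * T
  rw [e2, e1]
  exact conj3 _ _ _ _ _ _ _ (h1 t) (h2 (τ t)) (h3 (τ (τ t)))

variable [Fintype K]

include hτq in
/-- the value of a character on the torus element with parameters `g²`, `N(g)` -/
theorem d4gen_chi (hK : Fintype.card K = q ^ 3) (g : Kˣ) (s : ℕ) (c0 c1 c2 c3 : ℤ)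
    (hc : chevD4.cartan 0 s = c0 ∧ chevD4.cartan 1 s = c1 ∧ chevD4.cartan 2 s = c2 ∧
      chevD4.cartan 3 s = c3) (e k : ℤ)
    (h : 2 * c0 + (1 + (q : ℤ) + (q : ℤ) ^ 2) * c1 + 2 * (q : ℤ) * c2 + 2 * (q : ℤ) ^ 2 * c3 =
      e + k * ((q : ℤ) ^ 3 - 1)) :
    mono (d4c τ (g ^ 2) (g ^ (1 + q + q ^ 2))) (fun i => chevD4.cartan i s) = g ^ e := by
  have hmap : ∀ u : Kˣ, Units.map (τ : K →* K) u = u ^ q := fun u =>
    Units.ext (by simp [hτq])
  obtain ⟨h0, h1, h2, h3⟩ := hc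
  rw [mono_d4c, hmap, hmap]
  show (g ^ 2) ^ (chevD4.cartan 0 s) * (g ^ (1 + q + q ^ 2)) ^ (chevD4.cartan 1 s) *
    ((g ^ 2) ^ q) ^ (chevD4.cartan 2 s) * (((g ^ 2) ^ q) ^ q) ^ (chevD4.cartan 3 s) = g ^ e
  rw [h0, h1, h2, h3, ← d4gen_zpow_mod hK g _ e k h]
  simp only [← zpow_natCast, ← zpow_mul, ← zpow_add]
  congr 1
  push_cast
  ring

end torus

section gen

set_option maxRecDepth 100000 in
theorem d4_gen_maps :
    Weyl.wp chevD4.reflectRoot [1, 0, 2, 3] 18 = 4 ∧ Weyl.wp chevD4.reflectRoot [1, 0, 2, 3] 13 = 7 ∧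
    Weyl.wp chevD4.reflectRoot [1, 0, 2, 3] 12 = 8 ∧ Weyl.wp chevD4.reflectRoot [1, 0, 2, 3] 14 = 23 ∧
    Weyl.wp chevD4.reflectRoot ([1, 0, 2, 3] ++ [1, 0, 2, 3] ++ [1, 0, 2, 3]) 14 = 9 := by
  decide +kernel

/-- `³D₄(q)` is generated by two elements -/
theorem d4_two_gen {K : Type*} [Field K] [Fintype K] {q : ℕ} (hq : IsPrimePow q)
    (hK : Fintype.card K = q ^ 3) :
    ∃ a b : ↥(twistedD4 K q), Subgroup.closure ({a, b} : Set ↥(twistedD4 K q)) = ⊤ := by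
  classical
  obtain ⟨τ, hτq, hτ⟩ := exists_frob K hq hK
  have hq1 : 1 < q := hq.one_lt
  obtain ⟨g, hg⟩ := IsCyclic.exists_generator (α := Kˣ)
  obtain ⟨m14, m13, m12, m23, m9⟩ := d4_gen_maps
  obtain ⟨c, hc⟩ : ∃ c : Fin chevD4.rank → Kˣ, c = d4c τ (g ^ 2) (g ^ (1 + q + q ^ 2)) :=
    ⟨_, rfl⟩
  obtain ⟨T, hT⟩ : ∃ T : GL chevD4.Idx K, T = torusHom (F := K) chevD4 c := ⟨_, rfl⟩
  obtain ⟨n, hn⟩ : ∃ n : GL chevD4.Idx K, n = nW (F := K) chevD4 d4_mem [1, 0, 2, 3] := ⟨_, rfl⟩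
  obtain ⟨x, hx⟩ : ∃ x : GL chevD4.Idx K, x = xU chevD4 d4_mem 14 (1 : K) := ⟨_, rfl⟩
  obtain ⟨y, hy⟩ : ∃ y : GL chevD4.Idx K, y = d4X τ (true, (1 : K)) := ⟨_, rfl⟩
  have hTG : T ∈ twistedD4 K q := by
    rw [hT, hc]
    refine d4_torus_mem τ hτq _ _ ?_
    rw [hτq, ← Units.val_pow_eq_pow_val, ← pow_mul]
    congr 1
    have e : (1 + q + q ^ 2) * q = q + q ^ 2 + q ^ 3 := by ring
    rw [e, pow_add g (q + q ^ 2) (q ^ 3), d4gen_pow_card hK, ← pow_succ]
    congr 1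
    ring
  have hsplit : nW (F := K) chevD4 d4_mem [1, 0, 2, 3] =
      nW (F := K) chevD4 d4_mem [1] * nW (F := K) chevD4 d4_mem [0, 2, 3] := by
    rw [show ([1, 0, 2, 3] : List ℕ) = [1] ++ [0, 2, 3] from rfl, nW_app]
  have hnG : n ∈ twistedD4 K q := by
    rw [hn, hsplit]
    exact mul_mem (d4_na_mem τ hτq) (d4_nb_mem τ hτq)
  have hxG : x ∈ twistedD4 K q := by
    rw [hx]
    exact d4_xa_mem τ hτq true 1 (map_one τ)
  have hyG : y ∈ twistedD4 K q := by
    rw [hy]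
    exact d4X_mem τ hτq _
  refine ⟨⟨T * x, mul_mem hTG hxG⟩, ⟨n * y, mul_mem hnG hyG⟩, ?_⟩
  obtain ⟨L, hL⟩ : ∃ L : Subgroup (GL chevD4.Idx K), L = (Subgroup.closure
      ({⟨T * x, mul_mem hTG hxG⟩, ⟨n * y, mul_mem hnG hyG⟩} : Set ↥(twistedD4 K q))).map
        (twistedD4 K q).subtype := ⟨_, rfl⟩
  have haL : T * x ∈ L := by
    rw [hL]
    exact ⟨⟨T * x, mul_mem hTG hxG⟩, Subgroup.subset_closure (by simp), rfl⟩
  have hbL : n * y ∈ L := by
    rw [hL]
    exact ⟨⟨n * y, mul_mem hnG hyG⟩, Subgroup.subset_closure (by simp), rfl⟩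
  suffices hle : twistedD4 K q ≤ L by
    rw [eq_top_iff]
    intro z _
    have hz := hle z.2
    rw [hL] at hz
    obtain ⟨z', hz', hzz⟩ := hz
    have e : z' = z := Subtype.ext hzz
    rwa [e] at hz'
  clear hL
  have l4 : ∀ i ∈ ([1, 0, 2, 3] : List ℕ), i < chevD4.rank := d4_lt_rank _ (by decide)
  -- the action of the torus element and of its conjugate on the root elements
  have cT : ∀ (s : ℕ) (_ : s < 24) (c0 c1 c2 c3 : ℤ)
      (_ : chevD4.cartan 0 s = c0 ∧ chevD4.cartan 1 s = c1 ∧ chevD4.cartan 2 s = c2 ∧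
        chevD4.cartan 3 s = c3) (e k : ℤ)
      (_ : 2 * c0 + (1 + (q : ℤ) + (q : ℤ) ^ 2) * c1 + 2 * (q : ℤ) * c2 +
        2 * (q : ℤ) ^ 2 * c3 = e + k * ((q : ℤ) ^ 3 - 1)) (t : K),
      T * xU chevD4 d4_mem s t = xU chevD4 d4_mem s (((g ^ e : Kˣ) : K) * t) * T := by
    intro s hs c0 c1 c2 c3 hcs e k h t
    rw [hT, hc, torus_conj_xU chevD4 d4_mem _ s (by rw [d4_nroots]; exact hs) t,
      d4gen_chi τ hτq hK g s c0 c1 c2 c3 hcs e k h]
  have cT1 : ∀ (r r' : ℕ) (_ : r < 24) (_ : Weyl.wp chevD4.reflectRoot [1, 0, 2, 3] r = r')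
      (c0 c1 c2 c3 : ℤ)
      (_ : chevD4.cartan 0 r' = c0 ∧ chevD4.cartan 1 r' = c1 ∧ chevD4.cartan 2 r' = c2 ∧
        chevD4.cartan 3 r' = c3) (e k : ℤ)
      (_ : 2 * c0 + (1 + (q : ℤ) + (q : ℤ) ^ 2) * c1 + 2 * (q : ℤ) * c2 +
        2 * (q : ℤ) ^ 2 * c3 = e + k * ((q : ℤ) ^ 3 - 1)) (t : K),
      (n⁻¹ * T * n) * xU chevD4 d4_mem r t =
        xU chevD4 d4_mem r (((g ^ e : Kˣ) : K) * t) * (n⁻¹ * T * n) := by
    intro r r' hr hmap c0 c1 c2 c3 hcs e k h t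
    rw [hT, hn, hc, d4gen_nconj [1, 0, 2, 3] l4 _ r hr t, hmap,
      d4gen_chi τ hτq hK g r' c0 c1 c2 c3 hcs e k h]
  -- the two factors of the first generator
  have hcomm : Commute T x := by
    show T * x = x * T
    rw [hx, cT 14 (by norm_num) (-1) 2 (-1) (-1) (by decide +kernel) 0 0 (by ring) 1, zpow_zero,
      Units.val_one, one_mul]
  have hxq : x ^ (q ^ 3) = 1 := by
    rw [hx, d4gen_xU_pow 14 (by rw [d4_nroots]; norm_num), ← hK, Nat.cast_card_eq_zero, zero_mul,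
      xU_zero]
  have hTq : T ^ (q ^ 3) = T := by
    rw [hT, ← map_pow]
    congr 1
    funext i
    rw [Pi.pow_apply]
    exact d4gen_pow_card hK _
  have hTL : T ∈ L := by
    have e : T = (T * x) ^ (q ^ 3) := by rw [hcomm.mul_pow, hxq, mul_one, hTq]
    rw [e]
    exact pow_mem haL _
  have hxL : x ∈ L := by
    have e : x = T⁻¹ * (T * x) := by group
    rw [e]
    exact mul_mem (inv_mem hTL) haL
  -- the action on the twisted root elements
  obtain ⟨θ, hθ⟩ : ∃ θ : Kˣ, θ = g ^ (3 - (q : ℤ) - (q : ℤ) ^ 2) := ⟨_, rfl⟩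
  have hθi : θ⁻¹ = g ^ (-(3 - (q : ℤ) - (q : ℤ) ^ 2)) := by rw [hθ, zpow_neg]
  have hθq : θ ^ q = g ^ ((3 - (q : ℤ) - (q : ℤ) ^ 2) * q) := by
    rw [hθ, zpow_mul, zpow_natCast]
  have hθqq : (θ ^ q) ^ q = g ^ ((3 - (q : ℤ) - (q : ℤ) ^ 2) * q * q) := by
    rw [hθ, zpow_mul, zpow_mul, zpow_natCast, zpow_natCast]
  have hθiq : θ⁻¹ ^ q = g ^ (-(3 - (q : ℤ) - (q : ℤ) ^ 2) * q) := by
    rw [hθi, zpow_mul, zpow_natCast]
  have hθiqq : (θ⁻¹ ^ q) ^ q = g ^ (-(3 - (q : ℤ) - (q : ℤ) ^ 2) * q * q) := by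
    rw [hθi, zpow_mul, zpow_mul, zpow_natCast, zpow_natCast]
  have hTX : ∀ t, T * d4X τ (true, t) = d4X τ (true, (θ : K) * t) * T := by
    apply d4gen_conj_X τ hτq T true θ
    · intro t
      rw [hθ]
      exact cT 18 (by norm_num) 2 (-1) 0 0 (by decide +kernel) _ 0 (by ring) t
    · intro t
      rw [hθq]
      exact cT 13 (by norm_num) 0 (-1) 2 0 (by decide +kernel) _ 1 (by ring) t
    · intro t
      rw [hθqq]
      exact cT 12 (by norm_num) 0 (-1) 0 2 (by decide +kernel) _ (1 + (q : ℤ)) (by ring) t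
  have hTXneg : ∀ t, T * d4X τ (false, t) = d4X τ (false, ((θ⁻¹ : Kˣ) : K) * t) * T := by
    apply d4gen_conj_X τ hτq T false θ⁻¹
    · intro t
      rw [hθi]
      exact cT 5 (by norm_num) (-2) 1 0 0 (by decide +kernel) _ 0 (by ring) t
    · intro t
      rw [hθiq]
      exact cT 10 (by norm_num) 0 1 (-2) 0 (by decide +kernel) _ (-1) (by ring) t
    · intro t
      rw [hθiqq]
      exact cT 11 (by norm_num) 0 1 0 (-2) (by decide +kernel) _ (-(1 + (q : ℤ))) (by ring) t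
  have hT1X : ∀ t, (n⁻¹ * T * n) * d4X τ (true, t) =
      d4X τ (true, ((θ⁻¹ : Kˣ) : K) * t) * (n⁻¹ * T * n) := by
    apply d4gen_conj_X τ hτq (n⁻¹ * T * n) true θ⁻¹
    · intro t
      rw [hθi]
      exact cT1 18 4 (by norm_num) m14 (-1) (-1) 1 1 (by decide +kernel) _ 0 (by ring) t
    · intro t
      rw [hθiq]
      exact cT1 13 7 (by norm_num) m13 1 (-1) (-1) 1 (by decide +kernel) _ (-1) (by ring) t
    · intro t
      rw [hθiqq]
      exact cT1 12 8 (by norm_num) m12 1 (-1) 1 (-1) (by decide +kernel) _ (-(1 + (q : ℤ)))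
        (by ring) t
  -- the torus element and its conjugate commute
  have hdiag : T ∈ chevD4.diagonalSubgroup K := by
    rw [Cfsg.Agent.Lib.Helper18.diagonalSubgroup_eq_range chevD4 d4_mem, hT]
    exact ⟨c, rfl⟩
  have hdiag1 : n⁻¹ * T * n ∈ chevD4.diagonalSubgroup K := by
    have hnn := inv_mem (nW_mem_normalizer (F := K) chevD4 d4_mem [1, 0, 2, 3])
    have h1 := (Subgroup.mem_normalizer_iff.mp hnn T).mp hdiag
    rw [inv_inv, ← hn] at h1
    exact h1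
  have hTT1 : T * (n⁻¹ * T * n) = (n⁻¹ * T * n) * T := by
    rw [Cfsg.Agent.Lib.Helper18.diagonalSubgroup_eq_range chevD4 d4_mem] at hdiag1
    obtain ⟨c', hc'⟩ := hdiag1
    rw [← hc', hT, ← map_mul, ← map_mul, mul_comm]
  -- a non-trivial element of the short root subgroup
  have hEL : y⁻¹ * (n⁻¹ * T * n) * y ∈ L := by
    have e : y⁻¹ * (n⁻¹ * T * n) * y = (n * y)⁻¹ * T * (n * y) := by group
    rw [e]
    exact mul_mem (mul_mem (inv_mem hbL) hTL) hbL
  have hθgen : ∀ u : Kˣ, ∃ k : ℕ, θ ^ k = u := by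
    intro u
    rw [hθ]
    exact d4gen_theta_gen hK g hg u
  have hθne : (θ : K) ≠ 1 := by
    intro h1
    have hθ1 : θ = 1 := Units.ext h1
    have hall : ∀ u : Kˣ, u = 1 := by
      intro u
      obtain ⟨k, hk⟩ := hθgen u
      rw [← hk, hθ1, one_pow]
    have hcard : Nat.card Kˣ = 1 := by
      rw [Nat.card_eq_one_iff_unique]
      exact ⟨⟨fun a b => (hall a).trans (hall b).symm⟩, ⟨1⟩⟩
    rw [Nat.card_units, Nat.card_eq_fintype_card, hK] at hcard
    have h8 : 2 ^ 3 ≤ q ^ 3 := Nat.pow_le_pow_left hq1 3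
    omega
  have hθine : ((θ⁻¹ : Kˣ) : K) ≠ 1 := by
    intro h1
    apply hθne
    have : θ⁻¹ = 1 := Units.ext h1
    rw [inv_eq_one] at this
    rw [this, Units.val_one]
  obtain ⟨z0, hz0⟩ : ∃ z0 : K, z0 = ((θ : K) - 1) * (((θ⁻¹ : Kˣ) : K) - 1) := ⟨_, rfl⟩
  have hz0ne : z0 ≠ 0 := by
    rw [hz0]
    exact mul_ne_zero (sub_ne_zero.mpr hθne) (sub_ne_zero.mpr hθine)
  have hz0L : d4X τ (true, z0) ∈ L := by
    have key := d4gen_trick (fun t => d4X τ (true, t)) (fun a b => d4X_add τ true a b) T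
      (n⁻¹ * T * n) (θ : K) ((θ⁻¹ : Kˣ) : K) hTT1 hTX hT1X
    have key' : T * (y⁻¹ * (n⁻¹ * T * n) * y) * T⁻¹ * (y⁻¹ * (n⁻¹ * T * n) * y)⁻¹ =
        d4X τ (true, z0) := by
      rw [hy, hz0]
      exact key
    rw [← key']
    exact mul_mem (mul_mem (mul_mem hTL hEL) (inv_mem hTL)) (inv_mem hEL)
  have hXpos : ∀ t : K, d4X τ (true, t) ∈ L := by
    intro t
    by_cases ht : t = 0
    · rw [ht, d4gen_X_zero (fun t => d4X τ (true, t)) (fun a b => d4X_add τ true a b)]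
      exact one_mem _
    · obtain ⟨k, hk⟩ := hθgen (Units.mk0 t ht / Units.mk0 z0 hz0ne)
      have h1 := d4gen_orbit L (fun t => d4X τ (true, t)) T (θ : K) hTL hTX z0 hz0L k
      have e : (θ : K) ^ k * z0 = t := by
        have h2 := congrArg Units.val hk
        rw [Units.val_pow_eq_pow_val, Units.val_div_eq_div_val, Units.val_mk0, Units.val_mk0] at h2
        rw [h2, div_mul_cancel₀ _ hz0ne]
      rw [e] at h1
      exact h1
  -- the second generator splits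
  have hyL : y ∈ L := by
    rw [hy]
    exact hXpos 1
  have hnL : n ∈ L := by
    have e : n = (n * y) * y⁻¹ := by group
    rw [e]
    exact mul_mem hbL (inv_mem hyL)
  have hT1L : n⁻¹ * T * n ∈ L := mul_mem (mul_mem (inv_mem hnL) hTL) hnL
  -- the long root subgroups
  have hT1x : ∀ t, (n⁻¹ * T * n) * xU chevD4 d4_mem 14 t =
      xU chevD4 d4_mem 14 (((g ^ (1 + q + q ^ 2) : Kˣ) : K) * t) * (n⁻¹ * T * n) := by
    intro t
    have h1 := cT1 14 23 (by norm_num) m23 0 1 0 0 (by decide +kernel)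
      (1 + (q : ℤ) + (q : ℤ) ^ 2) 0 (by ring) t
    have e : g ^ (1 + (q : ℤ) + (q : ℤ) ^ 2) = g ^ (1 + q + q ^ 2) := by
      rw [← zpow_natCast]
      congr 1
    rw [e] at h1
    exact h1
  have hx14 : ∀ t : K, τ t = t → xU chevD4 d4_mem 14 t ∈ L := by
    intro t ht
    by_cases h0 : t = 0
    · rw [h0, xU_zero]
      exact one_mem _
    · obtain ⟨k, hk⟩ := d4gen_eta_gen hK hq1 g hg t (by rw [← hτq]; exact ht) h0
      have h1 := d4gen_orbit L (fun t => xU chevD4 d4_mem 14 t) (n⁻¹ * T * n)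
        ((g ^ (1 + q + q ^ 2) : Kˣ) : K) hT1L hT1x 1 (by rw [← hx]; exact hxL) k
      rw [mul_one, hk] at h1
      exact h1
  have hx9 : ∀ t : K, τ t = t → xU chevD4 d4_mem 9 t ∈ L := by
    intro t ht
    obtain ⟨ε, hε⟩ := nW_smap (F := K) chevD4 d4_mem ([1, 0, 2, 3] ++ [1, 0, 2, 3] ++ [1, 0, 2, 3])
      (d4_lt_rank _ (by decide))
    have h14 : (14 : ℕ) < chevD4.nroots := by rw [d4_nroots]; norm_num
    have hcj := hε.conjU d4_mem 14 h14 (ε 14 * t)
    have hε2 : ε 14 * (ε 14 * t) = t := by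
      rcases hε.sign 14 h14 with h | h <;> rw [h] <;> ring
    rw [m9, hε2] at hcj
    have hn3 : nW (F := K) chevD4 d4_mem ([1, 0, 2, 3] ++ [1, 0, 2, 3] ++ [1, 0, 2, 3]) =
        n * n * n := by rw [nW_app, nW_app, ← hn]
    have hfix : τ (ε 14 * t) = ε 14 * t := by
      rcases hε.sign 14 h14 with h | h <;> rw [h, map_mul, ht] <;> simp
    have e : xU chevD4 d4_mem 9 t =
        (n * n * n) * xU chevD4 d4_mem 14 (ε 14 * t) * (n * n * n)⁻¹ := by
      rw [← hn3, hcj]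
      group
    rw [e]
    exact mul_mem (mul_mem (mul_mem (mul_mem hnL hnL) hnL) (hx14 _ hfix))
      (inv_mem (mul_mem (mul_mem hnL hnL) hnL))
  -- the elements `n_a` and `n_b`
  have hnaL : nW (F := K) chevD4 d4_mem [1] ∈ L := by
    rw [d4gen_na]
    exact mul_mem (hx14 1 (map_one τ)) (mul_mem (hx9 (-1) (by rw [map_neg, map_one]))
      (hx14 1 (map_one τ)))
  have hnbL : nW (F := K) chevD4 d4_mem [0, 2, 3] ∈ L := by
    have e : nW (F := K) chevD4 d4_mem [0, 2, 3] = (nW (F := K) chevD4 d4_mem [1])⁻¹ * n := by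
      rw [hn, hsplit]
      group
    rw [e]
    exact mul_mem (inv_mem hnaL) hnL
  -- the opposite short root subgroup
  have hm1 : d4X τ (false, (-1 : K)) ∈ L := by
    have e : d4X τ (false, (-1 : K)) = y⁻¹ * nW (F := K) chevD4 d4_mem [0, 2, 3] * y⁻¹ := by
      rw [d4gen_nb τ, hy]
      group
    rw [e]
    exact mul_mem (mul_mem (inv_mem hyL) hnbL) (inv_mem hyL)
  have hXneg : ∀ t : K, d4X τ (false, t) ∈ L := by
    intro t
    by_cases ht : t = 0
    · rw [ht, d4gen_X_zero (fun t => d4X τ (false, t)) (fun a b => d4X_add τ false a b)]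
      exact one_mem _
    · obtain ⟨k, hk⟩ := hθgen (Units.mk0 (-t) (neg_ne_zero.mpr ht))⁻¹
      have h1 := d4gen_orbit L (fun t => d4X τ (false, t)) T ((θ⁻¹ : Kˣ) : K) hTL hTXneg (-1)
        hm1 k
      have e : ((θ⁻¹ : Kˣ) : K) ^ k * (-1) = t := by
        have h2 : (θ⁻¹) ^ k = Units.mk0 (-t) (neg_ne_zero.mpr ht) := by
          rw [inv_pow, hk, inv_inv]
        have h3 := congrArg Units.val h2
        rw [Units.val_pow_eq_pow_val, Units.val_mk0] at h3
        rw [h3]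
        ring
      rw [e] at h1
      exact h1
  -- all the generators
  unfold twistedD4 ChevalleyDatum.genSubgroup
  rw [Subgroup.closure_le]
  rintro g' ⟨w, hw, hg'⟩
  rcases hw with ⟨t, ht, r, hr, rfl⟩ | ⟨t, rs, hrs, rfl⟩
  · have ht' : τ t = t := by rw [hτq]; exact ht
    simp only [List.mem_cons, List.mem_nil_iff, or_false] at hr
    have e : g' = xU chevD4 d4_mem r t := by
      apply Units.ext
      rw [hg', coe_xU]
      simp only [ChevalleyDatum.wordMat, List.map_cons, List.map_nil, List.prod_cons,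
        List.prod_nil, mul_one]
    rw [e]
    rcases hr with rfl | rfl
    · exact hx14 t ht'
    · exact hx9 t ht'
  · simp only [List.mem_cons, List.mem_nil_iff, or_false] at hrs
    rcases hrs with rfl | rfl
    · have e : g' = d4X τ (true, t) :=
        Units.ext (by rw [hg']; exact (coe_d4X τ hτq true t).symm)
      rw [e]
      exact hXpos t
    · have e : g' = d4X τ (false, t) :=
        Units.ext (by rw [hg']; exact (coe_d4X τ hτq false t).symm)
      rw [e]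
      exact hXneg t

end gen

end Cfsg.Agent.Lib.Helper17
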