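import Cfsg.Agent.Lib.Helper17.TwE6n
import Cfsg.Agent.Lib.Helper17.D4Gen

set_option autoImplicit false

/-!
# The groups `²E₆(q)` are generated by two elements

`²E₆(q)` is generated by `h x` and `n y`, where `x` is a root element of the long root `p₂`,
`h` is a generator of the torus of the pair `p₁, p₆`, which centralises `x`, `y` is a twisted
root element of the pair `p₃, p₅` and `n` is a Coxeter element of the twisted Weyl group.  The
powers of `h x` give `h` and `x`; the commutator of `h` and its conjugate under `n y` is a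
non-trivial element of the twisted root subgroup of `y`, and `h` gives all of it, so that `y` and
`n` are in the subgroup.  The powers of `n` carry the twisted root subgroup of `p₃, p₅` and the
root subgroup of `p₂` to the other fundamental ones; the signs in the twisted root subgroups are
fixed by the twisting automorphism.
-/

namespace Cfsg.Agent.Lib.Helper17

open Cfsg Cfsg.Lie

open Cfsg.Agent.Lib.Helper18 (xU coe_xU wordU coe_wordU torusHom e6mem e6σ e6σ_xU e6σ_fixed e6ρ e6ε)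

section arith

variable {K : Type*} [Field K] [Fintype K] {q : ℕ}

theorem e6gen_pow_card (hK : Fintype.card K = q ^ 2) (u : Kˣ) : u ^ (q ^ 2) = u :=
  Units.ext (by rw [Units.val_pow_eq_pow_val, ← hK, FiniteField.pow_card])

/-- the norm of a generator of `Kˣ` generates the multiplicative group of the fixed field -/
theorem e6gen_eta_gen (hK : Fintype.card K = q ^ 2) (hq1 : 1 < q) (g : Kˣ)
    (hg : ∀ u : Kˣ, u ∈ Subgroup.zpowers g) (t : K) (ht : t ^ q = t) (h0 : t ≠ 0) :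
    ∃ k : ℕ, ((g ^ (1 + q) : Kˣ) : K) ^ k = t := by
  obtain ⟨j, hj⟩ : ∃ j : ℕ, g ^ j = Units.mk0 t h0 :=
    (Submonoid.mem_powers_iff _ _).mp (mem_powers_iff_mem_zpowers.mpr (hg (Units.mk0 t h0)))
  have hord : orderOf g = q ^ 2 - 1 := by
    rw [orderOf_eq_card_of_forall_mem_zpowers hg, Nat.card_units, Nat.card_eq_fintype_card, hK]
  have hu : (Units.mk0 t h0) ^ q = Units.mk0 t h0 :=
    Units.ext (by rw [Units.val_pow_eq_pow_val, Units.val_mk0, ht])
  obtain ⟨q', rfl⟩ : ∃ q', q = q' + 1 := ⟨q - 1, by omega⟩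
  have h1 : g ^ (j * q') = 1 := by
    have h2 : g ^ (j * (q' + 1)) = g ^ j := by rw [pow_mul, hj, hu]
    have e : j * (q' + 1) = j * q' + j := by ring
    rw [e, pow_add] at h2
    exact mul_eq_right.mp h2
  have hdvd : (q' + 1) ^ 2 - 1 ∣ j * q' := by
    rw [← hord]
    exact orderOf_dvd_of_pow_eq_one h1
  have hfac : (q' + 1) ^ 2 - 1 = (1 + (q' + 1)) * q' :=
    Nat.sub_eq_of_eq_add (by ring)
  rw [hfac] at hdvd
  have hS : (1 + (q' + 1)) ∣ j :=
    Nat.dvd_of_mul_dvd_mul_right (by omega : 0 < q') hdvd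
  obtain ⟨k, rfl⟩ := hS
  refine ⟨k, ?_⟩
  have := congrArg Units.val hj
  rw [pow_mul, Units.val_pow_eq_pow_val, Units.val_mk0] at this
  exact this

end arith

section tw

variable {K : Type*} [Field K]

theorem e6gen_xU_pow (r : ℕ) (hr : r < chevE6.nroots) (t : K) (k : ℕ) :
    xU chevE6 e6mem r t ^ k = xU chevE6 e6mem r (k * t) := by
  induction k with
  | zero => rw [pow_zero, Nat.cast_zero, zero_mul, xU_zero]
  | succ k ih =>
    rw [pow_succ, ih, xU_mul_xU chevE6 e6mem r hr, Nat.cast_succ]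
    congr 1
    ring

/-- the conjugate under an element of `N` of an element that acts on the root elements by
scalars acts by the scalar of the image of the root -/
theorem e6gen_nconj (l : List ℕ) (hl : ∀ i ∈ l, i < chevE6.rank) (T : GL chevE6.Idx K)
    (χ : ℕ → K)
    (hT : ∀ s < 72, ∀ t : K, T * xU chevE6 e6mem s t = xU chevE6 e6mem s (χ s * t) * T)
    (r : ℕ) (hr : r < 72) (t : K) :
    ((nW (F := K) chevE6 e6mem l)⁻¹ * T * nW (F := K) chevE6 e6mem l) * xU chevE6 e6mem r t =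
      xU chevE6 e6mem r (χ (Weyl.wp chevE6.reflectRoot l r) * t) *
        ((nW (F := K) chevE6 e6mem l)⁻¹ * T * nW (F := K) chevE6 e6mem l) := by
  obtain ⟨ε, hε⟩ := nW_smap (F := K) chevE6 e6mem l hl
  have hr' : r < chevE6.nroots := by rw [e6_nroots]; exact hr
  have hw : Weyl.wp chevE6.reflectRoot l r < 72 := by
    have := hε.lt r hr'
    rw [e6_nroots] at this
    exact this
  have h1 := hε.conjU e6mem r hr' t
  have h2 := hε.conjU e6mem r hr' (χ (Weyl.wp chevE6.reflectRoot l r) * t)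
  have h3 := hT (Weyl.wp chevE6.reflectRoot l r) hw (ε r * t)
  have e : ε r * (χ (Weyl.wp chevE6.reflectRoot l r) * t) =
      χ (Weyl.wp chevE6.reflectRoot l r) * (ε r * t) := by ring
  rw [e] at h2
  calc ((nW (F := K) chevE6 e6mem l)⁻¹ * T * nW (F := K) chevE6 e6mem l) * xU chevE6 e6mem r t
      = (nW (F := K) chevE6 e6mem l)⁻¹ * T *
        (nW (F := K) chevE6 e6mem l * xU chevE6 e6mem r t) := by group
    _ = (nW (F := K) chevE6 e6mem l)⁻¹ * (T *
        xU chevE6 e6mem (Weyl.wp chevE6.reflectRoot l r) (ε r * t)) *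
          nW (F := K) chevE6 e6mem l := by
      rw [h1]
      group
    _ = (nW (F := K) chevE6 e6mem l)⁻¹ * (nW (F := K) chevE6 e6mem l * xU chevE6 e6mem r
          (χ (Weyl.wp chevE6.reflectRoot l r) * t)) *
        ((nW (F := K) chevE6 e6mem l)⁻¹ * T * nW (F := K) chevE6 e6mem l) := by
      rw [h3, h2]
      group
    _ = _ := by group

/-- an element of `N` carries the fixed points of a root subgroup to those of the image -/
theorem e6gen_long (L : Subgroup (GL chevE6.Idx K)) (φ : K →+* K) (l : List ℕ)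
    (hl : ∀ i ∈ l, i < chevE6.rank) (hnL : nW (F := K) chevE6 e6mem l ∈ L) (r r' : ℕ)
    (hr : r < 72) (hmap : Weyl.wp chevE6.reflectRoot l r = r')
    (hX : ∀ t : K, φ t = t → xU chevE6 e6mem r t ∈ L) (t : K) (ht : φ t = t) :
    xU chevE6 e6mem r' t ∈ L := by
  obtain ⟨ε, hε⟩ := nW_smap (F := K) chevE6 e6mem l hl
  have hr' : r < chevE6.nroots := by rw [e6_nroots]; exact hr
  have hcj := hε.conjU e6mem r hr' (ε r * t)
  have hε2 : ε r * (ε r * t) = t := by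
    rcases hε.sign r hr' with h | h <;> rw [h] <;> ring
  rw [hmap, hε2] at hcj
  have hfix : φ (ε r * t) = ε r * t := by
    rcases hε.sign r hr' with h | h <;> rw [h, map_mul, ht] <;> simp
  have e : xU chevE6 e6mem r' t = nW (F := K) chevE6 e6mem l * xU chevE6 e6mem r (ε r * t) *
      (nW (F := K) chevE6 e6mem l)⁻¹ := by
    rw [hcj]
    group
  rw [e]
  exact mul_mem (mul_mem hnL (hX _ hfix)) (inv_mem hnL)

variable (φ : K →+* K) {q : ℕ} (hφ : ∀ t, φ t = t ^ q)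

include hφ in
/-- the action of the torus element of the pair `p₁, p₆` on the root elements -/
theorem e6gen_T_conj (g : Kˣ) (s : ℕ) (hs : s < 72) (c0 c5 : ℤ)
    (hc : chevE6.cartan 0 s = c0 ∧ chevE6.cartan 5 s = c5) (t : K) :
    e6hb φ false (g : K) * xU chevE6 e6mem s t =
      xU chevE6 e6mem s (((g ^ (c0 + (q : ℤ) * c5) : Kˣ) : K) * t) * e6hb φ false (g : K) := by
  obtain ⟨h0, h5⟩ := hc
  obtain ⟨-, -, s1, s2, -, -, -, -⟩ := e6_cartan_tab false true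
  have hg : (g : K) ≠ 0 := g.ne_zero
  have hg1 : φ (g : K) ≠ 0 := (map_ne_zero φ).mpr hg
  have hs' : s < chevE6.nroots := by rw [e6_nroots]; exact hs
  have a1 := h_conj_gen (F := K) chevE6 e6mem 0 s (by rw [e6_rank]; norm_num) hs' (g : K) hg
  have a2 := h_conj_gen (F := K) chevE6 e6mem 5 s (by rw [e6_rank]; norm_num) hs' (φ (g : K)) hg1
  rw [h0] at a1
  rw [h5] at a2
  have e1 : chevE6.simple 0 = e6r1 false true := s1
  have e2 : chevE6.simple 5 = e6r2 false true := s2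
  rw [e1] at a1
  rw [e2] at a2
  have ev : ((g ^ (c0 + (q : ℤ) * c5) : Kˣ) : K) * t =
      (g : K) ^ c0 * ((φ (g : K)) ^ c5 * t) := by
    rw [hφ, Units.val_zpow_eq_zpow_val, zpow_add₀ hg, zpow_mul, zpow_natCast, mul_assoc]
  rw [ev]
  unfold e6hb
  rw [mul_assoc, a2, ← mul_assoc, a1, mul_assoc]

include hφ in
/-- an element that acts on the two root subgroups of a pair by conjugate scalars acts on the
twisted root subgroup -/
theorem e6gen_conj_X (T : GL chevE6.Idx K) (a s : Bool) (u : Kˣ)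
    (h1 : ∀ t, T * xU chevE6 e6mem (e6r1 a s) t = xU chevE6 e6mem (e6r1 a s) ((u : K) * t) * T)
    (h2 : ∀ t, T * xU chevE6 e6mem (e6r2 a s) t =
      xU chevE6 e6mem (e6r2 a s) (((u ^ q : Kˣ) : K) * t) * T) (t : K) :
    T * e6X φ a (s, t) = e6X φ a (s, (u : K) * t) * T := by
  have e1 : φ ((u : K) * t) = ((u ^ q : Kˣ) : K) * φ t := by
    rw [map_mul, hφ (u : K), Units.val_pow_eq_pow_val]
  show T * (xU chevE6 e6mem (e6r1 a s) t * xU chevE6 e6mem (e6r2 a s) (φ t)) =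
    (xU chevE6 e6mem (e6r1 a s) ((u : K) * t) *
      xU chevE6 e6mem (e6r2 a s) (φ ((u : K) * t))) * T
  rw [e1, ← mul_assoc, h1, mul_assoc, h2, mul_assoc]

variable (hφφ : ∀ t, φ (φ t) = t)

include hφ hφφ in
/-- an element of `N` in `²E₆(q)` carries a fundamental twisted root subgroup to the twisted root
subgroup of the image pair: the two signs agree, since the image is fixed by the twisting
automorphism -/
theorem e6gen_move (L : Subgroup (GL chevE6.Idx K)) (l : List ℕ)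
    (hl : ∀ i ∈ l, i < chevE6.rank) (hnG : nW (F := K) chevE6 e6mem l ∈ twistedE6 K q)
    (hnL : nW (F := K) chevE6 e6mem l ∈ L) (a s : Bool) (s₁ s₂ : ℕ)
    (h1 : Weyl.wp chevE6.reflectRoot l (e6r1 a s) = s₁)
    (h2 : Weyl.wp chevE6.reflectRoot l (e6r2 a s) = s₂) (hρ1 : e6ρ s₁ = s₂) (hρ2 : e6ρ s₂ = s₁)
    (hε1 : e6ε s₁ = 1) (hε2 : e6ε s₂ = 1) (hne : s₁ ≠ s₂)
    (hX : ∀ t, e6X φ a (s, t) ∈ L) (t : K) :
    xU chevE6 e6mem s₁ t * xU chevE6 e6mem s₂ (φ t) ∈ L := by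
  obtain ⟨ε, hε⟩ := nW_smap (F := K) chevE6 e6mem l hl
  obtain ⟨n, hn⟩ : ∃ n : GL chevE6.Idx K, n = nW (F := K) chevE6 e6mem l := ⟨_, rfl⟩
  rw [← hn] at hnG hnL hε
  obtain ⟨l1, l2, -⟩ := e6_orth_ok a s s
  have l1' : e6r1 a s < chevE6.nroots := by rw [e6_nroots]; exact l1
  have l2' : e6r2 a s < chevE6.nroots := by rw [e6_nroots]; exact l2
  have ls1 : s₁ < chevE6.nroots := by rw [← h1]; exact hε.lt _ l1'
  have ls2 : s₂ < chevE6.nroots := by rw [← h2]; exact hε.lt _ l2'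
  obtain ⟨e₁, he₁⟩ : ∃ e₁ : K, e₁ = ε (e6r1 a s) := ⟨_, rfl⟩
  obtain ⟨e₂, he₂⟩ : ∃ e₂ : K, e₂ = ε (e6r2 a s) := ⟨_, rfl⟩
  have hs1 : e₁ = 1 ∨ e₁ = -1 := by rw [he₁]; exact hε.sign _ l1'
  have hs2 : e₂ = 1 ∨ e₂ = -1 := by rw [he₂]; exact hε.sign _ l2'
  have f1 : φ e₁ = e₁ := by rcases hs1 with h | h <;> rw [h] <;> simp
  have f2 : φ e₂ = e₂ := by rcases hs2 with h | h <;> rw [h] <;> simp
  have q1 : ∀ z : K, e₂ * (e₂ * z) = z := fun z => by rcases hs2 with h | h <;> rw [h] <;> ring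
  have q2 : ∀ z : K, e₁ * (e₁ * z) = z := fun z => by rcases hs1 with h | h <;> rw [h] <;> ring
  have c1 : ∀ t : K, n * xU chevE6 e6mem (e6r1 a s) t * n⁻¹ = xU chevE6 e6mem s₁ (e₁ * t) := by
    intro t
    rw [Cfsg.Agent.Lib.Helper18.smap_conj chevE6 e6mem _ _ _ hε _ l1' t, h1, he₁]
  have c2 : ∀ t : K, n * xU chevE6 e6mem (e6r2 a s) t * n⁻¹ = xU chevE6 e6mem s₂ (e₂ * t) := by
    intro t
    rw [Cfsg.Agent.Lib.Helper18.smap_conj chevE6 e6mem _ _ _ hε _ l2' t, h2, he₂]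
  have e5 : ∀ A B : GL chevE6.Idx K, n * (A * B) * n⁻¹ = (n * A * n⁻¹) * (n * B * n⁻¹) :=
    fun A B => by group
  have cX : ∀ t : K, n * e6X φ a (s, t) * n⁻¹ =
      xU chevE6 e6mem s₁ (e₁ * t) * xU chevE6 e6mem s₂ (e₂ * φ t) := by
    intro t
    show n * (xU chevE6 e6mem (e6r1 a s) t * xU chevE6 e6mem (e6r2 a s) (φ t)) * n⁻¹ = _
    rw [e5, c1, c2]
  have key : e₁ = e₂ := by
    by_contra hne'
    have hmem : n * e6X φ a (s, 1) * n⁻¹ ∈ twistedE6 K q :=
      mul_mem (mul_mem hnG (e6X_mem φ hφ a _)) (inv_mem hnG)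
    have hfix := e6σ_fixed q φ hφ hφφ _ hmem
    rw [cX 1, map_one, mul_one, mul_one, map_mul, e6σ_xU φ s₁ ls1, e6σ_xU φ s₂ ls2, hρ1, hρ2,
      hε1, hε2, Int.cast_one, one_mul, one_mul, f1, f2] at hfix
    have hcm := (e6_xcomm (K := K) a s s (e₂ * e₁) (e₁ * e₂)).eq
    have hcm' : n * (xU chevE6 e6mem (e6r2 a s) (e₂ * e₁) *
        xU chevE6 e6mem (e6r1 a s) (e₁ * e₂)) * n⁻¹ =
        n * (xU chevE6 e6mem (e6r1 a s) (e₁ * e₂) *
          xU chevE6 e6mem (e6r2 a s) (e₂ * e₁)) * n⁻¹ := by rw [hcm]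
    rw [e5, e5, c1, c2, q1, q2] at hcm'
    rw [hcm'] at hfix
    have e3 : (xU chevE6 e6mem s₁ e₁)⁻¹ * xU chevE6 e6mem s₁ e₂ =
        xU chevE6 e6mem s₂ e₂ * (xU chevE6 e6mem s₂ e₁)⁻¹ := by
      rw [inv_mul_eq_iff_eq_mul, ← mul_assoc, eq_mul_inv_iff_mul_eq]
      exact hfix
    rw [xU_inv, xU_inv, xU_mul_xU chevE6 e6mem _ ls1, xU_mul_xU chevE6 e6mem _ ls2] at e3
    have hnz : -e₁ + e₂ ≠ 0 := by
      intro h0
      apply hne'
      linear_combination -h0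
    exact hne (Cfsg.Agent.Lib.Helper18.e6_xU_root_inj s₁ s₂ (by rw [← e6_nroots]; exact ls1)
      (by rw [← e6_nroots]; exact ls2) _ _ hnz e3)
  have e : xU chevE6 e6mem s₁ t * xU chevE6 e6mem s₂ (φ t) = n * e6X φ a (s, e₁ * t) * n⁻¹ := by
    rw [cX (e₁ * t), ← key, map_mul, f1, q2, q2]
  rw [e]
  exact mul_mem (mul_mem hnL (hX _)) (inv_mem hnL)

end tw

section gen

set_option maxRecDepth 100000 in
theorem e6_gen_maps :
    (Weyl.wp chevE6.reflectRoot [1, 3, 2, 4, 0, 5] 42 = 56 ∧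
      Weyl.wp chevE6.reflectRoot [1, 3, 2, 4, 0, 5] 37 = 36 ∧
      Weyl.wp chevE6.reflectRoot [1, 3, 2, 4, 0, 5] 46 = 39) ∧
    Weyl.wp chevE6.reflectRoot ([1, 3, 2, 4, 0, 5] ++ [1, 3, 2, 4, 0, 5]) 46 = 51 ∧
    (Weyl.wp chevE6.reflectRoot (wrep 6 [1, 3, 2, 4, 0, 5]) 42 = 34 ∧
      Weyl.wp chevE6.reflectRoot (wrep 6 [1, 3, 2, 4, 0, 5]) 37 = 29 ∧
      Weyl.wp chevE6.reflectRoot (wrep 6 [1, 3, 2, 4, 0, 5]) 56 = 35 ∧
      Weyl.wp chevE6.reflectRoot (wrep 6 [1, 3, 2, 4, 0, 5]) 36 = 15 ∧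
      Weyl.wp chevE6.reflectRoot (wrep 6 [1, 3, 2, 4, 0, 5]) 46 = 25 ∧
      Weyl.wp chevE6.reflectRoot (wrep 6 [1, 3, 2, 4, 0, 5]) 39 = 32) := by
  decide +kernel

set_option maxRecDepth 100000 in
theorem e6_gen_rho :
    (e6ρ 56 = 36 ∧ e6ρ 36 = 56 ∧ e6ε 56 = 1 ∧ e6ε 36 = 1) ∧
    (e6ρ 34 = 29 ∧ e6ρ 29 = 34 ∧ e6ε 34 = 1 ∧ e6ε 29 = 1) ∧
    (e6ρ 35 = 15 ∧ e6ρ 15 = 35 ∧ e6ε 35 = 1 ∧ e6ε 15 = 1) := by
  decide +kernel

set_option maxRecDepth 100000 in
/-- `²E₆(q)` is generated by two elements -/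
theorem e6_two_gen {K : Type*} [Field K] [Fintype K] {q : ℕ} (hq : IsPrimePow q)
    (hK : Fintype.card K = q ^ 2) :
    ∃ a b : ↥(twistedE6 K q), Subgroup.closure ({a, b} : Set ↥(twistedE6 K q)) = ⊤ := by
  classical
  obtain ⟨φ, hφ, hφφ⟩ := Cfsg.Agent.Lib.Helper18.exists_frob_sq hq hK
  have hq1 : 1 < q := hq.one_lt
  obtain ⟨g, hg⟩ := IsCyclic.exists_generator (α := Kˣ)
  obtain ⟨⟨m42, m37, m46⟩, m51, ⟨w42, w37, w56, w36, w46, w39⟩⟩ := e6_gen_maps
  obtain ⟨⟨ρ56, ρ36, ε56, ε36⟩, ⟨ρ34, ρ29, ε34, ε29⟩, ⟨ρ35, ρ15, ε35, ε15⟩⟩ := e6_gen_rho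
  obtain ⟨T, hT⟩ : ∃ T : GL chevE6.Idx K, T = e6hb φ false (g : K) := ⟨_, rfl⟩
  obtain ⟨n, hn⟩ : ∃ n : GL chevE6.Idx K, n = nW (F := K) chevE6 e6mem [1, 3, 2, 4, 0, 5] :=
    ⟨_, rfl⟩
  obtain ⟨x, hx⟩ : ∃ x : GL chevE6.Idx K, x = xU chevE6 e6mem 46 (1 : K) := ⟨_, rfl⟩
  obtain ⟨y, hy⟩ : ∃ y : GL chevE6.Idx K, y = e6X φ true (true, (1 : K)) := ⟨_, rfl⟩
  have hTG : T ∈ twistedE6 K q := by
    rw [hT]
    exact e6_hb_mem φ hφ false _
  have hnG' : nW (F := K) chevE6 e6mem [1, 3, 2, 4, 0, 5] ∈ twistedE6 K q :=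
    e6_nJ_mem φ hφ [0, 1, 3, 2]
  have hnG : n ∈ twistedE6 K q := by
    rw [hn]
    exact hnG'
  have hxG : x ∈ twistedE6 K q := by
    rw [hx]
    exact Cfsg.Agent.Lib.Helper18.e6_single_mem q 46 (by decide) 1 (one_pow q)
  have hyG : y ∈ twistedE6 K q := by
    rw [hy]
    exact e6X_mem φ hφ _ _
  refine ⟨⟨T * x, mul_mem hTG hxG⟩, ⟨n * y, mul_mem hnG hyG⟩, ?_⟩
  obtain ⟨L, hL⟩ : ∃ L : Subgroup (GL chevE6.Idx K), L = (Subgroup.closure
      ({⟨T * x, mul_mem hTG hxG⟩, ⟨n * y, mul_mem hnG hyG⟩} : Set ↥(twistedE6 K q))).map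
        (twistedE6 K q).subtype := ⟨_, rfl⟩
  have haL : T * x ∈ L := by
    rw [hL]
    exact ⟨⟨T * x, mul_mem hTG hxG⟩, Subgroup.subset_closure (by simp), rfl⟩
  have hbL : n * y ∈ L := by
    rw [hL]
    exact ⟨⟨n * y, mul_mem hnG hyG⟩, Subgroup.subset_closure (by simp), rfl⟩
  suffices hle : twistedE6 K q ≤ L by
    rw [eq_top_iff]
    intro z _
    have hz := hle z.2
    rw [hL] at hz
    obtain ⟨z', hz', hzz⟩ := hz
    have e : z' = z := Subtype.ext hzz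
    rwa [e] at hz'
  clear hL
  have l6 : ∀ i ∈ ([1, 3, 2, 4, 0, 5] : List ℕ), i < chevE6.rank := e6_lt_rank _ (by decide)
  have l12 : ∀ i ∈ ([1, 3, 2, 4, 0, 5] ++ [1, 3, 2, 4, 0, 5] : List ℕ), i < chevE6.rank :=
    e6_lt_rank _ (by decide)
  have l36 : ∀ i ∈ wrep 6 [1, 3, 2, 4, 0, 5], i < chevE6.rank := by
    rw [e6_rank]
    exact wrep_lt 6 _ 6 (by decide)
  -- the action of the torus element and of its conjugates on the root elements
  have cT : ∀ (s : ℕ) (_ : s < 72) (c0 c5 : ℤ)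
      (_ : chevE6.cartan 0 s = c0 ∧ chevE6.cartan 5 s = c5) (t : K),
      T * xU chevE6 e6mem s t =
        xU chevE6 e6mem s (((g ^ (c0 + (q : ℤ) * c5) : Kˣ) : K) * t) * T := by
    intro s hs c0 c5 hc t
    rw [hT]
    exact e6gen_T_conj φ hφ g s hs c0 c5 hc t
  have cT1 : ∀ (l : List ℕ) (_ : ∀ i ∈ l, i < chevE6.rank) (r r' : ℕ) (_ : r < 72)
      (_ : Weyl.wp chevE6.reflectRoot l r = r') (c0 c5 : ℤ)
      (_ : chevE6.cartan 0 r' = c0 ∧ chevE6.cartan 5 r' = c5) (t : K),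
      ((nW (F := K) chevE6 e6mem l)⁻¹ * T * nW (F := K) chevE6 e6mem l) * xU chevE6 e6mem r t =
        xU chevE6 e6mem r (((g ^ (c0 + (q : ℤ) * c5) : Kˣ) : K) * t) *
          ((nW (F := K) chevE6 e6mem l)⁻¹ * T * nW (F := K) chevE6 e6mem l) := by
    intro l hl r r' hr hmap c0 c5 hc t
    have h1 := e6gen_nconj l hl T
      (fun s => ((g ^ (chevE6.cartan 0 s + (q : ℤ) * chevE6.cartan 5 s) : Kˣ) : K))
      (fun s hs t => cT s hs _ _ ⟨rfl, rfl⟩ t) r hr t
    rw [hmap] at h1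
    obtain ⟨h0, h5⟩ := hc
    rw [← h0, ← h5]
    exact h1
  -- the two factors of the first generator
  have hcomm : Commute T x := by
    show T * x = x * T
    rw [hx, cT 46 (by norm_num) 0 0 (by decide +kernel) 1, mul_zero, add_zero, zpow_zero,
      Units.val_one, one_mul]
  have hxq : x ^ (q ^ 2) = 1 := by
    rw [hx, e6gen_xU_pow 46 (by rw [e6_nroots]; norm_num), ← hK, Nat.cast_card_eq_zero, zero_mul,
      xU_zero]
  have hdiag : T ∈ chevE6.diagonalSubgroup K := by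
    rw [hT]
    unfold e6hb
    exact mul_mem
      (Subgroup.subset_closure ⟨e6r1 false true, (g : K), by rw [e6_nroots]; decide, g.ne_zero,
        by rw [coe_wordU]; rfl⟩)
      (Subgroup.subset_closure ⟨e6r2 false true, φ (g : K), by rw [e6_nroots]; decide,
        (map_ne_zero φ).mpr g.ne_zero, by rw [coe_wordU]; rfl⟩)
  have hrange : ∃ c' : Fin chevE6.rank → Kˣ, torusHom (F := K) chevE6 c' = T := by
    have h1 := hdiag
    rw [Cfsg.Agent.Lib.Helper18.diagonalSubgroup_eq_range chevE6 e6mem] at h1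
    exact h1
  have hTq : T ^ (q ^ 2) = T := by
    obtain ⟨c', hc'⟩ := hrange
    rw [← hc', ← map_pow]
    congr 1
    funext i
    rw [Pi.pow_apply]
    exact e6gen_pow_card hK _
  have hTL : T ∈ L := by
    have e : T = (T * x) ^ (q ^ 2) := by rw [hcomm.mul_pow, hxq, mul_one, hTq]
    rw [e]
    exact pow_mem haL _
  have hxL : x ∈ L := by
    have e : x = T⁻¹ * (T * x) := by group
    rw [e]
    exact mul_mem (inv_mem hTL) haL
  -- the action on the twisted root elements of `p₃, p₅`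
  obtain ⟨θ, hθ⟩ : ∃ θ : Kˣ, θ = g⁻¹ := ⟨_, rfl⟩
  have hTX : ∀ t, T * e6X φ true (true, t) = e6X φ true (true, (θ : K) * t) * T := by
    apply e6gen_conj_X φ hφ T true true θ
    · intro t
      have h1 := cT 42 (by norm_num) (-1) 0 (by decide +kernel) t
      have e : g ^ (-1 + (q : ℤ) * 0) = θ := by rw [hθ, mul_zero, add_zero, zpow_neg_one]
      rw [e] at h1
      exact h1
    · intro t
      have h1 := cT 37 (by norm_num) 0 (-1) (by decide +kernel) t
      have e : g ^ (0 + (q : ℤ) * (-1)) = θ ^ q := by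
        rw [hθ, zero_add, mul_neg_one, zpow_neg, zpow_natCast, inv_pow]
      rw [e] at h1
      exact h1
  have hT1X : ∀ t, (n⁻¹ * T * n) * e6X φ true (true, t) =
      e6X φ true (true, ((g ^ 2 : Kˣ) : K) * t) * (n⁻¹ * T * n) := by
    apply e6gen_conj_X φ hφ (n⁻¹ * T * n) true true (g ^ 2)
    · intro t
      have h1 := cT1 [1, 3, 2, 4, 0, 5] l6 42 56 (by norm_num) m42 2 0 (by decide +kernel) t
      have e : g ^ (2 + (q : ℤ) * 0) = g ^ 2 := by
        rw [mul_zero, add_zero]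
        exact zpow_ofNat g 2
      rw [e, ← hn] at h1
      exact h1
    · intro t
      have h1 := cT1 [1, 3, 2, 4, 0, 5] l6 37 36 (by norm_num) m37 0 2 (by decide +kernel) t
      have e : g ^ (0 + (q : ℤ) * 2) = (g ^ 2) ^ q := by
        rw [zero_add, ← pow_mul, ← zpow_natCast]
        congr 1
        push_cast
        ring
      rw [e, ← hn] at h1
      exact h1
  -- the torus element and its conjugate commute
  have hdiag1 : n⁻¹ * T * n ∈ chevE6.diagonalSubgroup K := by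
    have hnn := inv_mem (nW_mem_normalizer (F := K) chevE6 e6mem [1, 3, 2, 4, 0, 5])
    have h1 := (Subgroup.mem_normalizer_iff.mp hnn T).mp hdiag
    rw [inv_inv, ← hn] at h1
    exact h1
  have hTT1 : T * (n⁻¹ * T * n) = (n⁻¹ * T * n) * T := by
    rw [Cfsg.Agent.Lib.Helper18.diagonalSubgroup_eq_range chevE6 e6mem] at hdiag1
    obtain ⟨c2, hc2⟩ := hdiag1
    obtain ⟨c1, hc1⟩ := hrange
    rw [← hc2, ← hc1, ← map_mul, ← map_mul, mul_comm]
  -- a non-trivial element of the twisted root subgroup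
  have hEL : y⁻¹ * (n⁻¹ * T * n) * y ∈ L := by
    have e : y⁻¹ * (n⁻¹ * T * n) * y = (n * y)⁻¹ * T * (n * y) := by group
    rw [e]
    exact mul_mem (mul_mem (inv_mem hbL) hTL) hbL
  have hg2 : g ^ 2 ≠ 1 := by
    intro h
    have hord : orderOf g = q ^ 2 - 1 := by
      rw [orderOf_eq_card_of_forall_mem_zpowers hg, Nat.card_units, Nat.card_eq_fintype_card, hK]
    have hd : orderOf g ∣ 2 := orderOf_dvd_of_pow_eq_one h
    have h2 := Nat.le_of_dvd (by norm_num) hd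
    have h4 : 2 ^ 2 ≤ q ^ 2 := Nat.pow_le_pow_left hq1 2
    omega
  have hθne : (θ : K) ≠ 1 := by
    intro h1
    have h2 : θ = 1 := Units.ext h1
    rw [hθ, inv_eq_one] at h2
    apply hg2
    rw [h2, one_pow]
  have hg2ne : ((g ^ 2 : Kˣ) : K) ≠ 1 := fun h1 => hg2 (Units.ext h1)
  obtain ⟨z0, hz0⟩ : ∃ z0 : K, z0 = ((θ : K) - 1) * (((g ^ 2 : Kˣ) : K) - 1) := ⟨_, rfl⟩
  have hz0ne : z0 ≠ 0 := by
    rw [hz0]
    exact mul_ne_zero (sub_ne_zero.mpr hθne) (sub_ne_zero.mpr hg2ne)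
  have hz0L : e6X φ true (true, z0) ∈ L := by
    have key := d4gen_trick (fun t => e6X φ true (true, t)) (fun a b => e6X_add φ true true a b) T
      (n⁻¹ * T * n) (θ : K) ((g ^ 2 : Kˣ) : K) hTT1 hTX hT1X
    have key' : T * (y⁻¹ * (n⁻¹ * T * n) * y) * T⁻¹ * (y⁻¹ * (n⁻¹ * T * n) * y)⁻¹ =
        e6X φ true (true, z0) := by
      rw [hy, hz0]
      exact key
    rw [← key']
    exact mul_mem (mul_mem (mul_mem hTL hEL) (inv_mem hTL)) (inv_mem hEL)
  have hθgen : ∀ u : Kˣ, ∃ k : ℕ, θ ^ k = u := by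
    intro u
    obtain ⟨k, hk⟩ := (Submonoid.mem_powers_iff _ _).mp (mem_powers_iff_mem_zpowers.mpr (hg u⁻¹))
    exact ⟨k, by rw [hθ, inv_pow, hk, inv_inv]⟩
  have hXC : ∀ t : K, e6X φ true (true, t) ∈ L := by
    intro t
    by_cases ht : t = 0
    · rw [ht, d4gen_X_zero (fun t => e6X φ true (true, t)) (fun a b => e6X_add φ true true a b)]
      exact one_mem _
    · obtain ⟨k, hk⟩ := hθgen (Units.mk0 t ht / Units.mk0 z0 hz0ne)
      have h1 := d4gen_orbit L (fun t => e6X φ true (true, t)) T (θ : K) hTL hTX z0 hz0L k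
      have e : (θ : K) ^ k * z0 = t := by
        have h2 := congrArg Units.val hk
        rw [Units.val_pow_eq_pow_val, Units.val_div_eq_div_val, Units.val_mk0, Units.val_mk0] at h2
        rw [h2, div_mul_cancel₀ _ hz0ne]
      rw [e] at h1
      exact h1
  -- the second generator splits
  have hyL : y ∈ L := by
    rw [hy]
    exact hXC 1
  have hnL : n ∈ L := by
    have e : n = (n * y) * y⁻¹ := by group
    rw [e]
    exact mul_mem hbL (inv_mem hyL)
  have hnL' : nW (F := K) chevE6 e6mem [1, 3, 2, 4, 0, 5] ∈ L := by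
    rw [← hn]
    exact hnL
  have hn6 : nW (F := K) chevE6 e6mem (wrep 6 [1, 3, 2, 4, 0, 5]) = n ^ 6 := by
    rw [nW_wrep, ← hn]
  have hn6G : nW (F := K) chevE6 e6mem (wrep 6 [1, 3, 2, 4, 0, 5]) ∈ twistedE6 K q := by
    rw [hn6]
    exact pow_mem hnG 6
  have hn6L : nW (F := K) chevE6 e6mem (wrep 6 [1, 3, 2, 4, 0, 5]) ∈ L := by
    rw [hn6]
    exact pow_mem hnL 6
  -- the other fundamental twisted root subgroups
  have hXD : ∀ t : K, e6X φ false (true, t) ∈ L := fun t =>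
    e6gen_move φ hφ hφφ L [1, 3, 2, 4, 0, 5] l6 hnG' hnL' true true 56 36 m42 m37 ρ56 ρ36 ε56 ε36
      (by norm_num) hXC t
  have hXCn : ∀ t : K, e6X φ true (false, t) ∈ L := by
    intro t
    have h1 := e6gen_move φ hφ hφφ L (wrep 6 [1, 3, 2, 4, 0, 5]) l36 hn6G hn6L true true 34 29
      w42 w37 ρ34 ρ29 ε34 ε29 (by norm_num) hXC (φ t)
    rw [hφφ] at h1
    have e : e6X φ true (false, t) =
        xU chevE6 e6mem 34 (φ t) * xU chevE6 e6mem 29 t :=
      (e6_xcomm (K := K) true false false (φ t) t).eq.symm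
    rw [e]
    exact h1
  have hXDn : ∀ t : K, e6X φ false (false, t) ∈ L := by
    intro t
    have h1 := e6gen_move φ hφ hφφ L (wrep 6 [1, 3, 2, 4, 0, 5]) l36 hn6G hn6L false true 35 15
      w56 w36 ρ35 ρ15 ε35 ε15 (by norm_num) hXD (φ t)
    rw [hφφ] at h1
    have e : e6X φ false (false, t) =
        xU chevE6 e6mem 35 (φ t) * xU chevE6 e6mem 15 t :=
      (e6_xcomm (K := K) false false false (φ t) t).eq.symm
    rw [e]
    exact h1
  -- the long root subgroups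
  obtain ⟨η, hη⟩ : ∃ η : Kˣ, η = (g ^ (1 + q))⁻¹ := ⟨_, rfl⟩
  have hT2L : (nW (F := K) chevE6 e6mem ([1, 3, 2, 4, 0, 5] ++ [1, 3, 2, 4, 0, 5]))⁻¹ * T *
      nW (F := K) chevE6 e6mem ([1, 3, 2, 4, 0, 5] ++ [1, 3, 2, 4, 0, 5]) ∈ L := by
    rw [nW_app, ← hn]
    exact mul_mem (mul_mem (inv_mem (mul_mem hnL hnL)) hTL) (mul_mem hnL hnL)
  have hT2x : ∀ t, ((nW (F := K) chevE6 e6mem ([1, 3, 2, 4, 0, 5] ++ [1, 3, 2, 4, 0, 5]))⁻¹ * T *
      nW (F := K) chevE6 e6mem ([1, 3, 2, 4, 0, 5] ++ [1, 3, 2, 4, 0, 5])) *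
        xU chevE6 e6mem 46 t = xU chevE6 e6mem 46 ((η : K) * t) *
      ((nW (F := K) chevE6 e6mem ([1, 3, 2, 4, 0, 5] ++ [1, 3, 2, 4, 0, 5]))⁻¹ * T *
        nW (F := K) chevE6 e6mem ([1, 3, 2, 4, 0, 5] ++ [1, 3, 2, 4, 0, 5])) := by
    intro t
    have h1 := cT1 ([1, 3, 2, 4, 0, 5] ++ [1, 3, 2, 4, 0, 5]) l12 46 51 (by norm_num) m51 (-1) (-1)
      (by decide +kernel) t
    have e : g ^ (-1 + (q : ℤ) * (-1)) = η := by
      rw [hη, ← zpow_natCast, ← zpow_neg]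
      congr 1
      push_cast
      ring
    rw [e] at h1
    exact h1
  have hxA : ∀ t : K, φ t = t → xU chevE6 e6mem 46 t ∈ L := by
    intro t ht
    by_cases h0 : t = 0
    · rw [h0, xU_zero]
      exact one_mem _
    · obtain ⟨k, hk⟩ := e6gen_eta_gen hK hq1 g hg t⁻¹ (by rw [inv_pow, ← hφ, ht]) (inv_ne_zero h0)
      have h1 := d4gen_orbit L (fun t => xU chevE6 e6mem 46 t) _ (η : K) hT2L hT2x 1
        (by rw [← hx]; exact hxL) k
      have e : (η : K) ^ k * 1 = t := by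
        rw [mul_one, hη, Units.val_inv_eq_inv_val, inv_pow, hk, inv_inv]
      rw [e] at h1
      exact h1
  have hxB : ∀ t : K, φ t = t → xU chevE6 e6mem 39 t ∈ L :=
    e6gen_long L φ [1, 3, 2, 4, 0, 5] l6 hnL' 46 39 (by norm_num) m46 hxA
  have hxAn : ∀ t : K, φ t = t → xU chevE6 e6mem 25 t ∈ L :=
    e6gen_long L φ (wrep 6 [1, 3, 2, 4, 0, 5]) l36 hn6L 46 25 (by norm_num) w46 hxA
  have hxBn : ∀ t : K, φ t = t → xU chevE6 e6mem 32 t ∈ L :=
    e6gen_long L φ (wrep 6 [1, 3, 2, 4, 0, 5]) l36 hn6L 39 32 (by norm_num) w39 hxB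
  -- all the generators
  unfold twistedE6 ChevalleyDatum.genSubgroup
  rw [Subgroup.closure_le]
  rintro g' ⟨w, hw, hg'⟩
  rcases hw with ⟨t, ht, r, hr, rfl⟩ | ⟨t, rs, hrs, rfl⟩
  · have ht' : φ t = t := by rw [hφ]; exact ht
    have e : g' = xU chevE6 e6mem r t :=
      Cfsg.Agent.Lib.Helper18.eq_xU chevE6 e6mem r t g'
        (by rw [hg']; simp [ChevalleyDatum.wordMat])
    rw [e]
    simp only [List.mem_cons, List.mem_nil_iff, or_false] at hr
    rcases hr with rfl | rfl | rfl | rfl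
    · exact hxA t ht'
    · exact hxAn t ht'
    · exact hxB t ht'
    · exact hxBn t ht'
  · have e : g' = xU chevE6 e6mem rs.1 t * xU chevE6 e6mem rs.2 (t ^ q) :=
      Units.ext (by rw [hg', Units.val_mul, coe_xU, coe_xU]; simp [ChevalleyDatum.wordMat])
    rw [e, ← hφ]
    simp only [List.mem_cons, List.mem_nil_iff, or_false] at hrs
    rcases hrs with rfl | rfl | rfl | rfl
    · exact hXD t
    · exact hXDn t
    · exact hXC t
    · exact hXCn t

end gen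

end Cfsg.Agent.Lib.Helper17
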