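import Cfsg.Agent.Lib.Helper17.F4H
import Cfsg.Agent.Lib.Helper17.ChevCell

set_option autoImplicit false

/-!
# The large Ree groups: the cardinality of the double cosets `B¹ n_w B¹`

`B¹ = H¹ U¹`, and for a word `l` with `n_l ∈ ²F₄` making a union `N` of classes of positive
roots negative, `|B¹ n_l B¹| = |B¹| q^{e}`, `e` the number of free parameters of the classes
in `N`.
-/

namespace Cfsg.Agent.Lib.Helper17

open Cfsg Cfsg.Lie

open Cfsg.Agent.Lib.Helper18 (xU coe_xU wordU coe_wordU xU_mem_group diagonalSubgroup_le_group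
  posUnipotent_le_group)

section gen

variable {F : Type*} [Field F] (D : ChevalleyDatum)
  (hD : D ∈ [chevG2, chevB2, chevD4, chevF4, chevE6, chevE7, chevE8])

/-- an ordered product whose parameters vanish outside `P` -/
theorem oprodL_filter (L : List ℕ) (P : ℕ → Prop) [DecidablePred P] (t : ℕ → F)
    (h : ∀ r ∈ L, ¬ P r → t r = 0) : oprodL D hD L t = oprodL D hD (L.filter P) t := by
  induction L with
  | nil => rfl
  | cons r L ih =>
    have ih' := ih (fun s hs => h s (List.mem_cons_of_mem _ hs))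
    by_cases hr : P r
    · rw [List.filter_cons_of_pos (by simpa using hr), oprodL_cons, oprodL_cons, ih']
    · rw [List.filter_cons_of_neg (by simpa using hr), oprodL_cons, h r List.mem_cons_self hr,
        xU_zero, one_mul, ih']

/-- conjugating an ordered product by `n_w` in characteristic 2 -/
theorem nW_conj_oprod_mem [CharP F 2] (l : List ℕ) (hl : ∀ i ∈ l, i < D.rank) (B : List ℕ)
    (hB : ∀ r ∈ B, r < D.nroots) (t : ℕ → F) (S : Subgroup (GL D.Idx F))
    (hS : ∀ r ∈ B, ∀ u : F, xU D hD (Weyl.wp D.reflectRoot l r) u ∈ S) :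
    nW (F := F) D hD l * oprodL D hD B t * (nW (F := F) D hD l)⁻¹ ∈ S := by
  induction B with
  | nil =>
    rw [oprodL_nil, mul_one, mul_inv_cancel]
    exact one_mem _
  | cons r B ih =>
    rw [oprodL_cons]
    have e : nW (F := F) D hD l * (xU D hD r (t r) * oprodL D hD B t) *
        (nW (F := F) D hD l)⁻¹ =
        (nW (F := F) D hD l * xU D hD r (t r) * (nW (F := F) D hD l)⁻¹) *
          (nW (F := F) D hD l * oprodL D hD B t * (nW (F := F) D hD l)⁻¹) := by group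
    rw [e, nW_conj_xU D hD l hl r (hB r List.mem_cons_self)]
    exact mul_mem (hS r List.mem_cons_self _)
      (ih (fun s hs => hB s (List.mem_cons_of_mem _ hs))
        (fun s hs => hS s (List.mem_cons_of_mem _ hs)))

end gen

/-- the free roots on which the parameter of a root of a fixed point depends -/
def f4dep (r : ℕ) : List ℕ :=
  if r = 33 then [24] else
  if r = 24 then [24] else
  if r = 34 then [26] else
  if r = 26 then [26] else
  if r = 36 then [36] else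
  if r = 42 then [36, 26] else
  if r = 38 then [43] else
  if r = 43 then [43] else
  if r = 29 then [41] else
  if r = 41 then [41] else
  if r = 44 then [44] else
  if r = 47 then [44, 41] else
  if r = 39 then [45] else
  if r = 45 then [45] else
  if r = 35 then [31] else
  if r = 31 then [31] else
  if r = 40 then [40] else
  if r = 46 then [40, 31] else
  if r = 37 then [32] else
  if r = 32 then [32] else
  if r = 27 then [25] else
  if r = 25 then [25] else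
  if r = 28 then [28] else
  if r = 30 then [28, 25] else
  []

section ext

variable {K : Type*} [Field K]

theorem f4Ext_zero (m : ℕ) (p : ℕ → K) (r : ℕ) (hr : r ∈ f4L)
    (h : ∀ s ∈ f4dep r, p s = 0) : f4Ext m p r = 0 := by
  simp only [f4L, List.mem_cons, List.mem_nil_iff, or_false] at hr
  have hz : (0 : K) ^ 2 ^ m = 0 := zero_pow (pow_ne_zero _ two_ne_zero)
  have hz2 : (0 : K) ^ (2 * 2 ^ m) + 0 ^ (2 * 2 ^ m + 1) = 0 := by
    rw [zero_pow (by positivity), zero_pow (by positivity), add_zero]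
  rcases hr with rfl | rfl | rfl | rfl | rfl | rfl | rfl | rfl | rfl | rfl | rfl | rfl | rfl |
    rfl | rfl | rfl | rfl | rfl | rfl | rfl | rfl | rfl | rfl | rfl
  · show p 24 ^ 2 ^ m = 0
    rw [h 24 (by decide)]
    exact hz
  · exact h 24 (by decide)
  · show p 26 ^ 2 ^ m = 0
    rw [h 26 (by decide)]
    exact hz
  · exact h 26 (by decide)
  · exact h 36 (by decide)
  · show p 36 ^ (2 * 2 ^ m) + p 26 ^ (2 * 2 ^ m + 1) = 0
    rw [h 36 (by decide), h 26 (by decide)]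
    exact hz2
  · show p 43 ^ 2 ^ m = 0
    rw [h 43 (by decide)]
    exact hz
  · exact h 43 (by decide)
  · show p 41 ^ 2 ^ m = 0
    rw [h 41 (by decide)]
    exact hz
  · exact h 41 (by decide)
  · exact h 44 (by decide)
  · show p 44 ^ (2 * 2 ^ m) + p 41 ^ (2 * 2 ^ m + 1) = 0
    rw [h 44 (by decide), h 41 (by decide)]
    exact hz2
  · show p 45 ^ 2 ^ m = 0
    rw [h 45 (by decide)]
    exact hz
  · exact h 45 (by decide)
  · show p 31 ^ 2 ^ m = 0
    rw [h 31 (by decide)]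
    exact hz
  · exact h 31 (by decide)
  · exact h 40 (by decide)
  · show p 40 ^ (2 * 2 ^ m) + p 31 ^ (2 * 2 ^ m + 1) = 0
    rw [h 40 (by decide), h 31 (by decide)]
    exact hz2
  · show p 32 ^ 2 ^ m = 0
    rw [h 32 (by decide)]
    exact hz
  · exact h 32 (by decide)
  · show p 25 ^ 2 ^ m = 0
    rw [h 25 (by decide)]
    exact hz
  · exact h 25 (by decide)
  · exact h 28 (by decide)
  · show p 28 ^ (2 * 2 ^ m) + p 25 ^ (2 * 2 ^ m + 1) = 0
    rw [h 28 (by decide), h 25 (by decide)]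
    exact hz2

end ext

section cell

variable {K : Type*} [Field K] [Fintype K] [CharP K 2] {m : ℕ}

/-- `B¹ = H¹ U¹` -/
theorem f4_borel_decomp (hK : Fintype.card K = 2 ^ (2 * m + 1)) (b : GL chevF4.Idx K)
    (hbB : b ∈ chevF4.borelSubgroup K) (hbT : b ∈ twistedF4 K (2 ^ m)) :
    ∃ h ∈ chevF4.diagonalSubgroup K ⊓ twistedF4 K (2 ^ m),
      ∃ u ∈ chevF4.posUnipotent K ⊓ twistedF4 K (2 ^ m), b = h * u := by
  obtain ⟨T0⟩ := exists_f4Tw (K := K) m
  obtain ⟨h, hh, u, hu, rfl⟩ := borel_decomp_HU chevF4 f4mem b hbB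
  have hhG : h ∈ chevF4.group K := diagonalSubgroup_le_group chevF4 f4mem hh
  have huG : u ∈ chevF4.group K := posUnipotent_le_group chevF4 f4mem hu
  have hfix := f4_fixed (tw18 T0) hK ⟨h * u, mul_mem hhG huG⟩ hbT
  have e : (⟨h * u, mul_mem hhG huG⟩ : ↥(chevF4.group K)) = ⟨h, hhG⟩ * ⟨u, huG⟩ := rfl
  rw [e, map_mul] at hfix
  have h1 := (tw18 T0).σ_H ⟨h, hhG⟩ hh
  have h2 := (tw18 T0).σ_U ⟨u, huG⟩ hu
  have h3 : (⟨h, hhG⟩ : ↥(chevF4.group K))⁻¹ * (tw18 T0).σ ⟨h, hhG⟩ =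
      ⟨u, huG⟩ * ((tw18 T0).σ ⟨u, huG⟩)⁻¹ := by
    rw [inv_mul_eq_iff_eq_mul, ← mul_assoc, eq_mul_inv_iff_mul_eq]
    exact hfix
  have h4 : (((⟨h, hhG⟩ : ↥(chevF4.group K))⁻¹ * (tw18 T0).σ ⟨h, hhG⟩ : ↥(chevF4.group K)) :
      GL chevF4.Idx K) ∈ chevF4.posUnipotent K ⊓ chevF4.diagonalSubgroup K := by
    refine Subgroup.mem_inf.mpr ⟨?_, mul_mem (inv_mem hh) h1⟩
    rw [h3]
    exact mul_mem hu (inv_mem h2)
  rw [(Cfsg.Agent.S1036.result chevF4 f4mem).2, Subgroup.mem_bot] at h4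
  have h5 : (tw18 T0).σ ⟨h, hhG⟩ = ⟨h, hhG⟩ := by
    have h6 : (⟨h, hhG⟩ : ↥(chevF4.group K))⁻¹ * (tw18 T0).σ ⟨h, hhG⟩ = 1 := Subtype.ext h4
    exact (inv_mul_eq_one.mp h6).symm
  have h7 : (tw18 T0).σ ⟨u, huG⟩ = ⟨u, huG⟩ := by
    rw [h5] at hfix
    exact mul_left_cancel hfix
  exact ⟨h, ⟨hh, f4_fix_diag (tw18 T0) hK ⟨h, hhG⟩ hh h5⟩, u,
    ⟨hu, f4_fix_unip (tw18 T0) hK ⟨u, huG⟩ hu h7⟩, rfl⟩

/-- the order of `B¹` -/
theorem f4_borel_card (hK : Fintype.card K = 2 ^ (2 * m + 1)) :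
    Nat.card ↥(chevF4.borelSubgroup K ⊓ twistedF4 K (2 ^ m)) =
      (2 ^ (2 * m + 1) - 1) ^ 2 * (2 ^ (2 * m + 1)) ^ 12 := by
  obtain ⟨T0⟩ := exists_f4Tw (K := K) m
  rw [← f4_diag_card hK, ← T0.card_unip hK, ← Nat.card_prod]
  symm
  let Φ : ↥(chevF4.diagonalSubgroup K ⊓ twistedF4 K (2 ^ m)) ×
      ↥(chevF4.posUnipotent K ⊓ twistedF4 K (2 ^ m)) →
      ↥(chevF4.borelSubgroup K ⊓ twistedF4 K (2 ^ m)) := fun x =>
    ⟨(x.1 : GL chevF4.Idx K) * (x.2 : GL chevF4.Idx K),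
      ⟨mul_mem ((le_sup_right : chevF4.diagonalSubgroup K ≤ chevF4.borelSubgroup K) x.1.2.1)
        ((le_sup_left : chevF4.posUnipotent K ≤ chevF4.borelSubgroup K) x.2.2.1),
        mul_mem x.1.2.2 x.2.2.2⟩⟩
  apply Nat.card_eq_of_bijective Φ
  constructor
  · rintro ⟨h, u⟩ ⟨h', u'⟩ hx
    have h1 : (h : GL chevF4.Idx K) * (u : GL chevF4.Idx K) =
        (h' : GL chevF4.Idx K) * (u' : GL chevF4.Idx K) :=
      congrArg (fun x : ↥(chevF4.borelSubgroup K ⊓ twistedF4 K (2 ^ m)) =>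
        (x : GL chevF4.Idx K)) hx
    have h2 : (u : GL chevF4.Idx K) * (u' : GL chevF4.Idx K)⁻¹ =
        (h : GL chevF4.Idx K)⁻¹ * (h' : GL chevF4.Idx K) := by
      rw [mul_inv_eq_iff_eq_mul, mul_assoc, ← h1, inv_mul_cancel_left]
    have h3 : (u : GL chevF4.Idx K) * (u' : GL chevF4.Idx K)⁻¹ ∈
        chevF4.posUnipotent K ⊓ chevF4.diagonalSubgroup K := by
      refine Subgroup.mem_inf.mpr ⟨mul_mem u.2.1 (inv_mem u'.2.1), ?_⟩
      rw [h2]
      exact mul_mem (inv_mem h.2.1) h'.2.1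
    rw [(Cfsg.Agent.S1036.result chevF4 f4mem).2, Subgroup.mem_bot] at h3
    have h4 : (u : GL chevF4.Idx K) = u' := mul_inv_eq_one.mp h3
    have h5 : (h : GL chevF4.Idx K) = h' := by
      rw [h4] at h1
      exact mul_right_cancel h1
    exact Prod.ext (Subtype.ext h5) (Subtype.ext h4)
  · rintro ⟨b, hbB, hbT⟩
    obtain ⟨h, hh, u, hu, rfl⟩ := f4_borel_decomp hK b hbB hbT
    exact ⟨(⟨h, hh⟩, ⟨u, hu⟩), rfl⟩

/-- extension by zero of a family of parameters on a set of roots -/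
def f4ex (S : Finset ℕ) (p : ↥S → K) : ℕ → K := fun s => if h : s ∈ S then p ⟨s, h⟩ else 0

/-- the fixed point of the twist on `U` with given free parameters on `S` -/
def f4u (m : ℕ) (S : Finset ℕ) (p : ↥S → K) : GL chevF4.Idx K :=
  oprodL chevF4 f4mem f4L (f4Ext m (f4ex S p))

theorem f4u_mem (hK : Fintype.card K = 2 ^ (2 * m + 1)) (S : Finset ℕ) (p : ↥S → K) :
    f4u m S p ∈ chevF4.posUnipotent K ⊓ twistedF4 K (2 ^ m) :=
  ⟨by rw [← f4_genL]; exact oprodL_mem chevF4 f4mem f4L _, f4_cond_mem hK _ (f4Ext_cond m _)⟩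

theorem f4u_inj (S : Finset ℕ) (hS : S ⊆ f4Free) : Function.Injective (f4u (K := K) m S) := by
  intro p q hpq
  have h2 := ord_unique chevF4 f4mem f4L f4L_pos f4L_nodup f4L_chk f4L_all _ _ hpq
  funext ⟨s, hs⟩
  have h3 := h2 s (f4Free_sub s (hS hs))
  rw [f4Ext_free m _ s (hS hs), f4Ext_free m _ s (hS hs)] at h3
  simpa only [f4ex, dif_pos hs] using h3

omit [Fintype K] [CharP K 2] in
/-- the support of a fixed point -/
theorem f4u_filter (S : Finset ℕ) (P : ℕ → Prop) [DecidablePred P]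
    (hP : ∀ r ∈ f4L, ¬ P r → ∀ s ∈ f4dep r, s ∉ S) (p : ↥S → K) :
    f4u m S p = oprodL chevF4 f4mem (f4L.filter P) (f4Ext m (f4ex S p)) := by
  unfold f4u
  apply oprodL_filter
  intro r hr hnP
  apply f4Ext_zero m _ r hr
  intro s hs
  unfold f4ex
  rw [dif_neg (hP r hr hnP s hs)]

omit [Fintype K] [CharP K 2] in
theorem f4u_zero (S : Finset ℕ) : f4u m S (fun _ => (0 : K)) = 1 := by
  unfold f4u
  rw [oprodL_filter chevF4 f4mem f4L (fun _ => False)]
  · have e : f4L.filter (fun _ => decide False) = [] := by simp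
    rw [e]
    rfl
  · intro r hr _
    apply f4Ext_zero m _ r hr
    intro s _
    unfold f4ex
    split_ifs <;> rfl

/-- the cardinality of the double coset of `n_l` -/
theorem f4_cell_card (hK : Fintype.card K = 2 ^ (2 * m + 1)) (l : List ℕ)
    (hl : ∀ i ∈ l, i < chevF4.rank)
    (hn : nW (F := K) chevF4 f4mem l ∈ twistedF4 K (2 ^ m)) (N : Finset ℕ)
    (hneg : ∀ r ∈ f4L, r ∈ N → chevF4.IsNegRoot (Weyl.wp chevF4.reflectRoot l r))
    (hpos : ∀ r ∈ f4L, r ∉ N → chevF4.IsPosRoot (Weyl.wp chevF4.reflectRoot l r))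
    (hdep : ∀ r ∈ f4L, ∀ s ∈ f4dep r, (s ∈ N ↔ r ∈ N)) :
    (DoubleCoset.doubleCoset (nW (F := K) chevF4 f4mem l)
      ((chevF4.borelSubgroup K ⊓ twistedF4 K (2 ^ m) : Subgroup (GL chevF4.Idx K)) :
        Set (GL chevF4.Idx K))
      (chevF4.borelSubgroup K ⊓ twistedF4 K (2 ^ m) : Subgroup (GL chevF4.Idx K))).ncard =
      Nat.card ↥(chevF4.borelSubgroup K ⊓ twistedF4 K (2 ^ m)) *
        Fintype.card K ^ (f4Free ∩ N).card := by
  classical
  have hL : ∀ r ∈ f4L, r < chevF4.nroots := fun r hr => (f4L_pos r hr).1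
  have hcF : ∀ S : Finset ℕ, Nat.card (↥S → K) = Fintype.card K ^ S.card := by
    intro S
    rw [Nat.card_fun, Nat.card_eq_fintype_card (α := K), Nat.card_eq_fintype_card (α := ↥S),
      Fintype.card_coe]
  obtain ⟨T0⟩ := exists_f4Tw (K := K) m
  have hcU : Nat.card ↥(chevF4.posUnipotent K ⊓ twistedF4 K (2 ^ m)) = Fintype.card K ^ 12 := by
    rw [T0.card_unip hK, hK]
  have hV : ∀ p : ↥(f4Free ∩ N) → K, nW (F := K) chevF4 f4mem l * f4u m (f4Free ∩ N) p *
      (nW (F := K) chevF4 f4mem l)⁻¹ ∈ chevF4.negUnipotent K := by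
    intro p
    rw [f4u_filter (f4Free ∩ N) (fun r => r ∈ N)
      (fun r hr hrN s hs hsS => hrN ((hdep r hr s hs).mp (Finset.mem_inter.mp hsS).2)) p]
    apply nW_conj_oprod_mem chevF4 f4mem l hl _
      (fun r hr => hL r (List.mem_filter.mp hr).1)
    intro r hr u
    have hr' := List.mem_filter.mp hr
    exact Subgroup.subset_closure ⟨_, u, hneg r hr'.1 (by simpa using hr'.2), coe_xU _ _ _ _⟩
  have key := cell_card (chevF4.borelSubgroup K ⊓ twistedF4 K (2 ^ m))
    (chevF4.posUnipotent K ⊓ twistedF4 K (2 ^ m)) (chevF4.negUnipotent K)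
    (chevF4.diagonalSubgroup K ⊓ twistedF4 K (2 ^ m))
    (inf_le_inf_right _ le_sup_left)
    (by rw [inf_right_comm, (Cfsg.Agent.S1037.result chevF4 f4mem).1, bot_inf_eq])
    (fun b hb => f4_borel_decomp hK b hb.1 hb.2)
    (nW (F := K) chevF4 f4mem l)
    (fun h hh => Subgroup.mem_inf.mpr
      ⟨nW_conj_diag chevF4 f4mem l h hh.1, mul_mem (mul_mem hn hh.2) (inv_mem hn)⟩)
    (α' := ↥(f4Free \ N) → K) (α'' := ↥(f4Free ∩ N) → K) (f4u m (f4Free \ N))
    (f4u m (f4Free ∩ N))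
    (f4u_mem hK (f4Free \ N))
    (fun p => Subgroup.mem_inf.mpr ⟨by
      rw [f4u_filter (f4Free \ N) (fun r => r ∉ N)
        (fun r hr hrN s hs hsS => (Finset.mem_sdiff.mp hsS).2
          ((hdep r hr s hs).mpr (not_not.mp hrN))) p]
      apply nW_conj_oprod_mem chevF4 f4mem l hl _
        (fun r hr => hL r (List.mem_filter.mp hr).1)
      intro r hr u
      have hr' := List.mem_filter.mp hr
      exact Subgroup.subset_closure ⟨_, u, hpos r hr'.1 (by simpa using hr'.2), coe_xU _ _ _ _⟩,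
      mul_mem (mul_mem hn (f4u_mem hK (f4Free \ N) p).2) (inv_mem hn)⟩)
    (f4u_mem hK (f4Free ∩ N))
    (fun p p' => by
      have e : nW (F := K) chevF4 f4mem l * (f4u m (f4Free ∩ N) p * (f4u m (f4Free ∩ N) p')⁻¹) *
          (nW (F := K) chevF4 f4mem l)⁻¹ =
          (nW (F := K) chevF4 f4mem l * f4u m (f4Free ∩ N) p * (nW (F := K) chevF4 f4mem l)⁻¹) *
            (nW (F := K) chevF4 f4mem l * f4u m (f4Free ∩ N) p' *
              (nW (F := K) chevF4 f4mem l)⁻¹)⁻¹ := by group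
      rw [e]
      exact mul_mem (hV p) (inv_mem (hV p')))
    ⟨fun _ => 0, f4u_zero (f4Free ∩ N)⟩
    (f4u_inj (f4Free \ N) Finset.sdiff_subset)
    (f4u_inj (f4Free ∩ N) Finset.inter_subset_left)
    (by
      rw [hcU, hcF, hcF, ← pow_add, Finset.card_sdiff_add_card_inter]
      exact le_of_eq rfl)
  rw [key, hcF]

end cell

end Cfsg.Agent.Lib.Helper17
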