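import Cfsg.Agent.Lib.Helper17.F4Perf

set_option autoImplicit false

/-!
# The large Ree groups are generated by two elements

`²F₄(q)` is generated by `h x` and `n`, where `x` is an element of order `4` of the fundamental
root subgroup of the class of `p₂, p₃`, `h` generates the part of the torus that centralises this
root subgroup and `n` is a Coxeter element `n₁ n₂`.  The powers of `h x` give `h` and `x`; the
conjugates of `h` under `n` give the whole root subgroup; the commutator of two of its conjugates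
is a non-trivial element of a root subgroup of the other kind, and `h` gives all of it.
-/

namespace Cfsg.Agent.Lib.Helper17

open Cfsg Cfsg.Lie

open Cfsg.Agent.Lib.Helper18 (xU coe_xU wordU coe_wordU xU_mem_group)

section arith

variable {G : Type*} [CommGroup G]

theorem f4gen_zpow_mod (g : G) (N : ℤ) (hN : g ^ N = 1) (x y k : ℤ) (h : x = y + k * N) :
    g ^ x = g ^ y := by
  rw [h, zpow_add, zpow_mul', hN, one_zpow, mul_one]

/-- the value of a character on the torus element with parameter `c = g^(-(4e+3))`,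
`d = c^(2-2e)` -/
theorem f4gen_chi_eval (g : G) (e : ℕ) (C0 C1 C2 C3 : ℤ) :
    (((g⁻¹ ^ (4 * e + 3)) ^ 2 * ((g⁻¹ ^ (4 * e + 3)) ^ (2 * e))⁻¹) ^ e) ^ C0 *
        ((g⁻¹ ^ (4 * e + 3)) ^ e) ^ C1 * (g⁻¹ ^ (4 * e + 3)) ^ C2 *
        ((g⁻¹ ^ (4 * e + 3)) ^ 2 * ((g⁻¹ ^ (4 * e + 3)) ^ (2 * e))⁻¹) ^ C3 =
      g ^ (-(4 * (e : ℤ) + 3) * ((2 - 2 * (e : ℤ)) * e * C0 + e * C1 + C2 +
        (2 - 2 * (e : ℤ)) * C3)) := by
  have hc : g⁻¹ ^ (4 * e + 3) = g ^ (-(4 * (e : ℤ) + 3)) := by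
    rw [inv_pow, zpow_neg, ← zpow_natCast]
    push_cast
    rfl
  have hd : (g⁻¹ ^ (4 * e + 3)) ^ 2 * ((g⁻¹ ^ (4 * e + 3)) ^ (2 * e))⁻¹ =
      g ^ (-(4 * (e : ℤ) + 3) * (2 - 2 * (e : ℤ))) := by
    rw [hc, ← zpow_natCast, ← zpow_natCast, ← zpow_mul, ← zpow_mul, ← zpow_neg, ← zpow_add]
    congr 1
    push_cast
    ring
  rw [hd, hc]
  simp only [← zpow_natCast, ← zpow_mul, ← zpow_add]
  congr 1
  ring

end arith

section tables

/-- four times the word of `w₁ w₂` -/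
def f4w4 : List ℕ := f4w12 ++ f4w12 ++ f4w12 ++ f4w12

theorem f4w4_lt : ∀ i ∈ f4w4, i < chevF4.rank := by decide

set_option maxRecDepth 100000 in
theorem f4_gen_maps :
    [35, 31, 40, 46].map (Weyl.wp chevF4.reflectRoot f4w12) = [27, 25, 28, 30] ∧
    [27, 25, 28, 30].map (Weyl.wp chevF4.reflectRoot f4w12) = [13, 21, 11, 5] ∧
    [33, 24].map (Weyl.wp chevF4.reflectRoot f4w4) = [14, 23] ∧
    [27, 25, 28, 30].map (Weyl.wp chevF4.reflectRoot f4w4) = [20, 22, 19, 17] := by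
  decide +kernel

theorem f4_gen_cartan :
    (chevF4.cartan 0 21 = 0 ∧ chevF4.cartan 1 21 = 2 ∧ chevF4.cartan 2 21 = -1 ∧
      chevF4.cartan 3 21 = -1) ∧
    (chevF4.cartan 0 13 = -1 ∧ chevF4.cartan 1 13 = -1 ∧ chevF4.cartan 2 13 = 1 ∧
      chevF4.cartan 3 13 = 0) ∧
    (chevF4.cartan 0 11 = -1 ∧ chevF4.cartan 1 11 = 1 ∧ chevF4.cartan 2 11 = 0 ∧
      chevF4.cartan 3 11 = -1) := by decide +kernel

/-- the two sides of the commutator relation, as symbolic words -/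
def f4GenL : List (ℕ × ℤ × ℤ) :=
  [(35, 1, 0), (31, 1, 0), (40, 1, 0), (27, 1, 0), (25, 1, 0), (28, 1, 0)]

def f4GenR : List (ℕ × ℤ × ℤ) :=
  [(37, 1, 0), (32, 1, 0), (27, 1, 0), (25, 1, 0), (28, 1, 0), (35, 1, 0), (31, 1, 0), (40, 1, 0)]

set_option maxRecDepth 100000 in
theorem f4_gen_chk : eqModChk chevF4 2 f4GenL f4GenR = true := by decide +kernel

variable {K : Type*} [Field K] [CharP K 2]

/-- the commutator of two root elements of the second kind is a root element of the first kind -/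
theorem f4_gen_rel :
    wordU chevF4 f4mem [(35, (1 : K)), (31, 1), (40, 1), (27, 1), (25, 1), (28, 1)] =
      wordU chevF4 f4mem
        [(37, (1 : K)), (32, 1), (27, 1), (25, 1), (28, 1), (35, 1), (31, 1), (40, 1)] := by
  apply wordU_eq_of_mod chevF4 f4mem 2 f4GenL f4GenR f4_gen_chk
  · simp [Cfsg.Agent.Lib.Helper18.evalW, f4GenL]
  · simp [Cfsg.Agent.Lib.Helper18.evalW, f4GenR]

end tables

section torus

variable {K : Type*} [Field K] [Fintype K] [CharP K 2] {m : ℕ}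

/-- the parameters of the torus element -/
def f4gc (m : ℕ) (g : Kˣ) : Kˣ := g⁻¹ ^ (4 * 2 ^ m + 3)

def f4gd (m : ℕ) (g : Kˣ) : Kˣ := f4gc m g ^ 2 * (f4gc m g ^ (2 * 2 ^ m))⁻¹

/-- the torus element that centralises the root subgroup of the class of `p₂, p₃` -/
def f4gh (m : ℕ) (g : Kˣ) : GL chevF4.Idx K :=
  ((f4t (f4gd m g ^ 2 ^ m) (f4gc m g ^ 2 ^ m) (f4gc m g) (f4gd m g) : ↥(chevF4.group K)) :
    GL chevF4.Idx K)

omit [CharP K 2] in
theorem f4gen_pow_card (hK : Fintype.card K = 2 ^ (2 * m + 1)) (g : Kˣ) :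
    g ^ (2 * ((2 ^ m : ℕ) : ℤ) * ((2 ^ m : ℕ) : ℤ) - 1) = 1 := by
  have h := f4_unit_pow_card hK g
  have e : (2 * ((2 ^ m : ℕ) : ℤ) * ((2 ^ m : ℕ) : ℤ) - 1) =
      ((2 ^ m * (2 * 2 ^ m) : ℕ) : ℤ) - 1 := by
    push_cast
    ring
  rw [e, zpow_sub, zpow_natCast, h, zpow_one, mul_inv_cancel]

omit [CharP K 2] in
theorem f4gen_chi (hK : Fintype.card K = 2 ^ (2 * m + 1)) (g : Kˣ) (s : ℕ) (y k : ℤ)
    (h : -(4 * ((2 ^ m : ℕ) : ℤ) + 3) * ((2 - 2 * ((2 ^ m : ℕ) : ℤ)) * ((2 ^ m : ℕ) : ℤ) *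
        chevF4.cartan 0 s + ((2 ^ m : ℕ) : ℤ) * chevF4.cartan 1 s + chevF4.cartan 2 s +
        (2 - 2 * ((2 ^ m : ℕ) : ℤ)) * chevF4.cartan 3 s) =
      y + k * (2 * ((2 ^ m : ℕ) : ℤ) * ((2 ^ m : ℕ) : ℤ) - 1)) :
    f4chi (f4gd m g ^ 2 ^ m) (f4gc m g ^ 2 ^ m) (f4gc m g) (f4gd m g) s = g ^ y := by
  unfold f4chi f4gd f4gc
  rw [f4gen_chi_eval g (2 ^ m)]
  exact f4gen_zpow_mod g _ (f4gen_pow_card hK g) _ _ k h

theorem f4gh_mem (hK : Fintype.card K = 2 ^ (2 * m + 1)) (g : Kˣ) :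
    f4gh m g ∈ twistedF4 K (2 ^ m) :=
  f4_fixt_mem hK (f4gc m g) (f4gd m g)

omit [Fintype K] [CharP K 2] in
theorem f4t_pow (a b c d : Kˣ) (n : ℕ) :
    (f4t a b c d) ^ n = f4t (a ^ n) (b ^ n) (c ^ n) (d ^ n) := by
  induction n with
  | zero =>
    simp only [pow_zero]
    exact f4t_one.symm
  | succ n ih => rw [pow_succ, ih, f4t_mul, ← pow_succ, ← pow_succ, ← pow_succ, ← pow_succ]

omit [CharP K 2] in
theorem f4gh_pow (hK : Fintype.card K = 2 ^ (2 * m + 1)) (g : Kˣ) :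
    f4gh m g ^ (2 ^ m * (2 * 2 ^ m)) = f4gh m g := by
  unfold f4gh
  rw [← Subgroup.coe_pow, f4t_pow, f4_unit_pow_card hK, f4_unit_pow_card hK,
    f4_unit_pow_card hK, f4_unit_pow_card hK]

omit [CharP K 2] in
/-- the torus element centralises `x` -/
theorem f4gh_conj_B (hK : Fintype.card K = 2 ^ (2 * m + 1)) (g : Kˣ) :
    f4gh m g * f4B (2 ^ m) 1 0 * (f4gh m g)⁻¹ = f4B (2 ^ m) (1 : K) 0 := by
  obtain ⟨_, _, ⟨a0, a1, a2, a3⟩, ⟨b0, b1, b2, b3⟩, ⟨c0, c1, c2, c3⟩, _⟩ := f4_cartan_vals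
  have h27 := f4gen_chi hK g 27 0 (-3 - 4 * ((2 ^ m : ℕ) : ℤ)) (by
    rw [a0, a1, a2, a3]
    ring)
  have h25 := f4gen_chi hK g 25 0 0 (by
    rw [b0, b1, b2, b3]
    ring)
  have h28 := f4gen_chi hK g 28 0 (-3 - 4 * ((2 ^ m : ℕ) : ℤ)) (by
    rw [c0, c1, c2, c3]
    ring)
  unfold f4gh f4B
  rw [f4Q_conj, h27, h25, h28, zpow_zero, Units.val_one, one_mul, one_mul, one_mul,
    zero_pow (by positivity), mul_zero]

omit [CharP K 2] in
/-- the action of the torus element on the root subgroup of the class of `p₁, p₄` -/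
theorem f4gh_conj_A (hK : Fintype.card K = 2 ^ (2 * m + 1)) (g : Kˣ) (t : K) :
    f4gh m g * f4A (2 ^ m) t * (f4gh m g)⁻¹ = f4A (2 ^ m) (((g⁻¹ : Kˣ) : K) * t) := by
  obtain ⟨⟨a0, a1, a2, a3⟩, ⟨b0, b1, b2, b3⟩, _⟩ := f4_cartan_vals
  have h24 := f4gen_chi hK g 24 (-1) 8 (by
    rw [a0, a1, a2, a3]
    ring)
  have h33 := f4gen_chi hK g 33 (-((2 ^ m : ℕ) : ℤ)) (8 * ((2 ^ m : ℕ) : ℤ)) (by
    rw [b0, b1, b2, b3]
    ring)
  have e1 : ((g ^ (-((2 ^ m : ℕ) : ℤ)) : Kˣ) : K) * t ^ 2 ^ m =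
      (((g⁻¹ : Kˣ) : K) * t) ^ 2 ^ m := by
    rw [zpow_neg, zpow_natCast, ← inv_pow, Units.val_pow_eq_pow_val, mul_pow]
  have e2 : ((g ^ (-1 : ℤ) : Kˣ) : K) * t = ((g⁻¹ : Kˣ) : K) * t := by rw [zpow_neg_one]
  unfold f4gh f4A
  rw [f4_conj2, f4t_conj_xU _ _ _ _ 33 (by decide), f4t_conj_xU _ _ _ _ 24 (by decide), h24, h33,
    e1, e2]

omit [Fintype K] [CharP K 2] in
theorem f4gen_conj_abs {G : Type*} [Group G] (n h x x' y y' : G) (h1 : n * x * n⁻¹ = x')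
    (h3 : h * x' * h⁻¹ = y') (h2 : n * y * n⁻¹ = y') :
    (n⁻¹ * h * n) * x * (n⁻¹ * h * n)⁻¹ = y := by
  have e : (n⁻¹ * h * n) * x * (n⁻¹ * h * n)⁻¹ = n⁻¹ * (h * (n * x * n⁻¹) * h⁻¹) * n := by group
  rw [e, h1, h3, ← h2]
  group

omit [Fintype K] in
/-- conjugation of a root element by `n⁻¹ h n` -/
theorem f4gen_conj_x (g : Kˣ) (r r' : ℕ) (hr : r < 48) (hr' : r' < 48)
    (hmap : Weyl.wp chevF4.reflectRoot f4w12 r = r') (s : K) :
    ((nW (F := K) chevF4 f4mem f4w12)⁻¹ * f4gh m g * nW (F := K) chevF4 f4mem f4w12) *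
        xU chevF4 f4mem r s *
        ((nW (F := K) chevF4 f4mem f4w12)⁻¹ * f4gh m g * nW (F := K) chevF4 f4mem f4w12)⁻¹ =
      xU chevF4 f4mem r
        ((f4chi (f4gd m g ^ 2 ^ m) (f4gc m g ^ 2 ^ m) (f4gc m g) (f4gd m g) r' : K) * s) := by
  have h1 := nW_conj_xU (K := K) chevF4 f4mem f4w12 f4_words_lt.2.1 r hr s
  have h2 := nW_conj_xU (K := K) chevF4 f4mem f4w12 f4_words_lt.2.1 r hr
    ((f4chi (f4gd m g ^ 2 ^ m) (f4gc m g ^ 2 ^ m) (f4gc m g) (f4gd m g) r' : K) * s)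
  rw [hmap] at h1 h2
  have h3 := f4t_conj_xU (f4gd m g ^ 2 ^ m) (f4gc m g ^ 2 ^ m) (f4gc m g) (f4gd m g) r' hr' s
  exact f4gen_conj_abs _ _ _ _ _ _ h1 h3 h2

/-- the action of `n⁻¹ h n` on the root subgroup of the class of `p₂, p₃` -/
theorem f4gen_conj_B (hK : Fintype.card K = 2 ^ (2 * m + 1)) (g : Kˣ) (t : K) :
    ((nW (F := K) chevF4 f4mem f4w12)⁻¹ * f4gh m g * nW (F := K) chevF4 f4mem f4w12) *
        f4B (2 ^ m) t 0 *
        ((nW (F := K) chevF4 f4mem f4w12)⁻¹ * f4gh m g * nW (F := K) chevF4 f4mem f4w12)⁻¹ =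
      f4B (2 ^ m) ((g : K) * t) 0 := by
  obtain ⟨⟨a0, a1, a2, a3⟩, ⟨b0, b1, b2, b3⟩, ⟨c0, c1, c2, c3⟩⟩ := f4_gen_cartan
  have hmap := f4_gen_maps.2.1
  simp only [List.map_cons, List.map_nil, List.cons.injEq, and_true] at hmap
  obtain ⟨m27, m25, m28, m30⟩ := hmap
  have h21 := f4gen_chi hK g 21 1 (-8) (by
    rw [a0, a1, a2, a3]
    ring)
  have h13 := f4gen_chi hK g 13 ((2 ^ m : ℕ) : ℤ) (3 - 4 * ((2 ^ m : ℕ) : ℤ)) (by
    rw [b0, b1, b2, b3]
    ring)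
  have h11 := f4gen_chi hK g 11 (1 + ((2 ^ m : ℕ) : ℤ)) (-5 - 4 * ((2 ^ m : ℕ) : ℤ)) (by
    rw [c0, c1, c2, c3]
    ring)
  have e1 : ((g ^ (((2 ^ m : ℕ) : ℤ)) : Kˣ) : K) * t ^ 2 ^ m = ((g : K) * t) ^ 2 ^ m := by
    rw [zpow_natCast, Units.val_pow_eq_pow_val, mul_pow]
  have e2 : ((g ^ (1 : ℤ) : Kˣ) : K) * t = (g : K) * t := by rw [zpow_one]
  have e3 : ((g ^ (1 + ((2 ^ m : ℕ) : ℤ)) : Kˣ) : K) * (t ^ (2 ^ m + 1) + 0) =
      ((g : K) * t) ^ (2 ^ m + 1) + 0 := by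
    have e : (1 + ((2 ^ m : ℕ) : ℤ)) = ((2 ^ m + 1 : ℕ) : ℤ) := by
      push_cast
      ring
    rw [e, zpow_natCast, Units.val_pow_eq_pow_val, add_zero, add_zero, mul_pow]
  unfold f4B f4Q
  rw [f4_conj4, f4gen_conj_x g 27 13 (by decide) (by decide) m27,
    f4gen_conj_x g 25 21 (by decide) (by decide) m25,
    f4gen_conj_x g 28 11 (by decide) (by decide) m28,
    f4gen_conj_x g 30 5 (by decide) (by decide) m30, h21, h13, h11, e1, e2, e3,
    zero_pow (by positivity), mul_zero]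

end torus

section gen

variable {K : Type*} [Field K] [Fintype K] [CharP K 2] {m : ℕ}

/-- `²F₄(q)` is generated by two elements -/
theorem f4_two_gen (hK : Fintype.card K = 2 ^ (2 * m + 1)) :
    ∃ a b : ↥(twistedF4 K (2 ^ m)),
      Subgroup.closure ({a, b} : Set ↥(twistedF4 K (2 ^ m))) = ⊤ := by
  classical
  have h2 : (2 : K) = 0 := CharTwo.two_eq_zero
  obtain ⟨g, hg⟩ := IsCyclic.exists_generator (α := Kˣ)
  obtain ⟨T, hT⟩ : ∃ T : GL chevF4.Idx K, T = f4gh m g := ⟨_, rfl⟩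
  obtain ⟨n, hn⟩ : ∃ n : GL chevF4.Idx K, n = nW (F := K) chevF4 f4mem f4w12 := ⟨_, rfl⟩
  obtain ⟨x, hx⟩ : ∃ x : GL chevF4.Idx K, x = f4B (2 ^ m) (1 : K) 0 := ⟨_, rfl⟩
  have hTG : T ∈ twistedF4 K (2 ^ m) := by
    rw [hT]
    exact f4gh_mem hK g
  have hnG : n ∈ twistedF4 K (2 ^ m) := by
    rw [hn]
    exact f4_nw12_mem
  have hBG : ∀ t u : K, f4B (2 ^ m) t u ∈ twistedF4 K (2 ^ m) := fun t u => by
    rw [← f4B_eq]
    exact f4_b2_mem (2 ^ m) t u
  have hxG : x ∈ twistedF4 K (2 ^ m) := by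
    rw [hx]
    exact hBG 1 0
  refine ⟨⟨T * x, mul_mem hTG hxG⟩, ⟨n, hnG⟩, ?_⟩
  obtain ⟨L, hL⟩ : ∃ L : Subgroup (GL chevF4.Idx K), L = (Subgroup.closure
      ({⟨T * x, mul_mem hTG hxG⟩, ⟨n, hnG⟩} : Set ↥(twistedF4 K (2 ^ m)))).map
        (twistedF4 K (2 ^ m)).subtype := ⟨_, rfl⟩
  have haL : T * x ∈ L := by
    rw [hL]
    exact ⟨⟨T * x, mul_mem hTG hxG⟩, Subgroup.subset_closure (by simp), rfl⟩
  have hnL : n ∈ L := by
    rw [hL]
    exact ⟨⟨n, hnG⟩, Subgroup.subset_closure (by simp), rfl⟩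
  suffices hle : twistedF4 K (2 ^ m) ≤ L by
    rw [eq_top_iff]
    intro y _
    have hy := hle y.2
    rw [hL] at hy
    obtain ⟨y', hy', hyy⟩ := hy
    have e : y' = y := Subtype.ext hyy
    rwa [e] at hy'
  clear hL
  -- the two factors of the first generator
  have hcomm : Commute T x := by
    have hc := f4gh_conj_B hK g
    rw [← hT, ← hx] at hc
    show T * x = x * T
    calc T * x = (T * x * T⁻¹) * T := by group
      _ = x * T := by rw [hc]
  have hx2 : x * x = f4B (2 ^ m) (0 : K) 1 := by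
    rw [hx, f4B_mul hK, CharTwo.add_self_eq_zero, one_pow, mul_one, add_zero, zero_add]
  have hx4 : x ^ 4 = 1 := by
    have e : x ^ 4 = (x * x) * (x * x) := by
      rw [show (4 : ℕ) = 2 + 2 from rfl, pow_add, pow_two]
    rw [e, hx2, f4B_mul hK, mul_zero, add_zero, add_zero, CharTwo.add_self_eq_zero, f4B_zero]
  have hpow4 : (T * x) ^ 4 = T ^ 4 := by rw [hcomm.mul_pow, hx4, mul_one]
  have hTq : T ^ (2 ^ m * (2 * 2 ^ m)) = T := by
    rw [hT]
    exact f4gh_pow hK g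
  have hTL : T ∈ L := by
    have e : T = ((T * x) ^ 4) ^ ((2 ^ m * 2 ^ m) ^ 2) := by
      have e4 : 4 * (2 ^ m * 2 ^ m) ^ 2 = (2 ^ m * (2 * 2 ^ m)) * (2 ^ m * (2 * 2 ^ m)) := by ring
      rw [hpow4, ← pow_mul, e4, pow_mul, hTq, hTq]
    rw [e]
    exact pow_mem (pow_mem haL 4) _
  have hxL : x ∈ L := by
    have e : x = T⁻¹ * (T * x) := by group
    rw [e]
    exact mul_mem (inv_mem hTL) haL
  -- the root subgroup of the class of `p₂, p₃`
  have hg1L : n⁻¹ * T * n ∈ L := mul_mem (mul_mem (inv_mem hnL) hTL) hnL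
  have hBpow : ∀ i : ℕ, f4B (2 ^ m) ((g : K) ^ i) 0 ∈ L := by
    intro i
    induction i with
    | zero =>
      rw [pow_zero, ← hx]
      exact hxL
    | succ i ih =>
      have hc := f4gen_conj_B hK g ((g : K) ^ i)
      rw [← hn, ← hT] at hc
      rw [pow_succ', ← hc]
      exact mul_mem (mul_mem hg1L ih) (inv_mem hg1L)
  have hgen : ∀ t : K, t ≠ 0 → ∃ i : ℕ, (g : K) ^ i = t := by
    intro t ht
    have h1 : Units.mk0 t ht ∈ Subgroup.zpowers g := hg _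
    rw [← mem_powers_iff_mem_zpowers] at h1
    obtain ⟨i, hi⟩ := h1
    refine ⟨i, ?_⟩
    have h3 := congrArg Units.val hi
    simpa using h3
  have hB0 : ∀ t : K, f4B (2 ^ m) t 0 ∈ L := by
    intro t
    by_cases ht : t = 0
    · rw [ht, f4B_zero]
      exact one_mem _
    · obtain ⟨i, rfl⟩ := hgen t ht
      exact hBpow i
  have hBz : ∀ u : K, f4B (2 ^ m) 0 u ∈ L := by
    intro u
    have e : f4B (2 ^ m) (0 : K) u =
        (f4B (2 ^ m) (1 + u) 0)⁻¹ * (f4B (2 ^ m) 1 0 * f4B (2 ^ m) u 0) := by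
      rw [eq_inv_mul_iff_mul_eq, f4B_mul hK, f4B_mul hK, add_zero, mul_zero, add_zero, zero_add,
        add_zero, zero_add, one_pow, one_mul]
    rw [e]
    exact mul_mem (inv_mem (hB0 _)) (mul_mem (hB0 _) (hB0 _))
  have hBL : ∀ t u : K, f4B (2 ^ m) t u ∈ L := by
    intro t u
    have e : f4B (2 ^ m) t u = f4B (2 ^ m) t 0 * f4B (2 ^ m) 0 u := by
      rw [f4B_mul hK, add_zero, mul_zero, add_zero, zero_add]
    rw [e]
    exact mul_mem (hB0 t) (hBz u)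
  -- a conjugate of `x`
  have hx' : wordU chevF4 f4mem [(27, (1 : K)), (25, 1), (28, 1)] = x := by
    rw [hx]
    unfold f4B f4Q
    rw [one_pow, one_pow, add_zero, zero_pow (by positivity), xU_zero, mul_one]
    simp [wordU, mul_assoc]
  have hb6 : wordU chevF4 f4mem [(35, (1 : K)), (31, 1), (40, 1)] ∈ L := by
    have hmap := f4_gen_maps.1
    have hc := nW_conj_oprod (K := K) chevF4 f4mem f4w12 f4_words_lt.2.1 [35, 31, 40, 46]
      (by decide) (fun r => if r = 30 then 0 else 1)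
    rw [hmap] at hc
    simp only [List.map_cons, List.map_nil, List.cons.injEq, and_true] at hmap
    obtain ⟨m35, m31, m40, m46⟩ := hmap
    have e1 : oprodL chevF4 f4mem [27, 25, 28, 30] (fun r => if r = 30 then (0 : K) else 1) =
        x := by
      rw [← hx', oprod_four]
      simp [wordU, xU_zero]
    have e2 : oprodL chevF4 f4mem [35, 31, 40, 46]
        (fun r => if Weyl.wp chevF4.reflectRoot f4w12 r = 30 then (0 : K) else 1) =
        wordU chevF4 f4mem [(35, (1 : K)), (31, 1), (40, 1)] := by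
      rw [oprod_four, m35, m31, m40, m46]
      simp [wordU, xU_zero]
    rw [e1, e2, ← hn] at hc
    have e : wordU chevF4 f4mem [(35, (1 : K)), (31, 1), (40, 1)] = n⁻¹ * x * n := by
      rw [← hc]
      group
    rw [e]
    exact mul_mem (mul_mem (inv_mem hnL) hxL) hnL
  -- a root element of the other kind
  have ha7 : wordU chevF4 f4mem [(37, (1 : K)), (32, 1)] ∈ L := by
    have hrel := f4_gen_rel (K := K)
    have eL : [(35, (1 : K)), (31, 1), (40, 1), (27, 1), (25, 1), (28, 1)] =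
        [(35, (1 : K)), (31, 1), (40, 1)] ++ [(27, 1), (25, 1), (28, 1)] := rfl
    have eR : [(37, (1 : K)), (32, 1), (27, 1), (25, 1), (28, 1), (35, 1), (31, 1), (40, 1)] =
        [(37, (1 : K)), (32, 1)] ++ ([(27, 1), (25, 1), (28, 1)] ++
          [(35, (1 : K)), (31, 1), (40, 1)]) := rfl
    rw [eL, eR, wordU_append, wordU_append, wordU_append, hx'] at hrel
    have e : wordU chevF4 f4mem [(37, (1 : K)), (32, 1)] =
        wordU chevF4 f4mem [(35, (1 : K)), (31, 1), (40, 1)] * x *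
          (wordU chevF4 f4mem [(35, (1 : K)), (31, 1), (40, 1)])⁻¹ * x⁻¹ := by
      rw [hrel]
      group
    rw [e]
    exact mul_mem (mul_mem (mul_mem hb6 hxL) (inv_mem hb6)) (inv_mem hxL)
  -- the root subgroup of the class of `p₁, p₄`
  have hA1 : f4A (2 ^ m) (1 : K) ∈ L := by
    have hmap := f4_maps.2.2.2.2.2
    have hc := nW_conj_oprod (K := K) chevF4 f4mem (f4w12 ++ f4w12 ++ f4w12)
      f4_words_lt.2.2.2.2.2 [33, 24] (by decide) (fun _ => 1)
    rw [hmap, oprod_two, oprod_two, nW_app, nW_app, ← hn] at hc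
    have e1 : wordU chevF4 f4mem [(33, (1 : K)), (24, 1)] = f4A (2 ^ m) 1 := by
      rw [← f4A_eq, one_pow]
    rw [e1] at hc
    have e : f4A (2 ^ m) (1 : K) =
        (n * n * n)⁻¹ * wordU chevF4 f4mem [(37, (1 : K)), (32, 1)] * (n * n * n) := by
      rw [← hc]
      group
    rw [e]
    exact mul_mem (mul_mem (inv_mem (mul_mem (mul_mem hnL hnL) hnL)) ha7)
      (mul_mem (mul_mem hnL hnL) hnL)
  have hApow : ∀ i : ℕ, f4A (2 ^ m) (((g⁻¹ : Kˣ) : K) ^ i) ∈ L := by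
    intro i
    induction i with
    | zero =>
      rw [pow_zero]
      exact hA1
    | succ i ih =>
      have hc := f4gh_conj_A hK g (((g⁻¹ : Kˣ) : K) ^ i)
      rw [← hT] at hc
      rw [pow_succ', ← hc]
      exact mul_mem (mul_mem hTL ih) (inv_mem hTL)
  have hAL : ∀ t : K, f4A (2 ^ m) t ∈ L := by
    intro t
    by_cases ht : t = 0
    · rw [ht, f4A_zero]
      exact one_mem _
    · obtain ⟨i, hi⟩ := hgen t⁻¹ (inv_ne_zero ht)
      have e : ((g⁻¹ : Kˣ) : K) ^ i = t := by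
        rw [Units.val_inv_eq_inv_val, inv_pow, hi, inv_inv]
      rw [← e]
      exact hApow i
  -- the negative root subgroups
  have hn4L : nW (F := K) chevF4 f4mem f4w4 ∈ L := by
    have e : nW (F := K) chevF4 f4mem f4w4 = n * n * n * n := by
      rw [hn]
      unfold f4w4
      rw [nW_app, nW_app, nW_app]
    rw [e]
    exact mul_mem (mul_mem (mul_mem hnL hnL) hnL) hnL
  have hA' : ∀ t : K, wordU chevF4 f4mem [(14, t ^ 2 ^ m), (23, t)] ∈ L := by
    intro t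
    have hmap := f4_gen_maps.2.2.1
    have hc := nW_conj_oprod (K := K) chevF4 f4mem f4w4 f4w4_lt [33, 24] (by decide)
      (fun r => if r = 14 then t ^ 2 ^ m else t)
    rw [hmap] at hc
    simp only [List.map_cons, List.map_nil, List.cons.injEq, and_true] at hmap
    obtain ⟨m33, m24⟩ := hmap
    have e1 : oprodL chevF4 f4mem [14, 23] (fun r => if r = 14 then t ^ 2 ^ m else t) =
        wordU chevF4 f4mem [(14, t ^ 2 ^ m), (23, t)] := by
      rw [oprod_two]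
      simp
    have e2 : oprodL chevF4 f4mem [33, 24]
        (fun r => if Weyl.wp chevF4.reflectRoot f4w4 r = 14 then t ^ 2 ^ m else t) =
        f4A (2 ^ m) t := by
      rw [oprod_two, m33, m24, ← f4A_eq]
      simp
    rw [← e1, ← hc, e2]
    exact mul_mem (mul_mem hn4L (hAL t)) (inv_mem hn4L)
  have hB' : ∀ t u : K, wordU chevF4 f4mem
      [(20, t ^ 2 ^ m), (22, t), (19, t ^ (2 ^ m + 1) + u), (17, u ^ (2 * 2 ^ m))] ∈ L := by
    intro t u
    have hmap := f4_gen_maps.2.2.2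
    have hc := nW_conj_oprod (K := K) chevF4 f4mem f4w4 f4w4_lt [27, 25, 28, 30]
      (by decide) (fun r => if r = 20 then t ^ 2 ^ m else if r = 22 then t else
        if r = 19 then t ^ (2 ^ m + 1) + u else u ^ (2 * 2 ^ m))
    rw [hmap] at hc
    simp only [List.map_cons, List.map_nil, List.cons.injEq, and_true] at hmap
    obtain ⟨m27, m25, m28, m30⟩ := hmap
    have e1 : oprodL chevF4 f4mem [20, 22, 19, 17] (fun r => if r = 20 then t ^ 2 ^ m else
        if r = 22 then t else if r = 19 then t ^ (2 ^ m + 1) + u else u ^ (2 * 2 ^ m)) =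
        wordU chevF4 f4mem
          [(20, t ^ 2 ^ m), (22, t), (19, t ^ (2 ^ m + 1) + u), (17, u ^ (2 * 2 ^ m))] := by
      rw [oprod_four]
      simp
    have e2 : oprodL chevF4 f4mem [27, 25, 28, 30]
        (fun r => if Weyl.wp chevF4.reflectRoot f4w4 r = 20 then t ^ 2 ^ m else
          if Weyl.wp chevF4.reflectRoot f4w4 r = 22 then t else
          if Weyl.wp chevF4.reflectRoot f4w4 r = 19 then t ^ (2 ^ m + 1) + u
          else u ^ (2 * 2 ^ m)) = f4B (2 ^ m) t u := by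
      rw [oprod_four, m27, m25, m28, m30, ← f4B_eq]
      simp
    rw [← e1, ← hc, e2]
    exact mul_mem (mul_mem hn4L (hBL t u)) (inv_mem hn4L)
  -- all generators
  have hdef : twistedF4 K (2 ^ m) = Subgroup.closure {y : GL chevF4.Idx K |
      ∃ w ∈ f4Words K (2 ^ m), (y : Matrix chevF4.Idx chevF4.Idx K) = chevF4.wordMat K w} := rfl
  rw [hdef, Subgroup.closure_le]
  rintro y ⟨w, hw, hy⟩
  have hyw : y = wordU chevF4 f4mem w := Units.ext (by rw [hy, coe_wordU])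
  rw [hyw]
  rcases hw with ⟨t, rfl | rfl⟩ | ⟨t, u, rfl | rfl⟩
  · show wordU chevF4 f4mem [(33, t ^ 2 ^ m), (24, t)] ∈ _
    rw [f4A_eq]
    exact hAL t
  · exact hA' t
  · show wordU chevF4 f4mem
      [(27, t ^ 2 ^ m), (25, t), (28, t ^ (2 ^ m + 1) + u), (30, u ^ (2 * 2 ^ m))] ∈ _
    rw [f4B_eq]
    exact hBL t u
  · exact hB' t u

end gen

end Cfsg.Agent.Lib.Helper17
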