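import Cfsg.Agent.Lib.Helper17.F4Cell
import Cfsg.Agent.Lib.Helper17.TwBN

set_option autoImplicit false

/-!
# The large Ree groups: the order, given the Bruhat decomposition

If the double cosets `B¹ n_l B¹` of the 16 words `l` cover `²F₄`, then
`|²F₄(q)| = q¹² (q - 1)(q³ + 1)(q⁴ - 1)(q⁶ + 1)`.
-/

namespace Cfsg.Agent.Lib.Helper17

open Cfsg Cfsg.Lie

/-- the positive roots made negative by a word -/
def f4Neg (l : List ℕ) : Finset ℕ :=
  (f4L.filter (fun r => Weyl.wp chevF4.reflectRoot l r < 24)).toFinset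

/-- the check that a word permutes the classes of roots -/
def f4CellOk (l : List ℕ) : Bool :=
  l.all (fun i => decide (i < 4)) &&
  f4L.all (fun r => decide (Weyl.wp chevF4.reflectRoot l r < 48)) &&
  f4L.all (fun r => (f4dep r).all (fun s => decide (s ∈ f4Neg l ↔ r ∈ f4Neg l)))

section

variable {K : Type*} [Field K] [Fintype K] [CharP K 2] {m : ℕ}

/-- the cardinality of the double coset of `n_l`, for a checked word -/
theorem f4_cell_card' (hK : Fintype.card K = 2 ^ (2 * m + 1)) (l : List ℕ)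
    (hok : f4CellOk l = true) (hn : nW (F := K) chevF4 f4mem l ∈ twistedF4 K (2 ^ m)) :
    (DoubleCoset.doubleCoset (nW (F := K) chevF4 f4mem l)
      ((chevF4.borelSubgroup K ⊓ twistedF4 K (2 ^ m) : Subgroup (GL chevF4.Idx K)) :
        Set (GL chevF4.Idx K))
      (chevF4.borelSubgroup K ⊓ twistedF4 K (2 ^ m) : Subgroup (GL chevF4.Idx K))).ncard =
      Nat.card ↥(chevF4.borelSubgroup K ⊓ twistedF4 K (2 ^ m)) *
        Fintype.card K ^ (f4Free ∩ f4Neg l).card := by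
  unfold f4CellOk at hok
  simp only [Bool.and_eq_true, List.all_eq_true, decide_eq_true_eq] at hok
  obtain ⟨⟨h1, h2⟩, h3⟩ := hok
  have hmem : ∀ r ∈ f4L, (r ∈ f4Neg l ↔ Weyl.wp chevF4.reflectRoot l r < 24) := by
    intro r hr
    unfold f4Neg
    rw [List.mem_toFinset, List.mem_filter]
    simp [hr]
  refine f4_cell_card hK l h1 hn (f4Neg l) ?_ ?_ h3
  · intro r hr hrN
    exact (isNegRoot_iff chevF4 f4mem _).mpr ((hmem r hr).mp hrN)
  · intro r hr hrN
    rw [isPosRoot_iff chevF4 f4mem]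
    have h4 : ¬ Weyl.wp chevF4.reflectRoot l r < 24 := fun h => hrN ((hmem r hr).mpr h)
    exact ⟨not_lt.mp h4, h2 r hr⟩

/-- the order of `²F₄` from a covering by double cosets -/
theorem f4_card_of_cover (hK : Fintype.card K = 2 ^ (2 * m + 1)) (W : List (List ℕ))
    (hW1 : ∀ l ∈ W, f4CellOk l = true)
    (hWn : ∀ l ∈ W, nW (F := K) chevF4 f4mem l ∈ twistedF4 K (2 ^ m))
    (hWdist : W.Pairwise (fun l l' => ∃ s < 48,
      Weyl.wp chevF4.reflectRoot l s ≠ Weyl.wp chevF4.reflectRoot l' s))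
    (hcov : ∀ g ∈ twistedF4 K (2 ^ m), ∃ l ∈ W, g ∈
      DoubleCoset.doubleCoset (nW (F := K) chevF4 f4mem l)
        ((chevF4.borelSubgroup K ⊓ twistedF4 K (2 ^ m) : Subgroup (GL chevF4.Idx K)) :
          Set (GL chevF4.Idx K))
        (chevF4.borelSubgroup K ⊓ twistedF4 K (2 ^ m) : Subgroup (GL chevF4.Idx K))) :
    Nat.card ↥(twistedF4 K (2 ^ m)) =
      Nat.card ↥(chevF4.borelSubgroup K ⊓ twistedF4 K (2 ^ m)) *
        (W.map fun l => Fintype.card K ^ (f4Free ∩ f4Neg l).card).sum := by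
  let C : List ℕ → Set (GL chevF4.Idx K) := fun l =>
    DoubleCoset.doubleCoset (nW (F := K) chevF4 f4mem l)
      ((chevF4.borelSubgroup K ⊓ twistedF4 K (2 ^ m) : Subgroup (GL chevF4.Idx K)) :
        Set (GL chevF4.Idx K))
      (chevF4.borelSubgroup K ⊓ twistedF4 K (2 ^ m) : Subgroup (GL chevF4.Idx K))
  have hlt : ∀ l ∈ W, ∀ i ∈ l, i < chevF4.rank := by
    intro l hl
    have hok := hW1 l hl
    unfold f4CellOk at hok
    simp only [Bool.and_eq_true, List.all_eq_true, decide_eq_true_eq] at hok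
    exact hok.1.1
  have hset : ((twistedF4 K (2 ^ m) : Subgroup (GL chevF4.Idx K)) : Set (GL chevF4.Idx K)) =
      {g | ∃ l ∈ W, g ∈ C l} := by
    ext g
    constructor
    · exact fun hg => hcov g hg
    · rintro ⟨l, hl, hg⟩
      rw [DoubleCoset.mem_doubleCoset] at hg
      obtain ⟨x, hx, y, hy, rfl⟩ := hg
      exact mul_mem (mul_mem hx.2 (hWn l hl)) hy.2
  have hsub : ∀ l, C l ⊆ DoubleCoset.doubleCoset (nW (F := K) chevF4 f4mem l)
      (chevF4.borelSubgroup K : Set (GL chevF4.Idx K)) (chevF4.borelSubgroup K) := by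
    intro l g hg
    rw [DoubleCoset.mem_doubleCoset] at hg ⊢
    obtain ⟨x, hx, y, hy, rfl⟩ := hg
    exact ⟨x, hx.1, y, hy.1, rfl⟩
  have hdis : W.Pairwise (fun a b => Disjoint (C a) (C b)) := by
    refine hWdist.imp_of_mem ?_
    rintro a b ha hb ⟨s, hs, hne⟩
    rw [Set.disjoint_left]
    intro g hga hgb
    exact hne (cell_unique chevF4 f4mem a b (hlt a ha) (hlt b hb) g (hsub a hga) (hsub b hgb)
      s hs)
  have hcard : Nat.card ↥(twistedF4 K (2 ^ m)) =
      ((twistedF4 K (2 ^ m) : Subgroup (GL chevF4.Idx K)) : Set (GL chevF4.Idx K)).ncard :=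
    Nat.card_coe_set_eq ((twistedF4 K (2 ^ m) : Subgroup (GL chevF4.Idx K)) :
      Set (GL chevF4.Idx K))
  rw [hcard, hset, ncard_list_union C W hdis, ← List.sum_map_mul_left]
  congr 1
  apply List.map_congr_left
  intro l hl
  exact f4_cell_card' hK l (hW1 l hl) (hWn l hl)

end

/-- alternating words -/
def f4Alt (a b : List ℕ) : ℕ → List ℕ
  | 0 => []
  | k + 1 => a ++ f4Alt b a k

/-- the 16 words representing the Weyl group of `²F₄` -/
def f4W16 : List (List ℕ) :=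
  (List.range 9).map (f4Alt [0, 3] [1, 2, 1, 2]) ++
    (List.range' 1 7).map (f4Alt [1, 2, 1, 2] [0, 3])

set_option maxRecDepth 100000 in
theorem f4W16_ok : ∀ l ∈ f4W16, f4CellOk l = true := by decide +kernel

set_option maxRecDepth 100000 in
theorem f4W16_dist : f4W16.Pairwise (fun l l' => ∃ s < 48,
    Weyl.wp chevF4.reflectRoot l s ≠ Weyl.wp chevF4.reflectRoot l' s) := by decide +kernel

set_option maxRecDepth 100000 in
theorem f4W16_exp : f4W16.map (fun l => (f4Free ∩ f4Neg l).card) =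
    [0, 1, 3, 4, 6, 7, 9, 10, 12, 2, 3, 5, 6, 8, 9, 11] := by decide +kernel

section

variable {K : Type*} [Field K] [CharP K 2] {m : ℕ}

theorem f4Alt_mem (k : ℕ) :
    nW (F := K) chevF4 f4mem (f4Alt [0, 3] [1, 2, 1, 2] k) ∈ twistedF4 K (2 ^ m) ∧
      nW (F := K) chevF4 f4mem (f4Alt [1, 2, 1, 2] [0, 3] k) ∈ twistedF4 K (2 ^ m) := by
  induction k with
  | zero =>
    refine ⟨?_, ?_⟩ <;>
    · show nW (F := K) chevF4 f4mem [] ∈ twistedF4 K (2 ^ m)
      rw [nW_nil]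
      exact one_mem _
  | succ k ih =>
    refine ⟨?_, ?_⟩
    · show nW (F := K) chevF4 f4mem ([0, 3] ++ f4Alt [1, 2, 1, 2] [0, 3] k) ∈ _
      rw [nW_app]
      exact mul_mem (f4_n1_mem _) ih.2
    · show nW (F := K) chevF4 f4mem ([1, 2, 1, 2] ++ f4Alt [0, 3] [1, 2, 1, 2] k) ∈ _
      rw [nW_app]
      exact mul_mem (f4_n2_mem _ (pow_ne_zero _ (by norm_num))) ih.1

theorem f4W16_mem : ∀ l ∈ f4W16, nW (F := K) chevF4 f4mem l ∈ twistedF4 K (2 ^ m) := by
  intro l hl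
  unfold f4W16 at hl
  rw [List.mem_append, List.mem_map, List.mem_map] at hl
  rcases hl with ⟨k, -, rfl⟩ | ⟨k, -, rfl⟩
  · exact (f4Alt_mem k).1
  · exact (f4Alt_mem k).2

end

section

variable {K : Type*} [Field K] [Fintype K] [CharP K 2] {m : ℕ}

/-- the order of `²F₄(q)`, given the Bruhat decomposition -/
theorem f4_order_of_cover (hK : Fintype.card K = 2 ^ (2 * m + 1))
    (hcov : ∀ g ∈ twistedF4 K (2 ^ m), ∃ l ∈ f4W16, g ∈
      DoubleCoset.doubleCoset (nW (F := K) chevF4 f4mem l)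
        ((chevF4.borelSubgroup K ⊓ twistedF4 K (2 ^ m) : Subgroup (GL chevF4.Idx K)) :
          Set (GL chevF4.Idx K))
        (chevF4.borelSubgroup K ⊓ twistedF4 K (2 ^ m) : Subgroup (GL chevF4.Idx K))) :
    Nat.card ↥(twistedF4 K (2 ^ m)) =
      (2 ^ (2 * m + 1)) ^ 12 * (2 ^ (2 * m + 1) - 1) * ((2 ^ (2 * m + 1)) ^ 3 + 1) *
        ((2 ^ (2 * m + 1)) ^ 4 - 1) * ((2 ^ (2 * m + 1)) ^ 6 + 1) := by
  rw [f4_card_of_cover hK f4W16 f4W16_ok f4W16_mem f4W16_dist hcov, f4_borel_card hK]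
  have e : (f4W16.map fun l => Fintype.card K ^ (f4Free ∩ f4Neg l).card) =
      (f4W16.map (fun l => (f4Free ∩ f4Neg l).card)).map (fun e => Fintype.card K ^ e) := by
    rw [List.map_map]
    rfl
  rw [e, f4W16_exp, hK]
  simp only [List.map_cons, List.map_nil, List.sum_cons, List.sum_nil]
  obtain ⟨k, hk⟩ : ∃ k, 2 ^ (2 * m + 1) = k + 1 :=
    ⟨2 ^ (2 * m + 1) - 1, (Nat.succ_pred_eq_of_pos (by positivity)).symm⟩
  rw [hk]
  have h1 : k + 1 - 1 = k := rfl
  have h2 : (k + 1) ^ 4 - 1 = k * (k + 2) * ((k + 1) ^ 2 + 1) := by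
    apply Nat.sub_eq_of_eq_add
    ring
  rw [h1, h2]
  ring

end

end Cfsg.Agent.Lib.Helper17
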