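import Cfsg.Agent.Lib.Helper17.TwD4n
import Cfsg.Agent.S0319
import Cfsg.Agent.S1050

set_option autoImplicit false

/-!
# The `(B, N)`-pair of `³D₄(q)` and its simplicity
-/

namespace Cfsg.Agent.Lib.Helper17

open Cfsg Cfsg.Lie

section tw

variable {K : Type*} [Field K] [Fintype K] (τ : K →+* K) {q : ℕ} (hτq : ∀ x, τ x = x ^ q)
  (hτ : ∀ x, τ^[3] x = x)

include hτq in
/-- the words in `a`, `b` lie in the closure of a set containing `n_a` and `n_b` -/
theorem d4_word_closure (S : Set ↥(twistedD4 K q))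
    (hS : ∀ n : ↥(twistedD4 K q), ((n : GL chevD4.Idx K) = nW (F := K) chevD4 d4_mem [1] ∨
      (n : GL chevD4.Idx K) = nW (F := K) chevD4 d4_mem [0, 2, 3]) → n ∈ S) :
    ∀ (s : List Bool)
      (h : nW (F := K) chevD4 d4_mem (s.flatMap fun b => cond b [1] [0, 2, 3]) ∈ twistedD4 K q),
      (⟨_, h⟩ : ↥(twistedD4 K q)) ∈ Subgroup.closure S := by
  intro s
  induction s with
  | nil =>
    intro h
    have e : (⟨_, h⟩ : ↥(twistedD4 K q)) = 1 := Subtype.ext (nW_nil chevD4 d4_mem)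
    rw [e]
    exact one_mem _
  | cons b s ih =>
    intro h
    have hb : nW (F := K) chevD4 d4_mem (cond b [1] [0, 2, 3]) ∈ twistedD4 K q := by
      cases b
      · exact d4_nb_mem τ hτq
      · exact d4_na_mem τ hτq
    have hsplit : nW (F := K) chevD4 d4_mem ((b :: s).flatMap fun b => cond b [1] [0, 2, 3]) =
        nW (F := K) chevD4 d4_mem (cond b [1] [0, 2, 3]) *
          nW (F := K) chevD4 d4_mem (s.flatMap fun b => cond b [1] [0, 2, 3]) := by
      rw [List.flatMap_cons, nW_app]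
    have hrest : nW (F := K) chevD4 d4_mem (s.flatMap fun b => cond b [1] [0, 2, 3]) ∈
        twistedD4 K q := by
      have e : nW (F := K) chevD4 d4_mem (s.flatMap fun b => cond b [1] [0, 2, 3]) =
          (nW (F := K) chevD4 d4_mem (cond b [1] [0, 2, 3]))⁻¹ *
            nW (F := K) chevD4 d4_mem ((b :: s).flatMap fun b => cond b [1] [0, 2, 3]) := by
        rw [hsplit]; group
      rw [e]
      exact mul_mem (inv_mem hb) h
    have e : (⟨_, h⟩ : ↥(twistedD4 K q)) = ⟨_, hb⟩ * ⟨_, hrest⟩ := Subtype.ext hsplit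
    rw [e]
    refine mul_mem (Subgroup.subset_closure (hS _ ?_)) (ih hrest)
    cases b
    · exact Or.inr rfl
    · exact Or.inl rfl

include hτq hτ in
/-- the `(B, N)`-pair of `³D₄(q)` -/
theorem d4_bnpair_aux (hK : Fintype.card K = q ^ 3) (hq1 : 1 < q) :
    ∃ P : Cfsg.BNPair ↥(twistedD4 K q),
      P.B = (chevD4.borelSubgroup K ⊓ twistedD4 K q).subgroupOf (twistedD4 K q) ∧
      P.N = (chevD4.monomialSubgroup K ⊓ twistedD4 K q).subgroupOf (twistedD4 K q) ∧
      P.S = {n : ↥(twistedD4 K q) | (n : GL chevD4.Idx K) = nW (F := K) chevD4 d4_mem [1] ∨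
        (n : GL chevD4.Idx K) = nW (F := K) chevD4 d4_mem [0, 2, 3]} := by
  obtain ⟨t1, t2, t3, t4, -⟩ := d4_word_tab
  have hHB : chevD4.diagonalSubgroup K ≤ chevD4.borelSubgroup K := le_sup_right
  have hHN : chevD4.diagonalSubgroup K ≤ chevD4.monomialSubgroup K := le_sup_left
  have hBN := Cfsg.Agent.Lib.Helper36.borel_inf_monomial (F := K) chevD4 d4_mem
    (Cfsg.Agent.Lib.Helper36.sgnOK_all chevD4 d4_mem)
  have haG := d4_na_mem (K := K) τ hτq
  have hbG := d4_nb_mem (K := K) τ hτq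
  have hBinf := d4_B_inf τ hτq hτ hK hq1
  have hSN : {n : ↥(twistedD4 K q) | (n : GL chevD4.Idx K) = nW (F := K) chevD4 d4_mem [1] ∨
      (n : GL chevD4.Idx K) = nW (F := K) chevD4 d4_mem [0, 2, 3]} ⊆
      (((chevD4.monomialSubgroup K ⊓ twistedD4 K q).subgroupOf (twistedD4 K q) :
        Subgroup ↥(twistedD4 K q)) : Set ↥(twistedD4 K q)) := by
    rintro s (hs | hs)
    · rw [SetLike.mem_coe, Subgroup.mem_subgroupOf]
      exact Subgroup.mem_inf.mpr ⟨by rw [hs]; exact nW_mem_monomial chevD4 d4_mem _, s.2⟩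
    · rw [SetLike.mem_coe, Subgroup.mem_subgroupOf]
      exact Subgroup.mem_inf.mpr ⟨by rw [hs]; exact nW_mem_monomial chevD4 d4_mem _, s.2⟩
  have hsub1 : ∀ l₀ ∈ Weyl.d4JW, ∀ J : List ℕ, J.Sublist [1] →
      (∀ s < 24, Weyl.wp (Weyl.sgF Weyl.d4WG) (J ++ l₀) (fld 9 d4RhoT s) =
        fld 9 d4RhoT (Weyl.wp (Weyl.sgF Weyl.d4WG) (J ++ l₀) s)) → J = [] ∨ J = [1] :=
    fun l₀ _ J hJ _ => List.sublist_singleton.mp hJ
  have hsub3 : ∀ l₀ ∈ Weyl.d4JW, ∀ J : List ℕ, J.Sublist [0, 2, 3] →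
      (∀ s < 24, Weyl.wp (Weyl.sgF Weyl.d4WG) (J ++ l₀) (fld 9 d4RhoT s) =
        fld 9 d4RhoT (Weyl.wp (Weyl.sgF Weyl.d4WG) (J ++ l₀) s)) → J = [] ∨ J = [0, 2, 3] := by
    intro l₀ hl₀ J hJ hc
    rcases d4_sub_chk l₀ hl₀ J (List.mem_sublists.mpr hJ) with h | h | ⟨s, hs, hne⟩
    · exact Or.inl h
    · exact Or.inr h
    · exact absurd (hc s hs) hne
  refine ⟨{ B := (chevD4.borelSubgroup K ⊓ twistedD4 K q).subgroupOf (twistedD4 K q)
            N := (chevD4.monomialSubgroup K ⊓ twistedD4 K q).subgroupOf (twistedD4 K q)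
            S := {n : ↥(twistedD4 K q) |
              (n : GL chevD4.Idx K) = nW (F := K) chevD4 d4_mem [1] ∨
              (n : GL chevD4.Idx K) = nW (F := K) chevD4 d4_mem [0, 2, 3]}
            sup_eq_top := ?_
            conj_mem := ?_
            subset := hSN
            sq_mem := ?_
            inj := ?_
            closure_sup := ?_
            mul_mem_union := ?_
            conj_ne := ?_ }, rfl, rfl, rfl⟩
  · -- sup_eq_top
    rw [eq_top_iff]
    intro g _
    have hg : (g : GL chevD4.Idx K) ∈ chevD4.group K ⊓ fixSub (d4T τ hτ).σ :=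
      tw_le_fix τ hτq hτ g.2
    obtain ⟨l, hl, hgl⟩ := (d4T τ hτ).fix_group_cells (d4T_ok τ hτ) Weyl.d4JW
      (d4_hW1 τ hτq) (d4_hWfix τ hτq hτ) (d4_hWex τ hτq hτ) _ hg
    rw [DoubleCoset.mem_doubleCoset] at hgl
    obtain ⟨x, hx, y, hy, e⟩ := hgl
    rw [← hBinf] at hx hy
    have hx' : x ∈ chevD4.borelSubgroup K ⊓ twistedD4 K q := hx
    have hy' : y ∈ chevD4.borelSubgroup K ⊓ twistedD4 K q := hy
    have hnG := d4_nW_mem (K := K) τ hτq l hl
    have e' : g = (⟨x, hx'.2⟩ : ↥(twistedD4 K q)) * ⟨_, hnG⟩ * ⟨y, hy'.2⟩ := Subtype.ext e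
    rw [e']
    exact mul_mem (mul_mem (Subgroup.mem_sup_left (Subgroup.mem_subgroupOf.mpr hx'))
      (Subgroup.mem_sup_right (Subgroup.mem_subgroupOf.mpr
        (Subgroup.mem_inf.mpr ⟨nW_mem_monomial chevD4 d4_mem _, hnG⟩))))
      (Subgroup.mem_sup_left (Subgroup.mem_subgroupOf.mpr hy'))
  · -- conj_mem
    intro n hn t ht
    rw [Subgroup.mem_subgroupOf] at hn ⊢
    have ht' : (t : GL chevD4.Idx K) ∈ chevD4.diagonalSubgroup K := by
      rw [← hBN]
      exact Subgroup.mem_inf.mpr ⟨(Subgroup.mem_subgroupOf.mp ht.1).1,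
        (Subgroup.mem_subgroupOf.mp ht.2).1⟩
    refine Subgroup.mem_inf.mpr ⟨hHB ?_, (n * t * n⁻¹).2⟩
    exact Cfsg.Agent.Lib.Helper36.conj_mem_of_mem_normalizer _
      (Cfsg.Agent.Lib.Helper18.monomialSubgroup_le_normalizer chevD4 d4_mem hn.1) ht'
  · -- sq_mem
    intro s hs
    rw [Subgroup.mem_subgroupOf]
    refine Subgroup.mem_inf.mpr ⟨hHB ?_, (s * s).2⟩
    rcases hs with hs | hs
    · rw [Subgroup.coe_mul, hs]
      exact d4_sq_mem [1] (by decide) t1
    · rw [Subgroup.coe_mul, hs]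
      exact d4_sq_mem [0, 2, 3] (by decide) t2
  · -- inj
    intro s hs s' hs' hB
    rw [Subgroup.mem_subgroupOf] at hB
    have hB' : (s : GL chevD4.Idx K)⁻¹ * (s' : GL chevD4.Idx K) ∈ chevD4.borelSubgroup K := hB.1
    rcases hs with hs | hs <;> rcases hs' with hs' | hs'
    · exact Subtype.ext (hs.trans hs'.symm)
    · rw [hs, hs'] at hB'
      exact absurd hB' (d4_inv_mul_not_mem [1] [0, 2, 3] (by decide) (by decide) t3)
    · rw [hs, hs'] at hB'
      have h2 := inv_mem hB'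
      rw [mul_inv_rev, inv_inv] at h2
      exact absurd h2 (d4_inv_mul_not_mem [1] [0, 2, 3] (by decide) (by decide) t3)
    · exact Subtype.ext (hs.trans hs'.symm)
  · -- closure_sup
    apply le_antisymm
    · exact sup_le ((Subgroup.closure_le _).mpr hSN) inf_le_right
    · intro n hn
      rw [Subgroup.mem_subgroupOf] at hn
      obtain ⟨l, hl, h, hh, e⟩ := d4_N_decomp τ hτq hτ (n : GL chevD4.Idx K) hn.1 hn.2
      have hnG := d4_nW_mem (K := K) τ hτq l hl
      have e' : n = (⟨h, hh.2⟩ : ↥(twistedD4 K q)) * ⟨_, hnG⟩ := Subtype.ext e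
      rw [e']
      refine mul_mem (Subgroup.mem_sup_right (Subgroup.mem_inf.mpr ⟨?_, ?_⟩))
        (Subgroup.mem_sup_left ?_)
      · exact Subgroup.mem_subgroupOf.mpr (Subgroup.mem_inf.mpr ⟨hHB hh.1, hh.2⟩)
      · exact Subgroup.mem_subgroupOf.mpr (Subgroup.mem_inf.mpr ⟨hHN hh.1, hh.2⟩)
      · rw [d4JW_eq] at hl
        obtain ⟨sb, -, rfl⟩ := List.mem_map.mp hl
        exact d4_word_closure τ hτq _ (fun n hn => hn) sb hnG
  · -- mul_mem_union
    intro s hs n hn b hb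
    rw [Subgroup.mem_subgroupOf] at hn hb
    rcases hs with hs | hs
    · rcases d4_bn_axiom τ hτq hτ hK hq1 [1] (by decide) haG hsub1 _ hn _ hb with
        ⟨x, hx, y, hy, e⟩ | ⟨x, hx, y, hy, e⟩
      · left
        rw [DoubleCoset.mem_doubleCoset]
        refine ⟨⟨x, hx.2⟩, Subgroup.mem_subgroupOf.mpr hx, ⟨y, hy.2⟩,
          Subgroup.mem_subgroupOf.mpr hy, Subtype.ext ?_⟩
        simp only [Subgroup.coe_mul]
        rw [hs]
        exact e
      · right
        rw [DoubleCoset.mem_doubleCoset]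
        refine ⟨⟨x, hx.2⟩, Subgroup.mem_subgroupOf.mpr hx, ⟨y, hy.2⟩,
          Subgroup.mem_subgroupOf.mpr hy, Subtype.ext ?_⟩
        simp only [Subgroup.coe_mul]
        rw [hs]
        exact e
    · rcases d4_bn_axiom τ hτq hτ hK hq1 [0, 2, 3] (by decide) hbG hsub3 _ hn _ hb with
        ⟨x, hx, y, hy, e⟩ | ⟨x, hx, y, hy, e⟩
      · left
        rw [DoubleCoset.mem_doubleCoset]
        refine ⟨⟨x, hx.2⟩, Subgroup.mem_subgroupOf.mpr hx, ⟨y, hy.2⟩,
          Subgroup.mem_subgroupOf.mpr hy, Subtype.ext ?_⟩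
        simp only [Subgroup.coe_mul]
        rw [hs]
        exact e
      · right
        rw [DoubleCoset.mem_doubleCoset]
        refine ⟨⟨x, hx.2⟩, Subgroup.mem_subgroupOf.mpr hx, ⟨y, hy.2⟩,
          Subgroup.mem_subgroupOf.mpr hy, Subtype.ext ?_⟩
        simp only [Subgroup.coe_mul]
        rw [hs]
        exact e
  · -- conj_ne
    intro s hs hEq
    rcases hs with hs | hs
    · have hxB : Cfsg.Agent.Lib.Helper18.xU chevD4 d4_mem 14 (1 : K) ∈
          chevD4.borelSubgroup K ⊓ twistedD4 K q :=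
        Subgroup.mem_inf.mpr ⟨(le_sup_left : chevD4.posUnipotent K ≤ chevD4.borelSubgroup K)
          (d4_xU_pos 14 (by decide) 1), d4_xa_mem τ hτq true 1 (map_one τ)⟩
      have h1 : s * (⟨_, hxB.2⟩ : ↥(twistedD4 K q)) * s ∈
          (((chevD4.borelSubgroup K ⊓ twistedD4 K q).subgroupOf (twistedD4 K q) :
            Subgroup ↥(twistedD4 K q)) : Set ↥(twistedD4 K q)) := by
        rw [← hEq]
        exact ⟨⟨_, hxB.2⟩, Subgroup.mem_subgroupOf.mpr hxB, rfl⟩
      rw [SetLike.mem_coe, Subgroup.mem_subgroupOf] at h1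
      have h2 := h1.1
      simp only [Subgroup.coe_mul] at h2
      rw [hs] at h2
      exact d4_conj_ne_a h2
    · have hxB : d4X τ (true, (1 : K)) ∈ chevD4.borelSubgroup K ⊓ twistedD4 K q :=
        Subgroup.mem_inf.mpr ⟨(le_sup_left : chevD4.posUnipotent K ≤ chevD4.borelSubgroup K)
          (mul_mem (mul_mem (d4_xU_pos 18 (by decide) 1) (d4_xU_pos 13 (by decide) _))
            (d4_xU_pos 12 (by decide) _)), d4X_mem τ hτq _⟩
      have h1 : s * (⟨_, hxB.2⟩ : ↥(twistedD4 K q)) * s ∈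
          (((chevD4.borelSubgroup K ⊓ twistedD4 K q).subgroupOf (twistedD4 K q) :
            Subgroup ↥(twistedD4 K q)) : Set ↥(twistedD4 K q)) := by
        rw [← hEq]
        exact ⟨⟨_, hxB.2⟩, Subgroup.mem_subgroupOf.mpr hxB, rfl⟩
      rw [SetLike.mem_coe, Subgroup.mem_subgroupOf] at h1
      have h2 := h1.1
      simp only [Subgroup.coe_mul] at h2
      rw [hs] at h2
      exact d4_conj_ne_b τ h2

end tw

/-- `³D₄(q)` has a `(B, N)`-pair -/
theorem d4_bnpair {K : Type*} [Field K] [Fintype K] {q : ℕ} (hq : IsPrimePow q)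
    (hK : Fintype.card K = q ^ 3) :
    ∃ P : Cfsg.BNPair ↥(twistedD4 K q),
      P.B = (chevD4.borelSubgroup K ⊓ twistedD4 K q).subgroupOf (twistedD4 K q) ∧
      P.N = (chevD4.monomialSubgroup K ⊓ twistedD4 K q).subgroupOf (twistedD4 K q) ∧
      P.S = {n : ↥(twistedD4 K q) | (n : GL chevD4.Idx K) = nW (F := K) chevD4 d4_mem [1] ∨
        (n : GL chevD4.Idx K) = nW (F := K) chevD4 d4_mem [0, 2, 3]} := by
  obtain ⟨τ, hτq, hτ⟩ := exists_frob K hq hK
  exact d4_bnpair_aux τ hτq hτ hK hq.one_lt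

/-- `³D₄(q)` is simple -/
theorem d4_simple {K : Type*} [Field K] [Fintype K] {q : ℕ} (hq : IsPrimePow q)
    (hK : Fintype.card K = q ^ 3) :
    IsSimpleGroup ↥(twistedD4 K q) ∧ ¬ IsMulCommutative ↥(twistedD4 K q) := by
  obtain ⟨τ, hτq, hτ⟩ := exists_frob K hq hK
  obtain ⟨P, hPB, -, hPS⟩ := d4_bnpair_aux τ hτq hτ hK hq.one_lt
  have hperf : commutator ↥(twistedD4 K q) = ⊤ := d4_perfect hq hK
  have l14 : (14 : ℕ) < chevD4.nroots := by rw [d4_nroots]; norm_num
  have hxG : Cfsg.Agent.Lib.Helper18.xU chevD4 d4_mem 14 (1 : K) ∈ twistedD4 K q :=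
    d4_xa_mem τ hτq true 1 (map_one τ)
  have hx1 : (⟨_, hxG⟩ : ↥(twistedD4 K q)) ≠ 1 := by
    intro h
    have h1 : Cfsg.Agent.Lib.Helper18.xU chevD4 d4_mem 14 (1 : K) = 1 := congrArg Subtype.val h
    have h0 := congrArg Units.val h1
    rw [Cfsg.Agent.Lib.Helper18.coe_xU, Units.val_one] at h0
    exact one_ne_zero ((Cfsg.Agent.S1024.result chevD4 d4_mem 14 l14 (1 : K)).mp h0)
  haveI hnt : Nontrivial ↥(twistedD4 K q) := ⟨⟨_, 1, hx1⟩⟩
  have hsolv : Group.IsSolvable ↥P.B := by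
    rw [hPB]
    haveI := Cfsg.Agent.S1050.result (F := K) chevD4 d4_mem
    let f : ↥((chevD4.borelSubgroup K ⊓ twistedD4 K q).subgroupOf (twistedD4 K q)) →*
        ↥(chevD4.borelSubgroup K) :=
      (Subgroup.inclusion (inf_le_left : chevD4.borelSubgroup K ⊓ twistedD4 K q ≤
        chevD4.borelSubgroup K)).comp
        ((twistedD4 K q).subtype.subgroupComap (chevD4.borelSubgroup K ⊓ twistedD4 K q))
    have hf : Function.Injective f := by
      intro a b hab
      apply Subtype.ext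
      apply Subtype.ext
      have h1 : ((f a : ↥(chevD4.borelSubgroup K)) : GL chevD4.Idx K) =
          (f b : ↥(chevD4.borelSubgroup K)) := congrArg Subtype.val hab
      exact h1
    exact Group.isSolvable_of_isSolvable_injective hf
  have hcore : P.B.normalCore = ⊥ := by
    rw [hPB]
    exact d4_core hq hK
  have hirr : P.Irreducible := by
    intro J hJ hJne hSJne
    obtain ⟨s, hs⟩ := hJne
    obtain ⟨s', hs'⟩ := hSJne
    refine ⟨s, hs, s', hs', ?_⟩
    rw [hPB, Subgroup.mem_subgroupOf]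
    intro hmem
    have hm := (Subgroup.mem_inf.mp hmem).1
    simp only [Subgroup.coe_mul, Subgroup.coe_inv] at hm
    have hsS := hJ hs
    have hs'S := hs'.1
    rw [hPS] at hsS hs'S
    rcases hsS with h1 | h1 <;> rcases hs'S with h2 | h2
    · have : s = s' := Subtype.ext (h1.trans h2.symm)
      exact hs'.2 (this ▸ hs)
    · rw [h1, h2] at hm
      exact d4_comm_not_mem hm
    · rw [h1, h2] at hm
      have hm2 := inv_mem hm
      have e : (nW (F := K) chevD4 d4_mem [0, 2, 3] * nW (F := K) chevD4 d4_mem [1] *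
          (nW (F := K) chevD4 d4_mem [0, 2, 3])⁻¹ * (nW (F := K) chevD4 d4_mem [1])⁻¹)⁻¹ =
          nW (F := K) chevD4 d4_mem [1] * nW (F := K) chevD4 d4_mem [0, 2, 3] *
          (nW (F := K) chevD4 d4_mem [1])⁻¹ * (nW (F := K) chevD4 d4_mem [0, 2, 3])⁻¹ := by
        group
      rw [e] at hm2
      exact d4_comm_not_mem hm2
    · have : s = s' := Subtype.ext (h1.trans h2.symm)
      exact hs'.2 (this ▸ hs)
  refine ⟨Cfsg.Agent.S0319.result P hirr hsolv hperf hcore, fun hcomm => ?_⟩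
  have hbot : commutator ↥(twistedD4 K q) = ⊥ := by
    rw [commutator_def, Subgroup.commutator_eq_bot_iff_le_centralizer]
    intro a _
    rw [Subgroup.mem_centralizer_iff]
    intro b _
    exact hcomm.is_comm.comm b a
  rw [hperf] at hbot
  have : (⟨_, hxG⟩ : ↥(twistedD4 K q)) ∈ (⊤ : Subgroup ↥(twistedD4 K q)) := Subgroup.mem_top _
  rw [hbot, Subgroup.mem_bot] at this
  exact hx1 this

end Cfsg.Agent.Lib.Helper17
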