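import Cfsg.Agent.Lib.Helper17.TwD4p
import Cfsg.Agent.Lib.Helper36.ChevCore

set_option autoImplicit false

/-!
# The core of the Borel subgroup of `³D₄(q)` is trivial
-/

namespace Cfsg.Agent.Lib.Helper17

open Cfsg Cfsg.Lie

section gen

variable {F : Type*} [Field F] (D : ChevalleyDatum)
  (hD : D ∈ [chevG2, chevB2, chevD4, chevF4, chevE6, chevE7, chevE8])

/-- an element of the torus acts on a root element by the character of the root -/
theorem torus_conj_xU (c : Fin D.rank → Fˣ) (s : ℕ) (hs : s < D.nroots) (t : F) :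
    Cfsg.Agent.Lib.Helper18.torusHom (F := F) D c * Cfsg.Agent.Lib.Helper18.xU D hD s t =
      Cfsg.Agent.Lib.Helper18.xU D hD s
        (((Cfsg.Agent.Lib.Helper18.mono c (fun i => D.cartan i s) : Fˣ) : F) * t) *
        Cfsg.Agent.Lib.Helper18.torusHom (F := F) D c := by
  apply Units.ext
  rw [Units.val_mul, Units.val_mul, Cfsg.Agent.Lib.Helper18.coe_torusHom,
    Cfsg.Agent.Lib.Helper18.coe_xU, Cfsg.Agent.Lib.Helper18.coe_xU,
    Cfsg.Agent.Lib.Helper18.dvecL_mul_x D hD _ _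
      (fun i hi => ⟨List.mem_range.mp hi, Cfsg.Agent.Lib.Helper18.cx_ne_zero D c i⟩) s hs t,
    ← Cfsg.Agent.Lib.Helper36.dvecL_inr D _ _ ⟨s, hs⟩,
    Cfsg.Agent.Lib.Helper18.dvecL_inr_eq_mono]

/-- a word sending the positive roots to negative roots conjugates `U` into `V` -/
theorem conj_pos_le_neg (l : List ℕ) (hl : ∀ i ∈ l, i < D.rank)
    (hneg : ∀ r, D.IsPosRoot r → D.IsNegRoot (Weyl.wp D.reflectRoot l r)) :
    (D.posUnipotent F).map (MulAut.conj (nW (F := F) D hD l)).toMonoidHom ≤ D.negUnipotent F := by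
  obtain ⟨ε, hε⟩ := nW_smap (F := F) D hD l hl
  rw [Subgroup.map_le_iff_le_comap]
  unfold ChevalleyDatum.posUnipotent
  rw [Subgroup.closure_le]
  rintro g ⟨r, t, hr, hg⟩
  refine Subgroup.subset_closure ⟨Weyl.wp D.reflectRoot l r, ε r * t, hneg r hr, ?_⟩
  show ((nW (F := F) D hD l * g * (nW (F := F) D hD l)⁻¹ : GL D.Idx F) :
    Matrix D.Idx D.Idx F) = _
  rw [Units.val_mul, Units.val_mul, hg, hε.conj r hr.1 t, mul_assoc, ← Units.val_mul,
    mul_inv_cancel, Units.val_one, mul_one]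

/-- `B ∩ n B n⁻¹ ≤ H` for such a word -/
theorem borel_inf_conj_le (l : List ℕ) (hl : ∀ i ∈ l, i < D.rank)
    (hneg : ∀ r, D.IsPosRoot r → D.IsNegRoot (Weyl.wp D.reflectRoot l r))
    (z : GL D.Idx F) (hz : z ∈ D.borelSubgroup F)
    (hz' : (nW (F := F) D hD l)⁻¹ * z * nW (F := F) D hD l ∈ D.borelSubgroup F) :
    z ∈ D.diagonalSubgroup F := by
  have h1 : z ∈ D.negUnipotent F ⊔ D.diagonalSubgroup F := by
    have h2 : z ∈ (D.borelSubgroup F).map (MulAut.conj (nW (F := F) D hD l)).toMonoidHom := by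
      refine ⟨_, hz', ?_⟩
      show nW (F := F) D hD l * ((nW (F := F) D hD l)⁻¹ * z * nW (F := F) D hD l) *
        (nW (F := F) D hD l)⁻¹ = z
      group
    unfold ChevalleyDatum.borelSubgroup at h2
    rw [Subgroup.map_sup] at h2
    have hle : (D.diagonalSubgroup F).map (MulAut.conj (nW (F := F) D hD l)).toMonoidHom ≤
        D.diagonalSubgroup F := by
      rintro _ ⟨h, hh, rfl⟩
      exact (Subgroup.mem_normalizer_iff.mp (nW_mem_normalizer D hD l) h).mp hh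
    exact (sup_le_sup (conj_pos_le_neg D hD l hl hneg) hle) h2
  have h3 := (Cfsg.Agent.S1037.result (F := F) D hD).2
  rw [← h3]
  exact ⟨hz, h1⟩

end gen

theorem d4_w0_neg : ∀ r < 24, 12 ≤ r →
    Weyl.wp (Weyl.sgF Weyl.d4WG) [1, 0, 2, 3, 1, 0, 2, 3, 1, 0, 2, 3] r < 12 := by decide +kernel

theorem d4_w0_isNeg (r : ℕ) (hr : chevD4.IsPosRoot r) :
    chevD4.IsNegRoot (Weyl.wp chevD4.reflectRoot [1, 0, 2, 3, 1, 0, 2, 3, 1, 0, 2, 3] r) := by
  rw [isPosRoot_iff chevD4 d4_mem, d4_nroots] at hr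
  rw [isNegRoot_iff chevD4 d4_mem, d4_nroots, ← d4_wlink _ (by decide) r hr.2]
  exact d4_w0_neg r hr.2 hr.1

section tw

variable {K : Type*} [Field K]

theorem d4_xU_pos (r : ℕ) (hr : r ∈ d4Blocks.flatten) (t : K) :
    Cfsg.Agent.Lib.Helper18.xU chevD4 d4_mem r t ∈ chevD4.posUnipotent K := by
  rw [← genL_eq_posUnipotent chevD4 d4_mem (d4T (RingHom.id K) (fun _ => rfl)).L
    (d4T (RingHom.id K) (fun _ => rfl)).hpos (d4T (RingHom.id K) (fun _ => rfl)).hall]
  exact Subgroup.subset_closure ⟨r, hr, t, rfl⟩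

/-- the coordinates of a product of root elements of `p₂, p₁, p₃, p₄` -/
theorem d4_coord4 [Fintype K] (a b c d a' b' c' d' : K)
    (h : Cfsg.Agent.Lib.Helper18.xU chevD4 d4_mem 14 a *
        (Cfsg.Agent.Lib.Helper18.xU chevD4 d4_mem 18 b *
          (Cfsg.Agent.Lib.Helper18.xU chevD4 d4_mem 13 c *
            Cfsg.Agent.Lib.Helper18.xU chevD4 d4_mem 12 d)) =
      Cfsg.Agent.Lib.Helper18.xU chevD4 d4_mem 14 a' *
        (Cfsg.Agent.Lib.Helper18.xU chevD4 d4_mem 18 b' *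
          (Cfsg.Agent.Lib.Helper18.xU chevD4 d4_mem 13 c' *
            Cfsg.Agent.Lib.Helper18.xU chevD4 d4_mem 12 d'))) :
    a = a' ∧ b = b' ∧ c = c' ∧ d = d' := by
  have e : ∀ (a b c d : K), oprodL chevD4 d4_mem [14, 18, 13, 12, 19, 16, 15, 17, 20, 21, 22, 23]
      (fun r => if r = 14 then a else if r = 18 then b else if r = 13 then c else
        if r = 12 then d else 0) =
      Cfsg.Agent.Lib.Helper18.xU chevD4 d4_mem 14 a *
        (Cfsg.Agent.Lib.Helper18.xU chevD4 d4_mem 18 b *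
          (Cfsg.Agent.Lib.Helper18.xU chevD4 d4_mem 13 c *
            Cfsg.Agent.Lib.Helper18.xU chevD4 d4_mem 12 d)) := by
    intro a b c d
    simp [oprodL, xU_zero]
  have h' := ord_unique chevD4 d4_mem [14, 18, 13, 12, 19, 16, 15, 17, 20, 21, 22, 23]
    (d4T (RingHom.id K) (fun _ => rfl)).hpos (d4T (RingHom.id K) (fun _ => rfl)).hnd
    (d4T (RingHom.id K) (fun _ => rfl)).hchk (d4T (RingHom.id K) (fun _ => rfl)).hall _ _
    ((e a b c d).trans (h.trans (e a' b' c' d').symm))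
  refine ⟨?_, ?_, ?_, ?_⟩
  · simpa using h' 14 (by decide)
  · simpa using h' 18 (by decide)
  · simpa using h' 13 (by decide)
  · simpa using h' 12 (by decide)

variable (τ : K →+* K) {q : ℕ} (hτq : ∀ x, τ x = x ^ q) (hτ : ∀ x, τ^[3] x = x)

include hτq hτ in
/-- an element of `³D₄(q)` all of whose conjugates lie in `B` is trivial -/
theorem d4_core_aux [Fintype K] (z : GL chevD4.Idx K)
    (hcore : ∀ g ∈ twistedD4 K q, g * z * g⁻¹ ∈ chevD4.borelSubgroup K) : z = 1 := by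
  have hl0 : ∀ i ∈ [1, 0, 2, 3, 1, 0, 2, 3, 1, 0, 2, 3], i < chevD4.rank := by
    rw [d4_rank]; decide
  have hn0 : nW (F := K) chevD4 d4_mem [1, 0, 2, 3, 1, 0, 2, 3, 1, 0, 2, 3] ∈ twistedD4 K q :=
    d4_nW_mem τ hτq _ (by decide)
  have hH : ∀ g ∈ twistedD4 K q, g * z * g⁻¹ ∈ chevD4.diagonalSubgroup K := by
    intro g hg
    apply borel_inf_conj_le chevD4 d4_mem _ hl0 d4_w0_isNeg _ (hcore g hg)
    have := hcore ((nW (F := K) chevD4 d4_mem [1, 0, 2, 3, 1, 0, 2, 3, 1, 0, 2, 3])⁻¹ * g)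
      (mul_mem (inv_mem hn0) hg)
    have e : (nW (F := K) chevD4 d4_mem [1, 0, 2, 3, 1, 0, 2, 3, 1, 0, 2, 3])⁻¹ * g * z *
        ((nW (F := K) chevD4 d4_mem [1, 0, 2, 3, 1, 0, 2, 3, 1, 0, 2, 3])⁻¹ * g)⁻¹ =
        (nW (F := K) chevD4 d4_mem [1, 0, 2, 3, 1, 0, 2, 3, 1, 0, 2, 3])⁻¹ * (g * z * g⁻¹) *
          nW (F := K) chevD4 d4_mem [1, 0, 2, 3, 1, 0, 2, 3, 1, 0, 2, 3] := by group
    rw [e] at this
    exact this
  have hz0 : z ∈ chevD4.diagonalSubgroup K := by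
    have := hH 1 (one_mem _)
    simpa using this
  have hcomm : ∀ x ∈ chevD4.posUnipotent K, x ∈ twistedD4 K q → x * z = z * x := by
    intro x hxU hxG
    have h1 := hH x hxG
    have h2 : z⁻¹ * (x * z * x⁻¹) ∈ chevD4.posUnipotent K ⊓ chevD4.diagonalSubgroup K := by
      refine Subgroup.mem_inf.mpr ⟨?_, mul_mem (inv_mem hz0) h1⟩
      have h3 : z⁻¹ * x * z⁻¹⁻¹ ∈ chevD4.posUnipotent K :=
        (Subgroup.mem_normalizer_iff.mp ((Cfsg.Agent.S1036.result (F := K) chevD4 d4_mem).1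
          (inv_mem hz0)) x).mp hxU
      have e : z⁻¹ * (x * z * x⁻¹) = (z⁻¹ * x * z⁻¹⁻¹) * x⁻¹ := by group
      rw [e]
      exact mul_mem h3 (inv_mem hxU)
    rw [(Cfsg.Agent.S1036.result (F := K) chevD4 d4_mem).2, Subgroup.mem_bot] at h2
    have h4 : x * z * x⁻¹ = z := by
      have : x * z * x⁻¹ = z * (z⁻¹ * (x * z * x⁻¹)) := by group
      rw [this, h2, mul_one]
    calc x * z = (x * z * x⁻¹) * x := by group
      _ = z * x := by rw [h4]
  obtain ⟨c, hc⟩ : ∃ c, Cfsg.Agent.Lib.Helper18.torusHom (F := K) chevD4 c = z :=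
    (le_of_eq (Cfsg.Agent.Lib.Helper18.diagonalSubgroup_eq_range chevD4 d4_mem)) hz0
  subst hc
  have l14 : (14 : ℕ) < chevD4.nroots := by rw [d4_nroots]; norm_num
  have l18 : (18 : ℕ) < chevD4.nroots := by rw [d4_nroots]; norm_num
  have l13 : (13 : ℕ) < chevD4.nroots := by rw [d4_nroots]; norm_num
  have l12 : (12 : ℕ) < chevD4.nroots := by rw [d4_nroots]; norm_num
  -- the long root
  have c14 := hcomm _ (d4_xU_pos 14 (by decide) (1 : K)) (d4_xa_mem τ hτq true 1 (map_one τ))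
  rw [torus_conj_xU chevD4 d4_mem c 14 l14] at c14
  have c14' := mul_right_cancel c14
  -- the short roots
  have cX := hcomm _ (mul_mem (mul_mem (d4_xU_pos 18 (by decide) (1 : K))
    (d4_xU_pos 13 (by decide) (τ 1))) (d4_xU_pos 12 (by decide) (τ (τ 1))))
    (d4X_mem τ hτq (true, 1))
  have cX2 : Cfsg.Agent.Lib.Helper18.torusHom (F := K) chevD4 c *
      (Cfsg.Agent.Lib.Helper18.xU chevD4 d4_mem 18 1 *
        Cfsg.Agent.Lib.Helper18.xU chevD4 d4_mem 13 (τ 1) *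
        Cfsg.Agent.Lib.Helper18.xU chevD4 d4_mem 12 (τ (τ 1))) = _ :=
    conj3 _ _ _ _ _ _ _ (torus_conj_xU chevD4 d4_mem c 18 l18 1)
      (torus_conj_xU chevD4 d4_mem c 13 l13 (τ 1)) (torus_conj_xU chevD4 d4_mem c 12 l12 (τ (τ 1)))
  have cX3 := mul_right_cancel (cX.trans cX2)
  rw [map_one, map_one] at cX3
  have k1 := d4_coord4 (K := K) 1 0 0 0
    (((Cfsg.Agent.Lib.Helper18.mono c (fun i => chevD4.cartan i 14) : Kˣ) : K) * 1) 0 0 0 (by
    simp only [xU_zero, mul_one]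
    rw [mul_one] at c14'
    exact c14')
  have k2 := d4_coord4 (K := K) 0 1 1 1 0
    (((Cfsg.Agent.Lib.Helper18.mono c (fun i => chevD4.cartan i 18) : Kˣ) : K) * 1)
    (((Cfsg.Agent.Lib.Helper18.mono c (fun i => chevD4.cartan i 13) : Kˣ) : K) * 1)
    (((Cfsg.Agent.Lib.Helper18.mono c (fun i => chevD4.cartan i 12) : Kˣ) : K) * 1) (by
    simp only [xU_zero, one_mul]
    rw [← mul_assoc, ← mul_assoc]
    exact cX3)
  apply d4_torus_eq_one
  · apply Units.ext
    rw [Units.val_one]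
    have := k2.2.1
    rw [mul_one] at this
    exact this.symm
  · apply Units.ext
    rw [Units.val_one]
    have := k1.1
    rw [mul_one] at this
    exact this.symm
  · apply Units.ext
    rw [Units.val_one]
    have := k2.2.2.1
    rw [mul_one] at this
    exact this.symm
  · apply Units.ext
    rw [Units.val_one]
    have := k2.2.2.2
    rw [mul_one] at this
    exact this.symm

end tw

/-- the core of `B ∩ ³D₄(q)` in `³D₄(q)` is trivial -/
theorem d4_core {K : Type*} [Field K] [Fintype K] {q : ℕ} (hq : IsPrimePow q)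
    (hK : Fintype.card K = q ^ 3) :
    ((chevD4.borelSubgroup K ⊓ twistedD4 K q).subgroupOf (twistedD4 K q)).normalCore = ⊥ := by
  obtain ⟨τ, hτq, hτ⟩ := exists_frob K hq hK
  rw [eq_bot_iff]
  intro z hz
  rw [Subgroup.mem_bot]
  apply Subtype.ext
  apply d4_core_aux τ hτq hτ (z : GL chevD4.Idx K)
  intro g hg
  exact (hz ⟨g, hg⟩).1

end Cfsg.Agent.Lib.Helper17
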