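import Cfsg.Agent.Lib.Helper17.TwBN
import Cfsg.Agent.Lib.Helper17.TwD4k

set_option autoImplicit false

/-!
# The `(B, N)`-pair of `³D₄(q)`: the statements in the general linear group
-/

namespace Cfsg.Agent.Lib.Helper17

open Cfsg Cfsg.Lie

/-- the proper non-empty subwords of `[0, 2, 3]` never give a word commuting with the
triality -/
theorem d4_sub_chk : ∀ l₀ ∈ Weyl.d4JW, ∀ J ∈ ([0, 2, 3] : List ℕ).sublists,
    J = [] ∨ J = [0, 2, 3] ∨ ∃ s < 24,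
      Weyl.wp (Weyl.sgF Weyl.d4WG) (J ++ l₀) (fld 9 d4RhoT s) ≠
        fld 9 d4RhoT (Weyl.wp (Weyl.sgF Weyl.d4WG) (J ++ l₀) s) := by decide +kernel

theorem d4_word_tab :
    (∀ s < 24, Weyl.wp (Weyl.sgF Weyl.d4WG) [] s = Weyl.wp (Weyl.sgF Weyl.d4WG) [1, 1] s) ∧
    (∀ s < 24, Weyl.wp (Weyl.sgF Weyl.d4WG) [] s =
      Weyl.wp (Weyl.sgF Weyl.d4WG) [0, 2, 3, 0, 2, 3] s) ∧
    (∃ s < 24, Weyl.wp (Weyl.sgF Weyl.d4WG) [1] s ≠ Weyl.wp (Weyl.sgF Weyl.d4WG) [0, 2, 3] s) ∧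
    (∃ s < 24, Weyl.wp (Weyl.sgF Weyl.d4WG) [] s ≠
      Weyl.wp (Weyl.sgF Weyl.d4WG) [1, 0, 2, 3, 1, 0, 2, 3] s) ∧
    Weyl.wp (Weyl.sgF Weyl.d4WG) [1] 14 = 9 ∧ Weyl.wp (Weyl.sgF Weyl.d4WG) [0, 2, 3] 18 = 5 ∧
    Weyl.wp (Weyl.sgF Weyl.d4WG) [0, 2, 3] 13 = 10 ∧
    Weyl.wp (Weyl.sgF Weyl.d4WG) [0, 2, 3] 12 = 11 := by decide +kernel

section tw

variable {K : Type*} [Field K] [Fintype K] (τ : K →+* K) {q : ℕ} (hτq : ∀ x, τ x = x ^ q)
  (hτ : ∀ x, τ^[3] x = x)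

include hτq hτ

/-- the elements of `N ∩ ³D₄(q)` are `h n_w` with `w` one of the twelve words -/
theorem d4_N_decomp (n : GL chevD4.Idx K) (hn : n ∈ chevD4.monomialSubgroup K)
    (hnG : n ∈ twistedD4 K q) :
    ∃ l ∈ Weyl.d4JW, ∃ h ∈ chevD4.diagonalSubgroup K ⊓ twistedD4 K q,
      n = h * nW (F := K) chevD4 d4_mem l := by
  obtain ⟨l, hl, h, hh, e⟩ := (d4T τ hτ).fix_monomial (d4T_ok τ hτ) Weyl.d4JW (d4_hW1 τ hτq)
    (d4_hWex τ hτq hτ) n hn (tw_le_fix τ hτq hτ hnG).2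
  refine ⟨l, hl, h, Subgroup.mem_inf.mpr ⟨hh, ?_⟩, e⟩
  have : h = n * (nW (F := K) chevD4 d4_mem l)⁻¹ := by rw [e]; group
  rw [this]
  exact mul_mem hnG (inv_mem (d4_nW_mem τ hτq l hl))

/-- the double coset axiom for a word `sw` representing an element of `³D₄(q)` -/
theorem d4_bn_axiom (hK : Fintype.card K = q ^ 3) (hq1 : 1 < q) (sw : List ℕ)
    (hsw4 : ∀ i ∈ sw, i < 4) (hsw : nW (F := K) chevD4 d4_mem sw ∈ twistedD4 K q)
    (hsub : ∀ l₀ ∈ Weyl.d4JW, ∀ J : List ℕ, J.Sublist sw →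
      (∀ s < 24, Weyl.wp (Weyl.sgF Weyl.d4WG) (J ++ l₀) (fld 9 d4RhoT s) =
        fld 9 d4RhoT (Weyl.wp (Weyl.sgF Weyl.d4WG) (J ++ l₀) s)) → J = [] ∨ J = sw)
    (n : GL chevD4.Idx K) (hn : n ∈ chevD4.monomialSubgroup K ⊓ twistedD4 K q)
    (b : GL chevD4.Idx K) (hb : b ∈ chevD4.borelSubgroup K ⊓ twistedD4 K q) :
    (∃ x ∈ chevD4.borelSubgroup K ⊓ twistedD4 K q, ∃ y ∈ chevD4.borelSubgroup K ⊓ twistedD4 K q,
      nW (F := K) chevD4 d4_mem sw * b * n = x * (nW (F := K) chevD4 d4_mem sw * n) * y) ∨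
    (∃ x ∈ chevD4.borelSubgroup K ⊓ twistedD4 K q, ∃ y ∈ chevD4.borelSubgroup K ⊓ twistedD4 K q,
      nW (F := K) chevD4 d4_mem sw * b * n = x * n * y) := by
  have hHB : chevD4.diagonalSubgroup K ≤ chevD4.borelSubgroup K := le_sup_right
  obtain ⟨l₀, hl₀, h, hh, rfl⟩ := d4_N_decomp τ hτq hτ n hn.1 hn.2
  have hl₀4 := Weyl.d4JW_lt l₀ hl₀
  have hl₀G := d4_nW_mem (K := K) τ hτq l₀ hl₀
  obtain ⟨J, hJsub, b₁, hb₁, b₂, hb₂, e⟩ := word_cells chevD4 d4_mem sw (d4_lt_rank sw hsw4)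
    (h * nW (F := K) chevD4 d4_mem l₀) hn.1 b hb.1
  have hJ4 : ∀ i ∈ J ++ l₀, i < 4 := by
    intro i hi
    rcases List.mem_append.mp hi with h1 | h1
    · exact hsw4 i (hJsub.subset h1)
    · exact hl₀4 i h1
  have hcell : nW (F := K) chevD4 d4_mem sw * b * (h * nW (F := K) chevD4 d4_mem l₀) ∈
      DoubleCoset.doubleCoset (nW (F := K) chevD4 d4_mem (J ++ l₀))
        (chevD4.borelSubgroup K : Set (GL chevD4.Idx K)) (chevD4.borelSubgroup K) := by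
    rw [e]
    exact mem_cell_append chevD4 d4_mem J l₀ h hh.1 b₁ b₂ hb₁ hb₂
  have hgG : nW (F := K) chevD4 d4_mem sw * b * (h * nW (F := K) chevD4 d4_mem l₀) ∈
      twistedD4 K q := mul_mem (mul_mem hsw hb.2) hn.2
  have hgfix := (tw_le_fix τ hτq hτ hgG).2
  have hcomm := (d4T τ hτ).fix_cell_comm (d4T_ok τ hτ) (J ++ l₀) (d4_lt_rank _ hJ4) _ hcell hgfix
  have hcomm' : ∀ s < 24, Weyl.wp (Weyl.sgF Weyl.d4WG) (J ++ l₀) (fld 9 d4RhoT s) =
      fld 9 d4RhoT (Weyl.wp (Weyl.sgF Weyl.d4WG) (J ++ l₀) s) := by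
    intro s hs
    rw [d4_wlink _ hJ4 s hs, d4_wlink _ hJ4 _ (Weyl.d4_rho_lt s hs)]
    exact hcomm s (by rw [d4_nroots]; exact hs)
  have hBinf := d4_B_inf τ hτq hτ hK hq1
  rcases hsub l₀ hl₀ J hJsub hcomm' with rfl | rfl
  · -- the cell of `n`
    have hc2 := (d4T τ hτ).fix_mem_cell (d4T_ok τ hτ) ([] ++ l₀) (d4_lt_rank _ hJ4)
      (tw_le_fix τ hτq hτ hl₀G).2 _ hcell hgfix
    rw [DoubleCoset.mem_doubleCoset] at hc2
    obtain ⟨x, hx, y, hy, e3⟩ := hc2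
    rw [← hBinf] at hx hy
    right
    refine ⟨x * h⁻¹, mul_mem hx (inv_mem (Subgroup.mem_inf.mpr ⟨hHB hh.1, hh.2⟩)), y, hy, ?_⟩
    rw [e3, List.nil_append]
    group
  · -- the cell of `s n`
    have hswl : nW (F := K) chevD4 d4_mem (J ++ l₀) =
        nW (F := K) chevD4 d4_mem J * nW (F := K) chevD4 d4_mem l₀ := nW_app chevD4 d4_mem J l₀
    have hc2 := (d4T τ hτ).fix_mem_cell (d4T_ok τ hτ) (J ++ l₀) (d4_lt_rank _ hJ4)
      (by rw [hswl]; exact (tw_le_fix τ hτq hτ (mul_mem hsw hl₀G)).2) _ hcell hgfix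
    rw [DoubleCoset.mem_doubleCoset] at hc2
    obtain ⟨x, hx, y, hy, e3⟩ := hc2
    rw [← hBinf] at hx hy
    left
    have hconj : nW (F := K) chevD4 d4_mem J * h⁻¹ * (nW (F := K) chevD4 d4_mem J)⁻¹ ∈
        chevD4.borelSubgroup K ⊓ twistedD4 K q :=
      Subgroup.mem_inf.mpr ⟨hHB (nW_conj_mem_diag chevD4 d4_mem J _ (inv_mem hh.1)),
        mul_mem (mul_mem hsw (inv_mem hh.2)) (inv_mem hsw)⟩
    refine ⟨x * (nW (F := K) chevD4 d4_mem J * h⁻¹ * (nW (F := K) chevD4 d4_mem J)⁻¹),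
      mul_mem hx hconj, y, hy, ?_⟩
    rw [e3, hswl]
    group

omit [Fintype K] hτq hτ in
/-- the square of a word acting as an involution lies in `H` -/
theorem d4_sq_mem (sw : List ℕ) (hsw4 : ∀ i ∈ sw, i < 4)
    (hid : ∀ s < 24, Weyl.wp (Weyl.sgF Weyl.d4WG) [] s =
      Weyl.wp (Weyl.sgF Weyl.d4WG) (sw ++ sw) s) :
    nW (F := K) chevD4 d4_mem sw * nW (F := K) chevD4 d4_mem sw ∈ chevD4.diagonalSubgroup K := by
  have h4 : ∀ i ∈ sw ++ sw, i < 4 := by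
    intro i hi
    rcases List.mem_append.mp hi with h1 | h1 <;> exact hsw4 i h1
  have h := nW_eq_mod_diag (F := K) chevD4 d4_mem [] (sw ++ sw) (by simp) (d4_lt_rank _ h4)
    (fun s hs => by
      rw [d4_nroots] at hs
      rw [← d4_wlink [] (by simp) s hs, ← d4_wlink _ h4 s hs]
      exact hid s hs)
  rw [nW_nil, inv_one, one_mul, nW_app] at h
  exact h

omit [Fintype K] hτq hτ in
/-- words of the list acting differently are different modulo `B` -/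
theorem d4_inv_mul_not_mem (l l' : List ℕ) (hl : ∀ i ∈ l, i < 4) (hl' : ∀ i ∈ l', i < 4)
    (hne : ∃ s < 24, Weyl.wp (Weyl.sgF Weyl.d4WG) l s ≠ Weyl.wp (Weyl.sgF Weyl.d4WG) l' s) :
    (nW (F := K) chevD4 d4_mem l)⁻¹ * nW (F := K) chevD4 d4_mem l' ∉ chevD4.borelSubgroup K := by
  apply nW_inv_mul_not_mem chevD4 d4_mem l l' (d4_lt_rank l hl) (d4_lt_rank l' hl')
  obtain ⟨s, hs, hne⟩ := hne
  refine ⟨s, by rw [d4_nroots]; exact hs, ?_⟩
  rw [← d4_wlink l hl s hs, ← d4_wlink l' hl' s hs]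
  exact hne

omit [Fintype K] hτq hτ in
/-- the commutator of `n_a` and `n_b` is not in `B` -/
theorem d4_comm_not_mem :
    nW (F := K) chevD4 d4_mem [1] * nW (F := K) chevD4 d4_mem [0, 2, 3] *
      (nW (F := K) chevD4 d4_mem [1])⁻¹ * (nW (F := K) chevD4 d4_mem [0, 2, 3])⁻¹ ∉
        chevD4.borelSubgroup K := by
  obtain ⟨t1, t2, -, t4, -⟩ := d4_word_tab
  intro hB
  have hHB : chevD4.diagonalSubgroup K ≤ chevD4.borelSubgroup K := le_sup_right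
  have hdA := d4_sq_mem (K := K) [1] (by decide) t1
  have hdB := d4_sq_mem (K := K) [0, 2, 3] (by decide) t2
  have h1 := nW_conj_mem_diag (F := K) chevD4 d4_mem ([1] ++ [0, 2, 3]) _ (inv_mem hdA)
  have h2 := nW_conj_mem_diag (F := K) chevD4 d4_mem ([1] ++ [0, 2, 3] ++ [1]) _ (inv_mem hdB)
  have e : nW (F := K) chevD4 d4_mem ([1] ++ [0, 2, 3] ++ [1] ++ [0, 2, 3]) =
      (nW (F := K) chevD4 d4_mem ([1] ++ [0, 2, 3] ++ [1]) *
        (nW (F := K) chevD4 d4_mem [0, 2, 3] * nW (F := K) chevD4 d4_mem [0, 2, 3])⁻¹ *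
        (nW (F := K) chevD4 d4_mem ([1] ++ [0, 2, 3] ++ [1]))⁻¹)⁻¹ *
      (nW (F := K) chevD4 d4_mem ([1] ++ [0, 2, 3]) *
        (nW (F := K) chevD4 d4_mem [1] * nW (F := K) chevD4 d4_mem [1])⁻¹ *
        (nW (F := K) chevD4 d4_mem ([1] ++ [0, 2, 3]))⁻¹)⁻¹ *
      (nW (F := K) chevD4 d4_mem [1] * nW (F := K) chevD4 d4_mem [0, 2, 3] *
        (nW (F := K) chevD4 d4_mem [1])⁻¹ * (nW (F := K) chevD4 d4_mem [0, 2, 3])⁻¹) := by
    rw [nW_app, nW_app, nW_app]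
    group
  have hmem : nW (F := K) chevD4 d4_mem ([1] ++ [0, 2, 3] ++ [1] ++ [0, 2, 3]) ∈
      chevD4.borelSubgroup K := by
    rw [e]
    exact mul_mem (mul_mem (inv_mem (hHB h2)) (inv_mem (hHB h1))) hB
  have := d4_inv_mul_not_mem (K := K) [] ([1] ++ [0, 2, 3] ++ [1] ++ [0, 2, 3]) (by simp)
    (by decide) t4
  rw [nW_nil, inv_one, one_mul] at this
  exact this hmem

omit [Fintype K] hτq hτ in
/-- `n_a x_a(1) n_a ∉ B` -/
theorem d4_conj_ne_a :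
    nW (F := K) chevD4 d4_mem [1] * Cfsg.Agent.Lib.Helper18.xU chevD4 d4_mem 14 1 *
      nW (F := K) chevD4 d4_mem [1] ∉ chevD4.borelSubgroup K := by
  obtain ⟨t1, -, -, -, w14, -⟩ := d4_word_tab
  intro hB
  have hHB : chevD4.diagonalSubgroup K ≤ chevD4.borelSubgroup K := le_sup_right
  have hdA := d4_sq_mem (K := K) [1] (by decide) t1
  have l14 : (14 : ℕ) < chevD4.nroots := by rw [d4_nroots]; norm_num
  have hV := conj_root_mem_neg (F := K) chevD4 d4_mem [1] (d4_lt_rank _ (by decide)) 14 l14 (by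
    rw [isNegRoot_iff chevD4 d4_mem, d4_nroots, ← d4_wlink [1] (by decide) 14 (by norm_num), w14]
    norm_num) 1
  have e : nW (F := K) chevD4 d4_mem [1] * Cfsg.Agent.Lib.Helper18.xU chevD4 d4_mem 14 1 *
      (nW (F := K) chevD4 d4_mem [1])⁻¹ =
      (nW (F := K) chevD4 d4_mem [1] * Cfsg.Agent.Lib.Helper18.xU chevD4 d4_mem 14 1 *
        nW (F := K) chevD4 d4_mem [1]) *
      (nW (F := K) chevD4 d4_mem [1] * nW (F := K) chevD4 d4_mem [1])⁻¹ := by group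
  have hbot : nW (F := K) chevD4 d4_mem [1] * Cfsg.Agent.Lib.Helper18.xU chevD4 d4_mem 14 1 *
      (nW (F := K) chevD4 d4_mem [1])⁻¹ ∈ chevD4.borelSubgroup K ⊓ chevD4.negUnipotent K := by
    refine Subgroup.mem_inf.mpr ⟨?_, hV⟩
    rw [e]
    exact mul_mem hB (inv_mem (hHB hdA))
  rw [(Cfsg.Agent.S1037.result (F := K) chevD4 d4_mem).1, Subgroup.mem_bot] at hbot
  have h1 : Cfsg.Agent.Lib.Helper18.xU chevD4 d4_mem 14 (1 : K) = 1 := by
    have : Cfsg.Agent.Lib.Helper18.xU chevD4 d4_mem 14 (1 : K) =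
        (nW (F := K) chevD4 d4_mem [1])⁻¹ * (nW (F := K) chevD4 d4_mem [1] *
          Cfsg.Agent.Lib.Helper18.xU chevD4 d4_mem 14 1 * (nW (F := K) chevD4 d4_mem [1])⁻¹) *
          nW (F := K) chevD4 d4_mem [1] := by group
    rw [this, hbot]
    group
  have h0 := congrArg Units.val h1
  rw [Cfsg.Agent.Lib.Helper18.coe_xU, Units.val_one] at h0
  exact one_ne_zero ((Cfsg.Agent.S1024.result chevD4 d4_mem 14 l14 (1 : K)).mp h0)

omit hτq hτ in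
/-- `n_b x_b(1) n_b ∉ B` -/
theorem d4_conj_ne_b :
    nW (F := K) chevD4 d4_mem [0, 2, 3] * d4X τ (true, 1) *
      nW (F := K) chevD4 d4_mem [0, 2, 3] ∉ chevD4.borelSubgroup K := by
  obtain ⟨-, t2, -, -, -, w18, w13, w12⟩ := d4_word_tab
  intro hB
  have hHB : chevD4.diagonalSubgroup K ≤ chevD4.borelSubgroup K := le_sup_right
  have hdB := d4_sq_mem (K := K) [0, 2, 3] (by decide) t2
  have l18 : (18 : ℕ) < chevD4.nroots := by rw [d4_nroots]; norm_num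
  have l13 : (13 : ℕ) < chevD4.nroots := by rw [d4_nroots]; norm_num
  have l12 : (12 : ℕ) < chevD4.nroots := by rw [d4_nroots]; norm_num
  have hV18 := conj_root_mem_neg (F := K) chevD4 d4_mem [0, 2, 3] (d4_lt_rank _ (by decide)) 18
    l18 (by
      rw [isNegRoot_iff chevD4 d4_mem, d4_nroots,
        ← d4_wlink [0, 2, 3] (by decide) 18 (by norm_num), w18]
      norm_num) 1
  have hV13 := conj_root_mem_neg (F := K) chevD4 d4_mem [0, 2, 3] (d4_lt_rank _ (by decide)) 13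
    l13 (by
      rw [isNegRoot_iff chevD4 d4_mem, d4_nroots,
        ← d4_wlink [0, 2, 3] (by decide) 13 (by norm_num), w13]
      norm_num) (τ 1)
  have hV12 := conj_root_mem_neg (F := K) chevD4 d4_mem [0, 2, 3] (d4_lt_rank _ (by decide)) 12
    l12 (by
      rw [isNegRoot_iff chevD4 d4_mem, d4_nroots,
        ← d4_wlink [0, 2, 3] (by decide) 12 (by norm_num), w12]
      norm_num) (τ (τ 1))
  have hX : d4X τ (true, (1 : K)) = Cfsg.Agent.Lib.Helper18.xU chevD4 d4_mem 18 1 *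
      Cfsg.Agent.Lib.Helper18.xU chevD4 d4_mem 13 (τ 1) *
      Cfsg.Agent.Lib.Helper18.xU chevD4 d4_mem 12 (τ (τ 1)) := rfl
  have hV : nW (F := K) chevD4 d4_mem [0, 2, 3] * d4X τ (true, 1) *
      (nW (F := K) chevD4 d4_mem [0, 2, 3])⁻¹ ∈ chevD4.negUnipotent K := by
    have e : nW (F := K) chevD4 d4_mem [0, 2, 3] * d4X τ (true, 1) *
        (nW (F := K) chevD4 d4_mem [0, 2, 3])⁻¹ =
        (nW (F := K) chevD4 d4_mem [0, 2, 3] * Cfsg.Agent.Lib.Helper18.xU chevD4 d4_mem 18 1 *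
          (nW (F := K) chevD4 d4_mem [0, 2, 3])⁻¹) *
        (nW (F := K) chevD4 d4_mem [0, 2, 3] * Cfsg.Agent.Lib.Helper18.xU chevD4 d4_mem 13 (τ 1) *
          (nW (F := K) chevD4 d4_mem [0, 2, 3])⁻¹) *
        (nW (F := K) chevD4 d4_mem [0, 2, 3] *
          Cfsg.Agent.Lib.Helper18.xU chevD4 d4_mem 12 (τ (τ 1)) *
          (nW (F := K) chevD4 d4_mem [0, 2, 3])⁻¹) := by
      rw [hX]; group
    rw [e]
    exact mul_mem (mul_mem hV18 hV13) hV12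
  have e : nW (F := K) chevD4 d4_mem [0, 2, 3] * d4X τ (true, 1) *
      (nW (F := K) chevD4 d4_mem [0, 2, 3])⁻¹ =
      (nW (F := K) chevD4 d4_mem [0, 2, 3] * d4X τ (true, 1) *
        nW (F := K) chevD4 d4_mem [0, 2, 3]) *
      (nW (F := K) chevD4 d4_mem [0, 2, 3] * nW (F := K) chevD4 d4_mem [0, 2, 3])⁻¹ := by group
  have hbot : nW (F := K) chevD4 d4_mem [0, 2, 3] * d4X τ (true, 1) *
      (nW (F := K) chevD4 d4_mem [0, 2, 3])⁻¹ ∈
        chevD4.borelSubgroup K ⊓ chevD4.negUnipotent K := by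
    refine Subgroup.mem_inf.mpr ⟨?_, hV⟩
    rw [e]
    exact mul_mem hB (inv_mem (hHB hdB))
  rw [(Cfsg.Agent.S1037.result (F := K) chevD4 d4_mem).1, Subgroup.mem_bot] at hbot
  have h1 : d4X τ (true, (1 : K)) = 1 := by
    have : d4X τ (true, (1 : K)) =
        (nW (F := K) chevD4 d4_mem [0, 2, 3])⁻¹ * (nW (F := K) chevD4 d4_mem [0, 2, 3] *
          d4X τ (true, 1) * (nW (F := K) chevD4 d4_mem [0, 2, 3])⁻¹) *
          nW (F := K) chevD4 d4_mem [0, 2, 3] := by group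
    rw [this, hbot]
    group
  rw [hX, map_one, map_one] at h1
  have k := d4_coord4 (K := K) 0 1 1 1 0 0 0 0 (by
    simp only [xU_zero, one_mul, mul_one]
    rw [← mul_assoc]
    exact h1)
  exact one_ne_zero k.2.1

end tw

end Cfsg.Agent.Lib.Helper17
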