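import Cfsg.Agent.Lib.Helper17.TwD4bn
import Cfsg.Agent.Lib.Helper18.ChevWeylG2

set_option autoImplicit false

/-!
# The Weyl group `N¹ / H¹` of `³D₄(q)` is the Coxeter group of type `G₂`
-/

namespace Cfsg.Agent.Lib.Helper17

open Cfsg Cfsg.Lie

section gen

variable {F : Type*} [Field F] (D : ChevalleyDatum)
  (hD : D ∈ [chevG2, chevB2, chevD4, chevF4, chevE6, chevE7, chevE8])

/-- the permutation of the roots induced by `n_w` -/
theorem piN_nW (l : List ℕ) (hl : ∀ i ∈ l, i < D.rank) :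
    ∀ (g : ↥(D.monomialSubgroup F)), (g : GL D.Idx F) = nW (F := F) D hD l →
      ∀ s < D.nroots, Cfsg.Agent.Lib.Helper18.piN D hD g s = Weyl.wp D.reflectRoot l s := by
  obtain ⟨sg, hW, hlink⟩ := exists_wsys D hD
  induction l with
  | nil =>
    intro g hg s _
    have : g = 1 := Subtype.ext (by rw [hg, nW_nil]; rfl)
    rw [this, map_one]
    rfl
  | cons i l ih =>
    intro g hg s hs
    have hi : i < D.rank := hl i List.mem_cons_self
    have hl' : ∀ j ∈ l, j < D.rank := fun j hj => hl j (List.mem_cons_of_mem _ hj)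
    have hNi : Cfsg.Agent.Lib.Helper18.nU (F := F) D hD (D.simple i) ∈ D.monomialSubgroup F :=
      Cfsg.Agent.Lib.Helper18.nU_mem_monomial D hD _
        (Cfsg.Agent.Lib.Helper18.simple_lt_nroots D hD i hi)
    have e : g = (⟨_, hNi⟩ : ↥(D.monomialSubgroup F)) * ⟨_, nW_mem_monomial D hD l⟩ :=
      Subtype.ext (by rw [hg, nW_cons D hD i hi, n36_eq_n18]; rfl)
    have hlt : Weyl.wp D.reflectRoot l s < D.nroots := by
      rw [← wp_link D sg hW hlink l hl' s hs]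
      exact Weyl.wp_lt hW l s hs
    rw [e, map_mul, Equiv.Perm.mul_apply, ih hl' _ rfl s hs,
      Cfsg.Agent.Lib.Helper18.piN_nU D hD i hi _ rfl,
      Cfsg.Agent.Lib.Helper18.reflPerm_apply D hD i hi _ hlt, Weyl.wp_cons]

end gen

/-- the six long roots of the twisted system, as the points of the hexagon -/
def d4Hex (x s : ℕ) : Bool := Nat.beq s ([23, 22, 14, 9, 1, 0].getD x 24)

open Cfsg.Agent.Lib.Helper19.Cox in
set_option maxRecDepth 100000 in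
theorem d4_hex_eq : ∀ x < 6, ∀ s < 24,
    d4Hex (UG2.data.act 0 x) (Weyl.wp (Weyl.sgF Weyl.d4WG) [0, 2, 3] s) = d4Hex x s ∧
    d4Hex (UG2.data.act 1 x) (Weyl.wp (Weyl.sgF Weyl.d4WG) [1] s) = d4Hex x s := by
  decide +kernel

theorem d4_hex_sep : ∀ x < 6, ∀ y < 6, (∀ s < 24, d4Hex x s = d4Hex y s) → x = y := by
  decide +kernel

theorem d4_word6 :
    (∀ s < 24, Weyl.wp (Weyl.sgF Weyl.d4WG) [] s = Weyl.wp (Weyl.sgF Weyl.d4WG)
      [0, 2, 3, 1, 0, 2, 3, 1, 0, 2, 3, 1, 0, 2, 3, 1, 0, 2, 3, 1, 0, 2, 3, 1] s) ∧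
    (∀ s < 24, Weyl.wp (Weyl.sgF Weyl.d4WG) [] s = Weyl.wp (Weyl.sgF Weyl.d4WG)
      [1, 0, 2, 3, 1, 0, 2, 3, 1, 0, 2, 3, 1, 0, 2, 3, 1, 0, 2, 3, 1, 0, 2, 3] s) ∧
    (∀ s < 24, Weyl.wp (Weyl.sgF Weyl.d4WG) [0, 2, 3] s < 24) ∧
    (∀ s < 24, Weyl.wp (Weyl.sgF Weyl.d4WG) [1] s < 24) := by decide +kernel

theorem g2_mat : (CoxeterMatrix.G₂ : CoxeterMatrix (Fin 2)) 0 0 = 1 ∧
    (CoxeterMatrix.G₂ : CoxeterMatrix (Fin 2)) 0 1 = 6 ∧
    (CoxeterMatrix.G₂ : CoxeterMatrix (Fin 2)) 1 0 = 6 ∧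
    (CoxeterMatrix.G₂ : CoxeterMatrix (Fin 2)) 1 1 = 1 := by decide +kernel

section tw

variable {K : Type*} [Field K]

/-- the words in `a`, `b` lie in the closure of a set containing `n_a` and `n_b`, in any
subgroup containing them -/
theorem d4_word_closure' (M : Subgroup (GL chevD4.Idx K))
    (ha : nW (F := K) chevD4 d4_mem [1] ∈ M) (hb : nW (F := K) chevD4 d4_mem [0, 2, 3] ∈ M)
    (S : Set ↥M)
    (hS : ∀ n : ↥M, ((n : GL chevD4.Idx K) = nW (F := K) chevD4 d4_mem [1] ∨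
      (n : GL chevD4.Idx K) = nW (F := K) chevD4 d4_mem [0, 2, 3]) → n ∈ S) :
    ∀ (s : List Bool)
      (h : nW (F := K) chevD4 d4_mem (s.flatMap fun b => cond b [1] [0, 2, 3]) ∈ M),
      (⟨_, h⟩ : ↥M) ∈ Subgroup.closure S := by
  intro s
  induction s with
  | nil =>
    intro h
    have e : (⟨_, h⟩ : ↥M) = 1 := Subtype.ext (nW_nil chevD4 d4_mem)
    rw [e]
    exact one_mem _
  | cons b s ih =>
    intro h
    have hb' : nW (F := K) chevD4 d4_mem (cond b [1] [0, 2, 3]) ∈ M := by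
      cases b
      · exact hb
      · exact ha
    have hsplit : nW (F := K) chevD4 d4_mem ((b :: s).flatMap fun b => cond b [1] [0, 2, 3]) =
        nW (F := K) chevD4 d4_mem (cond b [1] [0, 2, 3]) *
          nW (F := K) chevD4 d4_mem (s.flatMap fun b => cond b [1] [0, 2, 3]) := by
      rw [List.flatMap_cons, nW_app]
    have hrest : nW (F := K) chevD4 d4_mem (s.flatMap fun b => cond b [1] [0, 2, 3]) ∈ M := by
      have e : nW (F := K) chevD4 d4_mem (s.flatMap fun b => cond b [1] [0, 2, 3]) =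
          (nW (F := K) chevD4 d4_mem (cond b [1] [0, 2, 3]))⁻¹ *
            nW (F := K) chevD4 d4_mem ((b :: s).flatMap fun b => cond b [1] [0, 2, 3]) := by
        rw [hsplit]; group
      rw [e]
      exact mul_mem (inv_mem hb') h
    have e : (⟨_, h⟩ : ↥M) = ⟨_, hb'⟩ * ⟨_, hrest⟩ := Subtype.ext hsplit
    rw [e]
    refine mul_mem (Subgroup.subset_closure (hS _ ?_)) (ih hrest)
    cases b
    · exact Or.inr rfl
    · exact Or.inl rfl

variable [Fintype K] (τ : K →+* K) {q : ℕ} (hτq : ∀ x, τ x = x ^ q) (hτ : ∀ x, τ^[3] x = x)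

open Cfsg.Agent.Lib.Helper19.Cox in
include hτq hτ in
/-- `N¹ / H¹` is the Coxeter group of type `G₂` -/
theorem d4_weyl_aux :
    ∃ φ : ↥(chevD4.monomialSubgroup K ⊓ twistedD4 K q) →*
        (CoxeterMatrix.G₂ : CoxeterMatrix (Fin 2)).Group,
      Function.Surjective φ ∧
      φ.ker = (chevD4.diagonalSubgroup K ⊓ twistedD4 K q).subgroupOf
        (chevD4.monomialSubgroup K ⊓ twistedD4 K q) := by
  obtain ⟨t1, t2, -⟩ := d4_word_tab
  obtain ⟨u1, u2, u3, u4⟩ := d4_word6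
  obtain ⟨m00, m01, m10, m11⟩ := g2_mat
  have hHN : chevD4.diagonalSubgroup K ≤ chevD4.monomialSubgroup K := le_sup_left
  have haG := d4_na_mem (K := K) τ hτq
  have hbG := d4_nb_mem (K := K) τ hτq
  have haN : nW (F := K) chevD4 d4_mem [1] ∈ chevD4.monomialSubgroup K ⊓ twistedD4 K q :=
    Subgroup.mem_inf.mpr ⟨nW_mem_monomial chevD4 d4_mem _, haG⟩
  have hbN : nW (F := K) chevD4 d4_mem [0, 2, 3] ∈ chevD4.monomialSubgroup K ⊓ twistedD4 K q :=
    Subgroup.mem_inf.mpr ⟨nW_mem_monomial chevD4 d4_mem _, hbG⟩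
  set NG : Subgroup (GL chevD4.Idx K) := chevD4.monomialSubgroup K ⊓ twistedD4 K q with hNG
  set HN : Subgroup ↥NG := (chevD4.diagonalSubgroup K ⊓ twistedD4 K q).subgroupOf NG with hHNdef
  haveI hnorm : HN.Normal := by
    constructor
    intro h hh g
    rw [hHNdef, Subgroup.mem_subgroupOf] at hh ⊢
    have hgN : (g : GL chevD4.Idx K) ∈ chevD4.monomialSubgroup K := (Subgroup.mem_inf.mp g.2).1
    have hgG : (g : GL chevD4.Idx K) ∈ twistedD4 K q := (Subgroup.mem_inf.mp g.2).2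
    refine Subgroup.mem_inf.mpr ⟨?_, ?_⟩
    · exact Cfsg.Agent.Lib.Helper36.conj_mem_of_mem_normalizer _
        (Cfsg.Agent.Lib.Helper18.monomialSubgroup_le_normalizer chevD4 d4_mem hgN)
        (Subgroup.mem_inf.mp hh).1
    · exact mul_mem (mul_mem hgG (Subgroup.mem_inf.mp hh).2) (inv_mem hgG)
  set ν : Fin 2 → ↥NG := ![⟨_, hbN⟩, ⟨_, haN⟩] with hν
  have hν0 : ((ν 0 : ↥NG) : GL chevD4.Idx K) = nW (F := K) chevD4 d4_mem [0, 2, 3] := rfl
  have hν1 : ((ν 1 : ↥NG) : GL chevD4.Idx K) = nW (F := K) chevD4 d4_mem [1] := rfl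
  set π : ↥NG →* Equiv.Perm ℕ := (Cfsg.Agent.Lib.Helper18.piN chevD4 d4_mem).comp
    (Subgroup.inclusion (inf_le_left : NG ≤ chevD4.monomialSubgroup K)) with hπdef
  have hπ : HN ≤ π.ker := by
    intro g hg
    rw [MonoidHom.mem_ker]
    rw [hHNdef, Subgroup.mem_subgroupOf] at hg
    exact Cfsg.Agent.Lib.Helper18.piN_of_mem_diagonal chevD4 d4_mem _ (Subgroup.mem_inf.mp hg).1
  have hπ0 : ∀ s < 24, π (ν 0) s = Weyl.wp (Weyl.sgF Weyl.d4WG) [0, 2, 3] s := by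
    intro s hs
    rw [d4_wlink [0, 2, 3] (by decide) s hs]
    exact piN_nW chevD4 d4_mem [0, 2, 3] (d4_lt_rank _ (by decide)) _ rfl s
      (by rw [d4_nroots]; exact hs)
  have hπ1 : ∀ s < 24, π (ν 1) s = Weyl.wp (Weyl.sgF Weyl.d4WG) [1] s := by
    intro s hs
    rw [d4_wlink [1] (by decide) s hs]
    exact piN_nW chevD4 d4_mem [1] (d4_lt_rank _ (by decide)) _ rfl s
      (by rw [d4_nroots]; exact hs)
  have hgen : Subgroup.closure (Set.range ν) ⊔ HN = ⊤ := by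
    rw [eq_top_iff]
    intro g _
    obtain ⟨l, hl, h, hh, e⟩ := d4_N_decomp τ hτq hτ (g : GL chevD4.Idx K)
      (Subgroup.mem_inf.mp g.2).1 (Subgroup.mem_inf.mp g.2).2
    have hlN : nW (F := K) chevD4 d4_mem l ∈ NG :=
      Subgroup.mem_inf.mpr ⟨nW_mem_monomial chevD4 d4_mem _, d4_nW_mem τ hτq l hl⟩
    have hhN : h ∈ NG := Subgroup.mem_inf.mpr ⟨hHN (Subgroup.mem_inf.mp hh).1,
      (Subgroup.mem_inf.mp hh).2⟩
    have e' : g = (⟨h, hhN⟩ : ↥NG) * ⟨_, hlN⟩ := Subtype.ext e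
    rw [e']
    refine mul_mem (Subgroup.mem_sup_right ?_) (Subgroup.mem_sup_left ?_)
    · rw [hHNdef, Subgroup.mem_subgroupOf]
      exact hh
    · rw [d4JW_eq] at hl
      obtain ⟨sb, -, rfl⟩ := List.mem_map.mp hl
      refine d4_word_closure' NG haN hbN _ ?_ sb hlN
      rintro n (hn | hn)
      · exact ⟨1, Subtype.ext (hν1.trans hn.symm)⟩
      · exact ⟨0, Subtype.ext (hν0.trans hn.symm)⟩
  have hsqb : nW (F := K) chevD4 d4_mem [0, 2, 3] * nW (F := K) chevD4 d4_mem [0, 2, 3] ∈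
      chevD4.diagonalSubgroup K := d4_sq_mem [0, 2, 3] (by decide) t2
  have hsqa : nW (F := K) chevD4 d4_mem [1] * nW (F := K) chevD4 d4_mem [1] ∈
      chevD4.diagonalSubgroup K := d4_sq_mem [1] (by decide) t1
  have h6ba : (nW (F := K) chevD4 d4_mem [0, 2, 3] * nW (F := K) chevD4 d4_mem [1]) ^ 6 ∈
      chevD4.diagonalSubgroup K := by
    have h := nW_eq_mod_diag (F := K) chevD4 d4_mem []
      [0, 2, 3, 1, 0, 2, 3, 1, 0, 2, 3, 1, 0, 2, 3, 1, 0, 2, 3, 1, 0, 2, 3, 1] (by simp)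
      (d4_lt_rank _ (by decide)) (fun s hs => by
        rw [d4_nroots] at hs
        rw [← d4_wlink [] (by simp) s hs, ← d4_wlink _ (by decide) s hs]
        exact u1 s hs)
    have e : nW (F := K) chevD4 d4_mem
        [0, 2, 3, 1, 0, 2, 3, 1, 0, 2, 3, 1, 0, 2, 3, 1, 0, 2, 3, 1, 0, 2, 3, 1] =
        (nW (F := K) chevD4 d4_mem [0, 2, 3] * nW (F := K) chevD4 d4_mem [1]) ^ 6 := by
      rw [show ([0, 2, 3, 1, 0, 2, 3, 1, 0, 2, 3, 1, 0, 2, 3, 1, 0, 2, 3, 1, 0, 2, 3, 1] : List ℕ) =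
        [0, 2, 3] ++ ([1] ++ ([0, 2, 3] ++ ([1] ++ ([0, 2, 3] ++ ([1] ++ ([0, 2, 3] ++ ([1] ++
          ([0, 2, 3] ++ ([1] ++ ([0, 2, 3] ++ [1])))))))))) from rfl]
      simp only [nW_app, pow_succ, pow_zero, one_mul, mul_assoc]
    rw [nW_nil, inv_one, one_mul, e] at h
    exact h
  have h6ab : (nW (F := K) chevD4 d4_mem [1] * nW (F := K) chevD4 d4_mem [0, 2, 3]) ^ 6 ∈
      chevD4.diagonalSubgroup K := by
    have h := nW_eq_mod_diag (F := K) chevD4 d4_mem []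
      [1, 0, 2, 3, 1, 0, 2, 3, 1, 0, 2, 3, 1, 0, 2, 3, 1, 0, 2, 3, 1, 0, 2, 3] (by simp)
      (d4_lt_rank _ (by decide)) (fun s hs => by
        rw [d4_nroots] at hs
        rw [← d4_wlink [] (by simp) s hs, ← d4_wlink _ (by decide) s hs]
        exact u2 s hs)
    have e : nW (F := K) chevD4 d4_mem
        [1, 0, 2, 3, 1, 0, 2, 3, 1, 0, 2, 3, 1, 0, 2, 3, 1, 0, 2, 3, 1, 0, 2, 3] =
        (nW (F := K) chevD4 d4_mem [1] * nW (F := K) chevD4 d4_mem [0, 2, 3]) ^ 6 := by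
      rw [show ([1, 0, 2, 3, 1, 0, 2, 3, 1, 0, 2, 3, 1, 0, 2, 3, 1, 0, 2, 3, 1, 0, 2, 3] : List ℕ) =
        [1] ++ ([0, 2, 3] ++ ([1] ++ ([0, 2, 3] ++ ([1] ++ ([0, 2, 3] ++ ([1] ++ ([0, 2, 3] ++
          ([1] ++ ([0, 2, 3] ++ ([1] ++ [0, 2, 3])))))))))) from rfl]
      simp only [nW_app, pow_succ, pow_zero, one_mul, mul_assoc]
    rw [nW_nil, inv_one, one_mul, e] at h
    exact h
  have hrel : ∀ i j, (ν i * ν j) ^ ((CoxeterMatrix.G₂ : CoxeterMatrix (Fin 2)) i j) ∈ HN := by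
    intro i j
    rw [hHNdef, Subgroup.mem_subgroupOf]
    refine Subgroup.mem_inf.mpr ⟨?_, (Subgroup.mem_inf.mp ((ν i * ν j) ^ _).2).2⟩
    fin_cases i <;> fin_cases j
    · show ((ν 0 * ν 0) ^ ((CoxeterMatrix.G₂ : CoxeterMatrix (Fin 2)) 0 0) : ↥NG).1 ∈ _
      rw [m00, pow_one]
      exact hsqb
    · show ((ν 0 * ν 1) ^ ((CoxeterMatrix.G₂ : CoxeterMatrix (Fin 2)) 0 1) : ↥NG).1 ∈ _
      rw [m01]
      exact h6ba
    · show ((ν 1 * ν 0) ^ ((CoxeterMatrix.G₂ : CoxeterMatrix (Fin 2)) 1 0) : ↥NG).1 ∈ _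
      rw [m10]
      exact h6ab
    · show ((ν 1 * ν 1) ^ ((CoxeterMatrix.G₂ : CoxeterMatrix (Fin 2)) 1 1) : ↥NG).1 ∈ _
      rw [m11, pow_one]
      exact hsqa
  obtain ⟨φ, h1, h2, -, -⟩ := Cfsg.Agent.Lib.Helper18.weyl_abs HN
    (CoxeterMatrix.G₂ : CoxeterMatrix (Fin 2)) ν hgen hrel π hπ UG2.rep UG2.rep_inj
    UG2.data.act 6 (fun j => j) UG2.rep_simple (fun i x h => UG2.data.act_of_ge i x h)
    24 d4Hex
    (fun j s hs => by
      fin_cases j
      · show π (ν 0) s < 24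
        rw [hπ0 s hs]
        exact u3 s hs
      · show π (ν 1) s < 24
        rw [hπ1 s hs]
        exact u4 s hs)
    (fun j x hx s hs => by
      fin_cases j
      · show d4Hex (UG2.data.act 0 x) (π (ν 0) s) = d4Hex x s
        rw [hπ0 s hs]
        exact (d4_hex_eq x hx s hs).1
      · show d4Hex (UG2.data.act 1 x) (π (ν 1) s) = d4Hex x s
        rw [hπ1 s hs]
        exact (d4_hex_eq x hx s hs).2)
    d4_hex_sep
  exact ⟨φ, h1, h2⟩

end tw

/-- `N¹ / H¹` of `³D₄(q)` is the Coxeter group of type `G₂` -/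
theorem d4_weyl {K : Type*} [Field K] [Fintype K] {q : ℕ} (hq : IsPrimePow q)
    (hK : Fintype.card K = q ^ 3) :
    ∃ φ : ↥(chevD4.monomialSubgroup K ⊓ twistedD4 K q) →*
        (CoxeterMatrix.G₂ : CoxeterMatrix (Fin 2)).Group,
      Function.Surjective φ ∧
      φ.ker = (chevD4.diagonalSubgroup K ⊓ twistedD4 K q).subgroupOf
        (chevD4.monomialSubgroup K ⊓ twistedD4 K q) := by
  obtain ⟨τ, hτq, hτ⟩ := exists_frob K hq hK
  exact d4_weyl_aux τ hτq hτ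

end Cfsg.Agent.Lib.Helper17
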