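import Cfsg.Agent.Lib.Helper17.TwE6p
import Cfsg.Agent.Lib.Helper17.TwBN

set_option autoImplicit false

/-!
# `²E₆(q)`: the elements of `N ∩ G¹`, words in the orbit reflections
-/

namespace Cfsg.Agent.Lib.Helper17

open Cfsg Cfsg.Lie

open Cfsg.Agent.Lib.Helper18 (xU wordU coe_xU coe_wordU e6mem)

theorem e6_wlink (l : List ℕ) (hl : ∀ i ∈ l, i < 6) (s : ℕ) (hs : s < 72) :
    Weyl.wp (Weyl.sgF Weyl.e6WG) l s = Weyl.wp chevE6.reflectRoot l s :=
  wp_link chevE6 (Weyl.sgF Weyl.e6WG) (Weyl.wsysOK_spec Weyl.e6_wsys)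
    (fun i hi s hs => Weyl.linkOK_spec Weyl.e6_link i hi s hs) l hl s hs

theorem e6_lt_rank (l : List ℕ) (h : ∀ i ∈ l, i < 6) : ∀ i ∈ l, i < chevE6.rank := by
  intro i hi
  rw [e6_rank]
  exact h i hi

/-- the `n`-fold repetition of a word -/
def wrep (n : ℕ) (l : List ℕ) : List ℕ := (List.replicate n l).flatten

theorem wrep_zero (l : List ℕ) : wrep 0 l = [] := rfl

theorem wrep_succ (n : ℕ) (l : List ℕ) : wrep (n + 1) l = l ++ wrep n l := by
  unfold wrep
  rw [List.replicate_succ, List.flatten_cons]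

theorem wrep_lt (n : ℕ) (l : List ℕ) (m : ℕ) (hl : ∀ i ∈ l, i < m) : ∀ i ∈ wrep n l, i < m := by
  induction n with
  | zero => intro i hi; simp [wrep_zero] at hi
  | succ n ih =>
    intro i hi
    rw [wrep_succ] at hi
    rcases List.mem_append.mp hi with h | h
    · exact hl i h
    · exact ih i h

theorem nW_wrep {F : Type*} [Field F] (D : ChevalleyDatum)
    (hD : D ∈ [chevG2, chevB2, chevD4, chevF4, chevE6, chevE7, chevE8]) (n : ℕ) (l : List ℕ) :
    nW (F := F) D hD (wrep n l) = nW (F := F) D hD l ^ n := by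
  induction n with
  | zero => rw [wrep_zero, nW_nil, pow_zero]
  | succ n ih => rw [wrep_succ, nW_app, ih, pow_succ']

section tw

variable {K : Type*} [Field K]

/-- a word acting trivially on the roots lies in `H` -/
theorem e6_word_mem_diag (l : List ℕ) (hl : ∀ i ∈ l, i < 6)
    (hid : ∀ s < 72, Weyl.wp (Weyl.sgF Weyl.e6WG) [] s = Weyl.wp (Weyl.sgF Weyl.e6WG) l s) :
    nW (F := K) chevE6 e6mem l ∈ chevE6.diagonalSubgroup K := by
  have h := nW_eq_mod_diag (F := K) chevE6 e6mem [] l (by simp) (e6_lt_rank l hl)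
    (fun s hs => by
      rw [e6_nroots] at hs
      rw [← e6_wlink [] (by simp) s hs, ← e6_wlink l hl s hs]
      exact hid s hs)
  rw [nW_nil, inv_one, one_mul] at h
  exact h

/-- words acting differently on the roots are different modulo `B` -/
theorem e6_inv_mul_not_mem (l l' : List ℕ) (hl : ∀ i ∈ l, i < 6) (hl' : ∀ i ∈ l', i < 6)
    (hne : ∃ s < 72, Weyl.wp (Weyl.sgF Weyl.e6WG) l s ≠ Weyl.wp (Weyl.sgF Weyl.e6WG) l' s) :
    (nW (F := K) chevE6 e6mem l)⁻¹ * nW (F := K) chevE6 e6mem l' ∉ chevE6.borelSubgroup K := by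
  apply nW_inv_mul_not_mem chevE6 e6mem l l' (e6_lt_rank l hl) (e6_lt_rank l' hl')
  obtain ⟨s, hs, hne⟩ := hne
  refine ⟨s, by rw [e6_nroots]; exact hs, ?_⟩
  rw [← e6_wlink l hl s hs, ← e6_wlink l' hl' s hs]
  exact hne

variable (φ : K →+* K) {q : ℕ} (hφ : ∀ t, φ t = t ^ q) (hφφ : ∀ t, φ (φ t) = t)

include hφ in
/-- the orbit reflections lie in `²E₆(q)` -/
theorem e6_nJ1_mem (k : ℕ) : nW (F := K) chevE6 e6mem (e6J k) ∈ twistedE6 K q := by
  have h := e6_nJ_mem (K := K) φ hφ [k]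
  rw [List.flatMap_cons, List.flatMap_nil, List.append_nil] at h
  exact h

include hφ hφφ in
/-- the elements of `N ∩ ²E₆(q)` are `h n_w` with `w` a word in the orbit reflections -/
theorem e6_N_decomp (n : GL chevE6.Idx K)
    (hn : n ∈ chevE6.monomialSubgroup K ⊓ twistedE6 K q) :
    ∃ c : List ℕ, ∃ h ∈ chevE6.diagonalSubgroup K ⊓ twistedE6 K q,
      n = h * nW (F := K) chevE6 e6mem (c.flatMap e6J) := by
  obtain ⟨c, -, h, hh, e⟩ := Cfsg.Agent.Lib.Helper18.e6_N_tw q φ hφ hφφ n hn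
  refine ⟨c, h, hh, ?_⟩
  rw [e, ← e6_flat_eq, nW_eq_fin]
  rfl

/-- the words in the orbit reflections lie in the closure of a set containing the orbit
reflections, in any subgroup containing them -/
theorem e6_word_closure (M : Subgroup (GL chevE6.Idx K))
    (hM : ∀ k, nW (F := K) chevE6 e6mem (e6J k) ∈ M) (S : Set ↥M)
    (hS : ∀ n : ↥M, (∃ k, (n : GL chevE6.Idx K) = nW (F := K) chevE6 e6mem (e6J k)) → n ∈ S) :
    ∀ (c : List ℕ) (h : nW (F := K) chevE6 e6mem (c.flatMap e6J) ∈ M),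
      (⟨_, h⟩ : ↥M) ∈ Subgroup.closure S := by
  intro c
  induction c with
  | nil =>
    intro h
    have e : (⟨_, h⟩ : ↥M) = 1 := Subtype.ext (nW_nil chevE6 e6mem)
    rw [e]
    exact one_mem _
  | cons k c ih =>
    intro h
    have hsplit : nW (F := K) chevE6 e6mem ((k :: c).flatMap e6J) =
        nW (F := K) chevE6 e6mem (e6J k) * nW (F := K) chevE6 e6mem (c.flatMap e6J) := by
      rw [List.flatMap_cons, nW_app]
    have hrest : nW (F := K) chevE6 e6mem (c.flatMap e6J) ∈ M := by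
      have e : nW (F := K) chevE6 e6mem (c.flatMap e6J) =
          (nW (F := K) chevE6 e6mem (e6J k))⁻¹ *
            nW (F := K) chevE6 e6mem ((k :: c).flatMap e6J) := by
        rw [hsplit]; group
      rw [e]
      exact mul_mem (inv_mem (hM k)) h
    have e : (⟨_, h⟩ : ↥M) = ⟨_, hM k⟩ * ⟨_, hrest⟩ := Subtype.ext hsplit
    rw [e]
    exact mul_mem (Subgroup.subset_closure (hS _ ⟨k, rfl⟩)) (ih hrest)

end tw

end Cfsg.Agent.Lib.Helper17
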