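import Cfsg.Agent.Lib.Helper17.TwE6n
import Cfsg.Agent.Lib.Helper17.TwD4w
import Cfsg.Agent.Lib.Helper18.ChevWeylF4

set_option autoImplicit false

/-!
# The Weyl group `N¹ / H¹` of `²E₆(q)` is the Coxeter group of type `F₄`
-/

namespace Cfsg.Agent.Lib.Helper17

open Cfsg Cfsg.Lie

open Cfsg.Agent.Lib.Helper18 (xU wordU coe_xU coe_wordU e6mem)

/-- the roots fixed by the graph symmetry, as the points of the representation of `W(F₄)` -/
def e6Hex (x s : ℕ) : Bool :=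
  Nat.beq s ([0, 1, 2, 6, 18, 8, 20, 11, 24, 27, 25, 32, 46, 39, 47, 44, 51, 60, 63, 53, 65, 69,
    70, 71].getD x 72)

/-- the orbits of the graph symmetry, in the order of the Coxeter diagram of type `F₄` -/
def e6JF (j : ℕ) : List ℕ := e6J ([2, 3, 1, 0].getD j 0)

theorem e6JF_lt : ∀ j < 4, ∀ i ∈ e6JF j, i < 6 := by decide

open Cfsg.Agent.Lib.Helper19.Cox in
set_option maxRecDepth 100000 in
theorem e6_hex_eq : ∀ j < 4, ∀ x < 24, ∀ s < 72,
    e6Hex (UF4.data.act j x) (Weyl.wp (Weyl.sgF Weyl.e6WG) (e6JF j) s) = e6Hex x s := by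
  decide +kernel

set_option maxRecDepth 100000 in
theorem e6_hex_sep : ∀ x < 24, ∀ y < 24, (∀ s < 72, e6Hex x s = e6Hex y s) → x = y := by
  decide +kernel

open Cfsg.Agent.Lib.Helper19.Cox in
set_option maxRecDepth 100000 in
theorem e6_rel_chk : ∀ i < 4, ∀ j < 4, ∀ s < 72, Weyl.wp (Weyl.sgF Weyl.e6WG) [] s =
    Weyl.wp (Weyl.sgF Weyl.e6WG) (wrep (UF4.data.mm i j) (e6JF i ++ e6JF j)) s := by
  decide +kernel

section tw

variable {K : Type*} [Field K] (φ : K →+* K) {q : ℕ} (hφ : ∀ t, φ t = t ^ q)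
  (hφφ : ∀ t, φ (φ t) = t)

open Cfsg.Agent.Lib.Helper19.Cox in
include hφ hφφ in
/-- `N¹ / H¹` is the Coxeter group of type `F₄` -/
theorem e6_weyl_aux :
    ∃ ψ : ↥(chevE6.monomialSubgroup K ⊓ twistedE6 K q) →*
        (CoxeterMatrix.F₄ : CoxeterMatrix (Fin 4)).Group,
      Function.Surjective ψ ∧
      ψ.ker = (chevE6.diagonalSubgroup K ⊓ twistedE6 K q).subgroupOf
        (chevE6.monomialSubgroup K ⊓ twistedE6 K q) := by
  have hHN : chevE6.diagonalSubgroup K ≤ chevE6.monomialSubgroup K := le_sup_left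
  set NG : Subgroup (GL chevE6.Idx K) := chevE6.monomialSubgroup K ⊓ twistedE6 K q with hNG
  have hJN : ∀ k, nW (F := K) chevE6 e6mem (e6J k) ∈ NG := fun k =>
    Subgroup.mem_inf.mpr ⟨nW_mem_monomial chevE6 e6mem _, e6_nJ1_mem φ hφ k⟩
  set HN : Subgroup ↥NG := (chevE6.diagonalSubgroup K ⊓ twistedE6 K q).subgroupOf NG with hHNdef
  haveI hnorm : HN.Normal := by
    constructor
    intro h hh g
    rw [hHNdef, Subgroup.mem_subgroupOf] at hh ⊢
    have hgN : (g : GL chevE6.Idx K) ∈ chevE6.monomialSubgroup K := (Subgroup.mem_inf.mp g.2).1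
    have hgG : (g : GL chevE6.Idx K) ∈ twistedE6 K q := (Subgroup.mem_inf.mp g.2).2
    refine Subgroup.mem_inf.mpr ⟨?_, ?_⟩
    · exact Cfsg.Agent.Lib.Helper36.conj_mem_of_mem_normalizer _
        (Cfsg.Agent.Lib.Helper18.monomialSubgroup_le_normalizer chevE6 e6mem hgN)
        (Subgroup.mem_inf.mp hh).1
    · exact mul_mem (mul_mem hgG (Subgroup.mem_inf.mp hh).2) (inv_mem hgG)
  set ν : Fin 4 → ↥NG := ![⟨_, hJN 2⟩, ⟨_, hJN 3⟩, ⟨_, hJN 1⟩, ⟨_, hJN 0⟩] with hν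
  have hνc : ∀ j : Fin 4, ((ν j : ↥NG) : GL chevE6.Idx K) =
      nW (F := K) chevE6 e6mem (e6JF (j : ℕ)) := by
    intro j
    fin_cases j <;> rfl
  set π : ↥NG →* Equiv.Perm ℕ := (Cfsg.Agent.Lib.Helper18.piN chevE6 e6mem).comp
    (Subgroup.inclusion (inf_le_left : NG ≤ chevE6.monomialSubgroup K)) with hπdef
  have hπ : HN ≤ π.ker := by
    intro g hg
    rw [MonoidHom.mem_ker]
    rw [hHNdef, Subgroup.mem_subgroupOf] at hg
    exact Cfsg.Agent.Lib.Helper18.piN_of_mem_diagonal chevE6 e6mem _ (Subgroup.mem_inf.mp hg).1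
  have hπν : ∀ (j : Fin 4), ∀ s < 72,
      π (ν j) s = Weyl.wp (Weyl.sgF Weyl.e6WG) (e6JF (j : ℕ)) s := by
    intro j s hs
    rw [e6_wlink (e6JF (j : ℕ)) (e6JF_lt j j.2) s hs]
    exact piN_nW chevE6 e6mem (e6JF (j : ℕ)) (e6_lt_rank _ (e6JF_lt j j.2)) _ (hνc j) s
      (by rw [e6_nroots]; exact hs)
  have hgen : Subgroup.closure (Set.range ν) ⊔ HN = ⊤ := by
    rw [eq_top_iff]
    intro g _
    obtain ⟨c, h, hh, e⟩ := e6_N_decomp φ hφ hφφ (g : GL chevE6.Idx K) g.2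
    have hlN : nW (F := K) chevE6 e6mem (c.flatMap e6J) ∈ NG :=
      Subgroup.mem_inf.mpr ⟨nW_mem_monomial chevE6 e6mem _, e6_nJ_mem φ hφ c⟩
    have hhN : h ∈ NG := Subgroup.mem_inf.mpr ⟨hHN (Subgroup.mem_inf.mp hh).1,
      (Subgroup.mem_inf.mp hh).2⟩
    have e' : g = (⟨h, hhN⟩ : ↥NG) * ⟨_, hlN⟩ := Subtype.ext e
    rw [e']
    refine mul_mem (Subgroup.mem_sup_right ?_) (Subgroup.mem_sup_left ?_)
    · rw [hHNdef, Subgroup.mem_subgroupOf]
      exact hh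
    · refine e6_word_closure NG hJN _ ?_ c hlN
      rintro n ⟨k, hn⟩
      match k, hn with
      | 0, hn => exact ⟨3, Subtype.ext ((hνc 3).trans hn.symm)⟩
      | 1, hn => exact ⟨2, Subtype.ext ((hνc 2).trans hn.symm)⟩
      | 2, hn => exact ⟨0, Subtype.ext ((hνc 0).trans hn.symm)⟩
      | (k + 3), hn => exact ⟨1, Subtype.ext ((hνc 1).trans hn.symm)⟩
  have hrel : ∀ i j, (ν i * ν j) ^ ((CoxeterMatrix.F₄ : CoxeterMatrix (Fin 4)) i j) ∈ HN := by
    intro i j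
    rw [hHNdef, Subgroup.mem_subgroupOf]
    refine Subgroup.mem_inf.mpr ⟨?_, (Subgroup.mem_inf.mp ((ν i * ν j) ^ _).2).2⟩
    rw [UF4.data_mat i j, Subgroup.coe_pow, Subgroup.coe_mul, hνc i, hνc j, ← nW_app, ← nW_wrep]
    refine e6_word_mem_diag _ (wrep_lt _ _ 6 ?_) (fun s hs => e6_rel_chk i i.2 j j.2 s hs)
    intro x hx
    rcases List.mem_append.mp hx with h | h
    · exact e6JF_lt i i.2 x h
    · exact e6JF_lt j j.2 x h
  obtain ⟨ψ, h1, h2, -, -⟩ := Cfsg.Agent.Lib.Helper18.weyl_abs HN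
    (CoxeterMatrix.F₄ : CoxeterMatrix (Fin 4)) ν hgen hrel π hπ UF4.rep UF4.rep_inj
    UF4.data.act 24 (fun j => j) UF4.rep_simple (fun i x h => UF4.data.act_of_ge i x h)
    72 e6Hex
    (fun j s hs => by
      rw [hπν j s hs]
      exact Weyl.wp_lt (Weyl.wsysOK_spec Weyl.e6_wsys) _ s hs)
    (fun j x hx s hs => by
      rw [hπν j s hs]
      exact e6_hex_eq j j.2 x hx s hs)
    e6_hex_sep
  exact ⟨ψ, h1, h2⟩

end tw

/-- `N¹ / H¹` of `²E₆(q)` is the Coxeter group of type `F₄` -/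
theorem e6_weyl {K : Type*} [Field K] [Fintype K] {q : ℕ} (hq : IsPrimePow q)
    (hK : Fintype.card K = q ^ 2) :
    ∃ ψ : ↥(chevE6.monomialSubgroup K ⊓ twistedE6 K q) →*
        (CoxeterMatrix.F₄ : CoxeterMatrix (Fin 4)).Group,
      Function.Surjective ψ ∧
      ψ.ker = (chevE6.diagonalSubgroup K ⊓ twistedE6 K q).subgroupOf
        (chevE6.monomialSubgroup K ⊓ twistedE6 K q) := by
  obtain ⟨φ, hφ, hφφ⟩ := Cfsg.Agent.Lib.Helper18.exists_frob_sq hq hK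
  exact e6_weyl_aux φ hφ hφφ

end Cfsg.Agent.Lib.Helper17
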